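import Mathlib

set_option autoImplicit false
set_option linter.unusedSectionVars false

namespace Cfsg.Agent.Lib.Helper6

section
variable {G : Type*} [Group G]

/-- A subgroup acting freely by conjugation on a finite set: its order divides the size. -/
theorem card_dvd_of_free_conj (K : Subgroup G) (s : Finset G)
    (hclosed : ∀ k ∈ K, ∀ g ∈ s, k * g * k⁻¹ ∈ s)
    (hfree : ∀ k ∈ K, ∀ g ∈ s, k * g * k⁻¹ = g → k = 1) : Nat.card K ∣ s.card := by
  let _ : MulAction K s :=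
    { smul := fun k g => ⟨(k : G) * g * (k : G)⁻¹, hclosed k k.2 g g.2⟩
      one_smul := fun g => Subtype.ext (by
        show ((1 : K) : G) * g * ((1 : K) : G)⁻¹ = g
        rw [Subgroup.coe_one]; group)
      mul_smul := fun a b g => Subtype.ext (by
        show ((a * b : K) : G) * g * ((a * b : K) : G)⁻¹ =
          (a : G) * ((b : G) * g * (b : G)⁻¹) * (a : G)⁻¹
        rw [Subgroup.coe_mul]; group) }
  have hstab : ∀ g : s, MulAction.stabilizer K g = ⊥ := by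
    intro g
    rw [eq_bot_iff]
    intro k hk
    rw [MulAction.mem_stabilizer_iff] at hk
    have h1 : (k : G) * g * (k : G)⁻¹ = g := congrArg Subtype.val hk
    rw [Subgroup.mem_bot]
    exact Subtype.ext (hfree k k.2 g g.2 h1)
  have e := MulAction.selfEquivOrbitsQuotientProd hstab
  have h2 : Nat.card s = Nat.card (Quotient (MulAction.orbitRel K s)) * Nat.card K := by
    rw [Nat.card_congr e, Nat.card_prod]
  rw [← Nat.card_eq_finsetCard s]
  exact Dvd.intro_left _ h2.symm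

/-- A fixed-point-free permutation of prime order `p` of a finite set: `p` divides the size. -/
theorem card_dvd_of_perm {α : Type*} (s : Finset α) (f f' : α → α) (p : ℕ) [Fact p.Prime]
    (hmaps : ∀ a ∈ s, f a ∈ s) (hmaps' : ∀ a ∈ s, f' a ∈ s)
    (hl : ∀ a ∈ s, f' (f a) = a) (hr : ∀ a ∈ s, f (f' a) = a)
    (hper : ∀ a ∈ s, f^[p] a = a) (hfix : ∀ a ∈ s, f a ≠ a) : p ∣ s.card := by
  classical
  let σ : Equiv.Perm s :=
    { toFun := fun a => ⟨f a, hmaps a a.2⟩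
      invFun := fun a => ⟨f' a, hmaps' a a.2⟩
      left_inv := fun a => Subtype.ext (hl a a.2)
      right_inv := fun a => Subtype.ext (hr a a.2) }
  have hiter : ∀ (n : ℕ) (a : s), (((σ ^ n) a : s) : α) = f^[n] a := by
    intro n
    induction n with
    | zero => intro a; rfl
    | succ n ih =>
      intro a
      rw [pow_succ, Equiv.Perm.mul_apply, ih, Function.iterate_succ_apply]
      rfl
  have hσ : σ ^ p ^ 1 = 1 := by
    rw [pow_one]
    ext a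
    rw [hiter, hper a a.2]
    rfl
  by_contra hnd
  rw [← Fintype.card_coe] at hnd
  obtain ⟨a, ha⟩ := Equiv.Perm.exists_fixed_point_of_prime hnd hσ
  exact hfix a a.2 (congrArg Subtype.val ha)

end

section Coset
variable {G : Type*} [Group G]

/-- coset representatives of `⟨x⟩` in a `(2,3,5)` group -/
def RepT (x y t : G) : Prop :=
  t = 1 ∨ (∃ i : ℕ, t = y * x ^ i) ∨ (∃ i : ℕ, t = y * x ^ 2 * y * x ^ i) ∨
    t = y * x ^ 2 * y * x ^ 3 * y

variable (x y : G) (hy : y * y = 1) (hx : x ^ 5 = 1) (hyx : y * x * y * x * y * x = 1)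
include hy hx hyx

theorem cos_yinv : y⁻¹ = y := inv_eq_of_mul_eq_one_left hy

theorem cos_h4 : x ^ 4 = x⁻¹ := by
  rw [eq_inv_iff_mul_eq_one, ← pow_succ]
  exact hx

theorem cos_h3 : x ^ 3 = x⁻¹ * x⁻¹ := by
  have h : x ^ 3 = x ^ 5 * (x⁻¹ * x⁻¹) := by group
  rw [h, hx, one_mul]

theorem cos_h2 : x ^ 2 = x⁻¹ * x⁻¹ * x⁻¹ := by
  have h : x ^ 2 = x ^ 5 * (x⁻¹ * x⁻¹ * x⁻¹) := by group
  rw [h, hx, one_mul]

theorem cos_R : y * x * y = x⁻¹ * y * x⁻¹ := by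
  have h : y * x * y = (y * x * y * x * y * x) * (x⁻¹ * y⁻¹ * x⁻¹) := by group
  rw [h, hyx, one_mul, cos_yinv x y hy hx hyx]

theorem cos_R' : y * x⁻¹ * y = x * y * x := by
  have h : y * x⁻¹ * y = (y⁻¹ * x * y⁻¹)⁻¹ := by group
  rw [h, cos_yinv x y hy hx hyx, cos_R x y hy hx hyx]
  have h2 : (x⁻¹ * y * x⁻¹)⁻¹ = x * y⁻¹ * x := by group
  rw [h2, cos_yinv x y hy hx hyx]

theorem cos_S : y * x ^ 2 * y = (x⁻¹ * y * x⁻¹) * (x⁻¹ * y * x⁻¹) := by
  have e : y * x ^ 2 * y = (y * x * y) * (y⁻¹ * x * y) := by rw [pow_two]; group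
  rw [e, cos_yinv x y hy hx hyx, cos_R x y hy hx hyx]

theorem cos_a1 : y * x ^ 1 * y = x ^ 4 * (y * x ^ 4) := by
  rw [cos_h4 x y hy hx hyx, pow_one, cos_R x y hy hx hyx]
  group

theorem cos_a3 : y * x ^ 3 * y = x ^ 1 * (y * x ^ 2 * y * x ^ 1) := by
  have e : (y * x⁻¹ * y) * (y⁻¹ * x⁻¹ * y) = y * (x⁻¹ * x⁻¹) * y := by group
  rw [cos_h3 x y hy hx hyx, ← e, cos_yinv x y hy hx hyx, cos_R' x y hy hx hyx, pow_one, pow_two]
  simp only [mul_assoc]

theorem cos_a4 : y * x ^ 4 * y = x ^ 1 * (y * x ^ 1) := by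
  rw [cos_h4 x y hy hx hyx, cos_R' x y hy hx hyx]
  group

theorem cos_b1 : y * x ^ 2 * y * x ^ 1 * y = x ^ 4 * (y * x ^ 3) := by
  calc y * x ^ 2 * y * x ^ 1 * y = y * x ^ 2 * (y * x * y) := by group
    _ = y * x ^ 2 * (x⁻¹ * y * x⁻¹) := by rw [cos_R x y hy hx hyx]
    _ = (y * x * y) * x⁻¹ := by group
    _ = (x⁻¹ * y * x⁻¹) * x⁻¹ := by rw [cos_R x y hy hx hyx]
    _ = x ^ 4 * (y * x ^ 3) := by
      rw [cos_h4 x y hy hx hyx, cos_h3 x y hy hx hyx]; group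

theorem cos_b2 : y * x ^ 2 * y * x ^ 2 * y = x ^ 4 * (y * x ^ 2 * y * x ^ 4) := by
  calc y * x ^ 2 * y * x ^ 2 * y = y * x ^ 2 * (y * x ^ 2 * y) := by group
    _ = y * x ^ 2 * ((x⁻¹ * y * x⁻¹) * (x⁻¹ * y * x⁻¹)) := by rw [cos_S x y hy hx hyx]
    _ = (y * x * y) * (x⁻¹ * x⁻¹ * y * x⁻¹) := by group
    _ = (x⁻¹ * y * x⁻¹) * (x⁻¹ * x⁻¹ * y * x⁻¹) := by rw [cos_R x y hy hx hyx]
    _ = x⁻¹ * (y * (x⁻¹ * x⁻¹ * x⁻¹) * y * x⁻¹) := by group
    _ = x ^ 4 * (y * x ^ 2 * y * x ^ 4) := by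
      rw [cos_h4 x y hy hx hyx, ← cos_h2 x y hy hx hyx]

theorem cos_b4 : y * x ^ 2 * y * x ^ 4 * y = x ^ 1 * (y * x ^ 2 * y * x ^ 2) := by
  calc y * x ^ 2 * y * x ^ 4 * y = x * (x ^ 4 * (y * x ^ 2 * y * x ^ 4)) * y := by
        rw [cos_h4 x y hy hx hyx]; group
    _ = x * (y * x ^ 2 * y * x ^ 2 * y) * y := by rw [cos_b2 x y hy hx hyx]
    _ = x * (y * x ^ 2 * y * x ^ 2) * (y * y) := by group
    _ = x ^ 1 * (y * x ^ 2 * y * x ^ 2) := by rw [hy, mul_one, pow_one]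

theorem cos_d : y * x ^ 2 * y * x ^ 3 * y * x = x ^ 4 * (y * x ^ 2 * y * x ^ 3 * y) := by
  calc y * x ^ 2 * y * x ^ 3 * y * x
      = x⁻¹ * ((x * y * x) * x * y * x ^ 3 * y * x) := by rw [pow_two]; group
    _ = x⁻¹ * ((y * x⁻¹ * y) * x * y * x ^ 3 * y * x) := by rw [← cos_R' x y hy hx hyx]
    _ = x⁻¹ * (y * x⁻¹ * (y * x * y) * x ^ 3 * y * x) := by group
    _ = x⁻¹ * (y * x⁻¹ * (x⁻¹ * y * x⁻¹) * x ^ 3 * y * x) := by rw [cos_R x y hy hx hyx]
    _ = x⁻¹ * (y * (x⁻¹ * x⁻¹) * (y * x ^ 2 * y) * x) := by group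
    _ = x⁻¹ * (y * (x⁻¹ * x⁻¹) * ((x⁻¹ * y * x⁻¹) * (x⁻¹ * y * x⁻¹)) * x) := by
      rw [cos_S x y hy hx hyx]
    _ = x⁻¹ * (y * (x⁻¹ * x⁻¹ * x⁻¹) * y * (x⁻¹ * x⁻¹) * y) := by group
    _ = x ^ 4 * (y * x ^ 2 * y * x ^ 3 * y) := by
      rw [cos_h4 x y hy hx hyx, ← cos_h2 x y hy hx hyx, ← cos_h3 x y hy hx hyx]

theorem cos_pow_mod (i : ℕ) : x ^ i = x ^ (i % 5) := by
  conv_lhs => rw [← Nat.div_add_mod i 5, pow_add, pow_mul, hx, one_pow, one_mul]

theorem cos_step_x (t : G) (ht : RepT x y t) : ∃ j t', RepT x y t' ∧ t * x = x ^ j * t' := by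
  rcases ht with rfl | ⟨i, rfl⟩ | ⟨i, rfl⟩ | rfl
  · exact ⟨1, 1, Or.inl rfl, by rw [one_mul, mul_one, pow_one]⟩
  · exact ⟨0, y * x ^ (i + 1), Or.inr (Or.inl ⟨i + 1, rfl⟩), by
      rw [pow_zero, one_mul, pow_succ x i, ← mul_assoc]⟩
  · exact ⟨0, y * x ^ 2 * y * x ^ (i + 1), Or.inr (Or.inr (Or.inl ⟨i + 1, rfl⟩)), by
      rw [pow_zero, one_mul, pow_succ x i, ← mul_assoc]⟩
  · exact ⟨4, _, Or.inr (Or.inr (Or.inr rfl)), cos_d x y hy hx hyx⟩

theorem cos_step_y (t : G) (ht : RepT x y t) : ∃ j t', RepT x y t' ∧ t * y = x ^ j * t' := by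
  rcases ht with rfl | ⟨i, rfl⟩ | ⟨i, rfl⟩ | rfl
  · exact ⟨0, y * x ^ 0, Or.inr (Or.inl ⟨0, rfl⟩), by rw [pow_zero, one_mul, one_mul, mul_one]⟩
  · rw [cos_pow_mod x y hy hx hyx i]
    have hlt : i % 5 < 5 := Nat.mod_lt _ (by norm_num)
    generalize i % 5 = j at hlt
    interval_cases j
    · exact ⟨0, 1, Or.inl rfl, by rw [pow_zero, mul_one, mul_one, hy]⟩
    · exact ⟨4, y * x ^ 4, Or.inr (Or.inl ⟨4, rfl⟩), cos_a1 x y hy hx hyx⟩
    · exact ⟨0, y * x ^ 2 * y * x ^ 0, Or.inr (Or.inr (Or.inl ⟨0, rfl⟩)), by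
        rw [pow_zero, one_mul, mul_one]⟩
    · exact ⟨1, y * x ^ 2 * y * x ^ 1, Or.inr (Or.inr (Or.inl ⟨1, rfl⟩)), cos_a3 x y hy hx hyx⟩
    · exact ⟨1, y * x ^ 1, Or.inr (Or.inl ⟨1, rfl⟩), cos_a4 x y hy hx hyx⟩
  · rw [cos_pow_mod x y hy hx hyx i]
    have hlt : i % 5 < 5 := Nat.mod_lt _ (by norm_num)
    generalize i % 5 = j at hlt
    interval_cases j
    · exact ⟨0, y * x ^ 2, Or.inr (Or.inl ⟨2, rfl⟩), by
        rw [pow_zero, one_mul, mul_one, mul_assoc, hy, mul_one]⟩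
    · exact ⟨4, y * x ^ 3, Or.inr (Or.inl ⟨3, rfl⟩), cos_b1 x y hy hx hyx⟩
    · exact ⟨4, y * x ^ 2 * y * x ^ 4, Or.inr (Or.inr (Or.inl ⟨4, rfl⟩)), cos_b2 x y hy hx hyx⟩
    · exact ⟨0, y * x ^ 2 * y * x ^ 3 * y, Or.inr (Or.inr (Or.inr rfl)), by
        rw [pow_zero, one_mul]⟩
    · exact ⟨1, y * x ^ 2 * y * x ^ 2, Or.inr (Or.inr (Or.inl ⟨2, rfl⟩)), cos_b4 x y hy hx hyx⟩
  · exact ⟨0, y * x ^ 2 * y * x ^ 3, Or.inr (Or.inr (Or.inl ⟨3, rfl⟩)), by
      rw [pow_zero, one_mul, mul_assoc, hy, mul_one]⟩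

theorem cos_mem (g : G) (hg : g ∈ Subgroup.closure ({x, y} : Set G)) :
    ∃ k t, RepT x y t ∧ g = x ^ k * t := by
  have hX : ∀ g : G, (∃ k t, RepT x y t ∧ g = x ^ k * t) →
      ∃ k t, RepT x y t ∧ g * x = x ^ k * t := by
    rintro g ⟨k, t, ht, rfl⟩
    obtain ⟨j, t', ht', he⟩ := cos_step_x x y hy hx hyx t ht
    exact ⟨k + j, t', ht', by rw [mul_assoc, he, ← mul_assoc, ← pow_add]⟩
  have hY : ∀ g : G, (∃ k t, RepT x y t ∧ g = x ^ k * t) →
      ∃ k t, RepT x y t ∧ g * y = x ^ k * t := by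
    rintro g ⟨k, t, ht, rfl⟩
    obtain ⟨j, t', ht', he⟩ := cos_step_y x y hy hx hyx t ht
    exact ⟨k + j, t', ht', by rw [mul_assoc, he, ← mul_assoc, ← pow_add]⟩
  induction hg using Subgroup.closure_induction_right with
  | one => exact ⟨0, 1, Or.inl rfl, by rw [pow_zero, one_mul]⟩
  | mul_right g hg s hs ih =>
    rcases hs with rfl | hs
    · exact hX g ih
    · rw [Set.mem_singleton_iff] at hs
      subst hs
      exact hY g ih
  | mul_inv_cancel g hg s hs ih =>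
    rcases hs with rfl | hs
    · have h4 : g * s⁻¹ = g * s * s * s * s := by
        rw [← cos_h4 s y hy hx hyx]
        simp only [mul_assoc, pow_succ, pow_zero, one_mul]
      rw [h4]
      exact hX _ (hX _ (hX _ (hX _ ih)))
    · rw [Set.mem_singleton_iff] at hs
      subst hs
      rw [cos_yinv x s hy hx hyx]
      exact hY g ih

/-- Coset enumeration: a group generated by `x, y` with `y² = x⁵ = (yx)³ = 1` has order at
most `60`. -/
theorem card_closure_le_sixty : Nat.card (Subgroup.closure ({x, y} : Set G)) ≤ 60 := by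
  classical
  let R : Finset G := {1} ∪ (Finset.range 5).image (fun i => y * x ^ i) ∪
    (Finset.range 5).image (fun i => y * x ^ 2 * y * x ^ i) ∪ {y * x ^ 2 * y * x ^ 3 * y}
  let S : Finset G := ((Finset.range 5) ×ˢ R).image (fun p => x ^ p.1 * p.2)
  have hR : R.card ≤ 12 := by
    refine (Finset.card_union_le _ _).trans ?_
    have h1 := Finset.card_union_le ({1} ∪ (Finset.range 5).image (fun i => y * x ^ i))
      ((Finset.range 5).image (fun i => y * x ^ 2 * y * x ^ i))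
    have h2 := Finset.card_union_le ({1} : Finset G) ((Finset.range 5).image (fun i => y * x ^ i))
    have h3 : ((Finset.range 5).image (fun i => y * x ^ i)).card ≤ 5 :=
      Finset.card_image_le.trans (by rw [Finset.card_range])
    have h4 : ((Finset.range 5).image (fun i => y * x ^ 2 * y * x ^ i)).card ≤ 5 :=
      Finset.card_image_le.trans (by rw [Finset.card_range])
    rw [Finset.card_singleton] at h2 ⊢
    omega
  have hS : S.card ≤ 60 := by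
    refine Finset.card_image_le.trans ?_
    rw [Finset.card_product, Finset.card_range]
    omega
  have hsub : ((Subgroup.closure ({x, y} : Set G) : Subgroup G) : Set G) ⊆ ↑S := by
    intro g hg
    obtain ⟨k, t, ht, rfl⟩ := cos_mem x y hy hx hyx g hg
    rw [Finset.mem_coe, Finset.mem_image]
    have hk : k % 5 < 5 := Nat.mod_lt _ (by norm_num)
    have htR : ∃ t' ∈ R, t' = t := by
      rcases ht with rfl | ⟨i, rfl⟩ | ⟨i, rfl⟩ | rfl
      · exact ⟨1, by simp [R], rfl⟩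
      · refine ⟨y * x ^ (i % 5), ?_, by rw [← cos_pow_mod x y hy hx hyx i]⟩
        have hi : i % 5 < 5 := Nat.mod_lt _ (by norm_num)
        simp only [R, Finset.mem_union, Finset.mem_image, Finset.mem_range, Finset.mem_singleton]
        exact Or.inl (Or.inl (Or.inr ⟨i % 5, hi, rfl⟩))
      · refine ⟨y * x ^ 2 * y * x ^ (i % 5), ?_, by rw [← cos_pow_mod x y hy hx hyx i]⟩
        have hi : i % 5 < 5 := Nat.mod_lt _ (by norm_num)
        simp only [R, Finset.mem_union, Finset.mem_image, Finset.mem_range, Finset.mem_singleton]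
        exact Or.inl (Or.inr ⟨i % 5, hi, rfl⟩)
      · exact ⟨_, by simp [R], rfl⟩
    obtain ⟨t', ht', rfl⟩ := htR
    exact ⟨(k % 5, t'), Finset.mem_product.mpr ⟨Finset.mem_range.mpr hk, ht'⟩, by
      show x ^ (k % 5) * t' = x ^ k * t'
      rw [← cos_pow_mod x y hy hx hyx k]⟩
  calc Nat.card (Subgroup.closure ({x, y} : Set G))
      = Set.ncard ((Subgroup.closure ({x, y} : Set G) : Subgroup G) : Set G) :=
        Nat.card_coe_set_eq _
    _ ≤ Set.ncard (↑S : Set G) := Set.ncard_le_ncard hsub (Finset.finite_toSet S)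
    _ = S.card := Set.ncard_coe_finset S
    _ ≤ 60 := hS

end Coset

end Cfsg.Agent.Lib.Helper6
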