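import Mathlib

set_option autoImplicit false

namespace Cfsg.Agent.Lib.Helper6

open DihedralGroup

theorem d8a_pow_four : ∀ d : DihedralGroup 4, d ^ 4 = 1 := by decide

theorem d8a_central : ∀ d : DihedralGroup 4, (∀ d', d * d' = d' * d) → d ≠ 1 → d = r 2 := by
  decide

theorem d8a_r2 : (r 2 : DihedralGroup 4) * r 2 = 1 ∧ (r 2 : DihedralGroup 4) ≠ 1 := by decide

theorem d8a_J : ∀ d : DihedralGroup 4, d * d = 1 → d ≠ 1 → d ≠ r 2 →
    d ∈ ({sr 0, sr 1, sr 2, sr 3} : Finset (DihedralGroup 4)) := by decide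

theorem d8a_J' : ∀ d ∈ ({sr 0, sr 1, sr 2, sr 3} : Finset (DihedralGroup 4)),
    d * d = 1 ∧ d ≠ 1 ∧ d ≠ r 2 := by decide

theorem d8a_J_card : ({sr 0, sr 1, sr 2, sr 3} : Finset (DihedralGroup 4)).card = 4 := by decide

theorem d8a_sqrt : ∀ d : DihedralGroup 4, d * d = r 2 ↔
    d ∈ ({r 1, r 3} : Finset (DihedralGroup 4)) := by decide

theorem d8a_sqrt_card : ({r 1, r 3} : Finset (DihedralGroup 4)).card = 2 := by decide

theorem d8a_comm : ∀ c g : DihedralGroup 4, c * c = 1 → c ≠ 1 → c ≠ r 2 → g * c = c * g →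
    g = 1 ∨ g = r 2 ∨ g = c ∨ g = r 2 * c := by decide

theorem d8a_noncomm : ∀ d' : DihedralGroup 4, d' * d' = 1 → d' ≠ 1 → d' ≠ r 2 →
    (Finset.univ.filter (fun a : DihedralGroup 4 =>
      a * a = 1 ∧ a ≠ 1 ∧ a ≠ r 2 ∧ a * d' ≠ d' * a)).card = 2 := by decide

theorem d8a_mul : ∀ a b : DihedralGroup 4, a * a = 1 → a ≠ 1 → a ≠ r 2 → b * b = 1 → b ≠ 1 →
    b ≠ r 2 → a ≠ b → a * b = b * a → a * b = r 2 := by decide

theorem d8a_inverts : ∀ c u : DihedralGroup 4, c * c = 1 → c ≠ 1 → c ≠ r 2 → u * u = r 2 →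
    c * u * c * u = 1 := by decide

/-- `y` is an involution whose centralizer is a copy of `D₈`, with `y` its central involution. -/
def IsD8Inv {G : Type*} [Group G] (y : G) : Prop :=
  ∃ ι : DihedralGroup 4 →* G, Function.Injective ι ∧ ι (r 2) = y ∧ ∀ g, Commute g y → ∃ d, ι d = g

section
variable {G : Type*} [Group G]

theorem isD8Inv_of_equiv (z : G) (hz : orderOf z = 2)
    (e : Subgroup.centralizer ({z} : Set G) ≃* DihedralGroup 4) : IsD8Inv z := by
  have hzmem : z ∈ Subgroup.centralizer ({z} : Set G) :=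
    Subgroup.mem_centralizer_singleton_iff.mpr rfl
  have h1 : e ⟨z, hzmem⟩ = r 2 := by
    apply d8a_central
    · intro d'
      obtain ⟨c, rfl⟩ := e.surjective d'
      rw [← map_mul, ← map_mul]
      congr 1
      apply Subtype.ext
      exact (Subgroup.mem_centralizer_singleton_iff.mp c.2).symm
    · intro h
      have h2 : (⟨z, hzmem⟩ : Subgroup.centralizer ({z} : Set G)) = 1 :=
        e.injective (by rw [h, map_one])
      have hz1 : z = 1 := congrArg Subtype.val h2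
      rw [hz1, orderOf_one] at hz
      omega
  refine ⟨(Subgroup.subtype _).comp e.symm.toMonoidHom, ?_, ?_, ?_⟩
  · exact (Subgroup.subtype_injective _).comp e.symm.injective
  · show ((e.symm (r 2) : Subgroup.centralizer ({z} : Set G)) : G) = z
    rw [← h1, e.symm_apply_apply]
  · intro g hg
    have hgmem : g ∈ Subgroup.centralizer ({z} : Set G) :=
      Subgroup.mem_centralizer_singleton_iff.mpr hg.eq
    refine ⟨e ⟨g, hgmem⟩, ?_⟩
    show ((e.symm (e ⟨g, hgmem⟩) : Subgroup.centralizer ({z} : Set G)) : G) = g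
    rw [e.symm_apply_apply]

theorem IsD8Inv.conj {y : G} (h : IsD8Inv y) (g : G) : IsD8Inv (g * y * g⁻¹) := by
  obtain ⟨ι, hinj, hy, hsurj⟩ := h
  refine ⟨(MulAut.conj g).toMonoidHom.comp ι, (MulAut.conj g).injective.comp hinj, ?_, ?_⟩
  · show (MulAut.conj g) (ι (r 2)) = g * y * g⁻¹
    rw [hy, MulAut.conj_apply]
  · intro c hc
    have hc' : Commute (g⁻¹ * c * g) y := by
      have h1 : c * (g * y * g⁻¹) = (g * y * g⁻¹) * c := hc.eq
      show g⁻¹ * c * g * y = y * (g⁻¹ * c * g)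
      have h2 : g⁻¹ * c * g * y = g⁻¹ * (c * (g * y * g⁻¹)) * g := by group
      rw [h2, h1]
      group
    obtain ⟨d, hd⟩ := hsurj _ hc'
    refine ⟨d, ?_⟩
    show (MulAut.conj g) (ι d) = c
    rw [hd, MulAut.conj_apply]
    group

theorem IsD8Inv.orderOf_eq {y : G} (h : IsD8Inv y) : orderOf y = 2 := by
  obtain ⟨ι, hinj, rfl, -⟩ := h
  rw [orderOf_injective ι hinj]
  exact orderOf_eq_prime (by rw [pow_two]; exact d8a_r2.1) d8a_r2.2

theorem IsD8Inv.pow_four {y : G} (h : IsD8Inv y) {g : G} (hg : Commute g y) : g ^ 4 = 1 := by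
  obtain ⟨ι, hinj, rfl, hsurj⟩ := h
  obtain ⟨d, rfl⟩ := hsurj g hg
  rw [← map_pow, d8a_pow_four, map_one]

/-- The four non-central involutions of the centralizer. -/
theorem IsD8Inv.card_J {y : G} (h : IsD8Inv y) (s : Finset G)
    (hs : ∀ c, c ∈ s ↔ (c * c = 1 ∧ c ≠ 1 ∧ Commute c y ∧ c ≠ y)) : s.card = 4 := by
  classical
  obtain ⟨ι, hinj, rfl, hsurj⟩ := h
  have hse : s = ({sr 0, sr 1, sr 2, sr 3} : Finset (DihedralGroup 4)).image ι := by
    ext c
    rw [hs, Finset.mem_image]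
    constructor
    · rintro ⟨h2, h1, hc, hne⟩
      obtain ⟨d, rfl⟩ := hsurj c hc
      exact ⟨d, d8a_J d (hinj (by rw [map_mul, map_one]; exact h2))
        (fun h => h1 (by rw [h, map_one])) (fun h => hne (by rw [h])), rfl⟩
    · rintro ⟨d, hd, rfl⟩
      obtain ⟨h2, h1, hne⟩ := d8a_J' d hd
      refine ⟨by rw [← map_mul, h2, map_one], fun h => h1 (hinj (by rw [h, map_one])), ?_,
        fun h => hne (hinj h)⟩
      show ι d * ι (r 2) = ι (r 2) * ι d
      rw [← map_mul, ← map_mul]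
      congr 1
      revert d
      decide
  rw [hse, Finset.card_image_of_injective _ hinj, d8a_J_card]

/-- Exactly two elements square to the central involution. -/
theorem IsD8Inv.card_sqrt {y : G} (h : IsD8Inv y) (s : Finset G)
    (hs : ∀ u, u ∈ s ↔ u * u = y) : s.card = 2 := by
  classical
  obtain ⟨ι, hinj, rfl, hsurj⟩ := h
  have hse : s = ({r 1, r 3} : Finset (DihedralGroup 4)).image ι := by
    ext u
    rw [hs, Finset.mem_image]
    constructor
    · intro hu
      have hc : Commute u (ι (r 2)) := by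
        show u * ι (r 2) = ι (r 2) * u
        rw [← hu, mul_assoc]
      obtain ⟨d, rfl⟩ := hsurj u hc
      exact ⟨d, (d8a_sqrt d).mp (hinj (by rw [map_mul]; exact hu)), rfl⟩
    · rintro ⟨d, hd, rfl⟩
      rw [← map_mul, (d8a_sqrt d).mpr hd]
  rw [hse, Finset.card_image_of_injective _ hinj, d8a_sqrt_card]

theorem IsD8Inv.comm_mem {y : G} (h : IsD8Inv y) {c g : G} (hc : c * c = 1) (hc1 : c ≠ 1)
    (hcy : Commute c y) (hcne : c ≠ y) (hg : Commute g y) (hgc : Commute g c) :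
    g = 1 ∨ g = y ∨ g = c ∨ g = y * c := by
  obtain ⟨ι, hinj, rfl, hsurj⟩ := h
  obtain ⟨c', rfl⟩ := hsurj c hcy
  obtain ⟨g', rfl⟩ := hsurj g hg
  rcases d8a_comm c' g' (hinj (by rw [map_mul, map_one]; exact hc))
    (fun h => hc1 (by rw [h, map_one])) (fun h => hcne (by rw [h]))
    (hinj (by rw [map_mul, map_mul]; exact hgc.eq)) with h | h | h | h
  · left; rw [h, map_one]
  · right; left; rw [h]
  · right; right; left; rw [h]
  · right; right; right; rw [h, map_mul]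

theorem IsD8Inv.card_noncomm {y : G} (h : IsD8Inv y) {y' : G} (hy' : y' * y' = 1) (hy'1 : y' ≠ 1)
    (hy'c : Commute y' y) (hy'ne : y' ≠ y) (s : Finset G)
    (hs : ∀ a, a ∈ s → (a * a = 1 ∧ a ≠ 1 ∧ Commute a y ∧ a ≠ y ∧ ¬ Commute a y')) :
    s.card ≤ 2 := by
  classical
  obtain ⟨ι, hinj, rfl, hsurj⟩ := h
  obtain ⟨d', rfl⟩ := hsurj y' hy'c
  have hsub : s ⊆ (Finset.univ.filter (fun a : DihedralGroup 4 =>
      a * a = 1 ∧ a ≠ 1 ∧ a ≠ r 2 ∧ a * d' ≠ d' * a)).image ι := by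
    intro a ha
    obtain ⟨h2, h1, hc, hne, hnc⟩ := hs a ha
    obtain ⟨d, rfl⟩ := hsurj a hc
    rw [Finset.mem_image]
    refine ⟨d, ?_, rfl⟩
    rw [Finset.mem_filter]
    refine ⟨Finset.mem_univ _, hinj (by rw [map_mul, map_one]; exact h2),
      fun h => h1 (by rw [h, map_one]), fun h => hne (by rw [h]), fun h => hnc ?_⟩
    show ι d * ι d' = ι d' * ι d
    rw [← map_mul, ← map_mul, h]
  refine (Finset.card_le_card hsub).trans (Finset.card_image_le.trans ?_)
  rw [d8a_noncomm d' (hinj (by rw [map_mul, map_one]; exact hy'))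
    (fun h => hy'1 (by rw [h, map_one])) (fun h => hy'ne (by rw [h]))]

theorem IsD8Inv.mul_eq {y : G} (h : IsD8Inv y) {a b : G} (ha : a * a = 1) (ha1 : a ≠ 1)
    (hay : Commute a y) (hane : a ≠ y) (hb : b * b = 1) (hb1 : b ≠ 1) (hby : Commute b y)
    (hbne : b ≠ y) (hab : a ≠ b) (hc : Commute a b) : a * b = y := by
  obtain ⟨ι, hinj, rfl, hsurj⟩ := h
  obtain ⟨a', rfl⟩ := hsurj a hay
  obtain ⟨b', rfl⟩ := hsurj b hby
  rw [← map_mul]
  congr 1
  exact d8a_mul a' b' (hinj (by rw [map_mul, map_one]; exact ha))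
    (fun h => ha1 (by rw [h, map_one])) (fun h => hane (by rw [h]))
    (hinj (by rw [map_mul, map_one]; exact hb))
    (fun h => hb1 (by rw [h, map_one])) (fun h => hbne (by rw [h]))
    (fun h => hab (by rw [h])) (hinj (by rw [map_mul, map_mul]; exact hc.eq))

theorem IsD8Inv.inverts {y : G} (h : IsD8Inv y) {c u : G} (hc : c * c = 1) (hc1 : c ≠ 1)
    (hcy : Commute c y) (hcne : c ≠ y) (hu : u * u = y) : c * u * c * u = 1 := by
  obtain ⟨ι, hinj, rfl, hsurj⟩ := h
  obtain ⟨c', rfl⟩ := hsurj c hcy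
  have hcu : Commute u (ι (r 2)) := by
    show u * ι (r 2) = ι (r 2) * u
    rw [← hu, mul_assoc]
  obtain ⟨u', rfl⟩ := hsurj u hcu
  rw [← map_mul, ← map_mul, ← map_mul,
    d8a_inverts c' u' (hinj (by rw [map_mul, map_one]; exact hc))
    (fun h => hc1 (by rw [h, map_one])) (fun h => hcne (by rw [h]))
    (hinj (by rw [map_mul]; exact hu)), map_one]

theorem IsD8Inv.card_centralizer {y : G} (h : IsD8Inv y) :
    Nat.card (Subgroup.centralizer ({y} : Set G)) = 8 := by
  obtain ⟨ι, hinj, rfl, hsurj⟩ := h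
  have hmem : ∀ d : DihedralGroup 4, ι d ∈ Subgroup.centralizer ({ι (r 2)} : Set G) := by
    intro d
    rw [Subgroup.mem_centralizer_singleton_iff, ← map_mul, ← map_mul]
    congr 1
    revert d
    decide
  have e : DihedralGroup 4 ≃ Subgroup.centralizer ({ι (r 2)} : Set G) :=
    Equiv.ofBijective (fun d => ⟨ι d, hmem d⟩)
      ⟨fun a b hab => hinj (congrArg Subtype.val hab), fun c => by
        obtain ⟨d, hd⟩ := hsurj c (Subgroup.mem_centralizer_singleton_iff.mp c.2)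
        exact ⟨d, Subtype.ext hd⟩⟩
  rw [← Nat.card_congr e, DihedralGroup.nat_card]

end

end Cfsg.Agent.Lib.Helper6
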