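import Mathlib
import Cfsg.Agent.Lib.Helper6.A6D8
import Cfsg.Agent.Lib.Helper6.A6Coset
import Cfsg.Agent.Lib.Helper6.Dih
import Cfsg.Agent.Lib.Helper6.Ord60
import Cfsg.Agent.Lib.Helper23.Syl

set_option autoImplicit false
set_option linter.unusedSectionVars false

namespace Cfsg.Agent.Lib.Helper6

open Cfsg.Agent.Lib.Helper23

universe u

theorem a6_of_index_six {G : Type u} [Group G] [Finite G] [IsSimpleGroup G]
    (h : Nat.card G = 360) (H : Subgroup G) (hH : H.index = 6) :
    Nonempty (G ≃* alternatingGroup (Fin 6)) := by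
  classical
  have := Fintype.ofFinite (G ⧸ H)
  let φ : G →* Equiv.Perm (G ⧸ H) := MulAction.toPermHom G (G ⧸ H)
  have hHtop : H ≠ ⊤ := by
    intro ht
    rw [ht, Subgroup.index_top] at hH
    omega
  have hker : φ.ker ≠ ⊤ := by
    intro hk
    apply hHtop
    rw [← Subgroup.normalCore_eq_ker] at hk
    exact eq_top_iff.mpr (hk ▸ Subgroup.normalCore_le H)
  have hinj : Function.Injective φ :=
    (MonoidHom.ker_eq_bot_iff φ).mp ((φ.normal_ker.eq_bot_or_eq_top).resolve_right hker)
  have hc : Fintype.card (G ⧸ H) = 6 := by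
    rw [← Nat.card_eq_fintype_card, ← Subgroup.index_eq_card, hH]
  exact equiv_alt_of_injective 6 hc φ hinj (by rw [h]; rfl)

theorem a6_odd_dvd_four {n : ℕ} (h : n ∣ 4) (ho : Odd n) : n = 1 := by
  have hle := Nat.le_of_dvd (by norm_num) h
  obtain ⟨k, rfl⟩ := ho
  have hk : k ≤ 1 := by omega
  interval_cases k
  · rfl
  · omega

section
variable {G : Type u} [Group G] [Finite G]
  (hd8 : ∀ y : G, orderOf y = 2 → IsD8Inv y)
include hd8

theorem a6_pow_four_of_even (g : G) (hg : Even (orderOf g)) : g ^ 4 = 1 := by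
  have h0 : orderOf g ≠ 0 := (orderOf_pos g).ne'
  have h2 : orderOf (g ^ (orderOf g / 2)) = 2 :=
    orderOf_pow_orderOf_div h0 (even_iff_two_dvd.mp hg)
  exact (hd8 _ h2).pow_four ((Commute.refl g).pow_right _)

theorem a6_eq_one_of_odd_commute (g y : G) (hy : orderOf y = 2) (hc : Commute g y)
    (hodd : Odd (orderOf g)) : g = 1 := by
  have h4 := (hd8 y hy).pow_four hc
  have := a6_odd_dvd_four (orderOf_dvd_of_pow_eq_one h4) hodd
  exact orderOf_eq_one_iff.mp this

variable (h : Nat.card G = 360) (hn5 : Nat.card (Sylow 5 G) = 36)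
include h hn5

theorem a6_card_normalizer_five (x : G) (hx : orderOf x = 5) :
    Nat.card (Subgroup.normalizer ((Subgroup.zpowers x : Subgroup G) : Set G)) = 10 := by
  have : Fact (Nat.Prime 5) := ⟨by norm_num⟩
  have hfac : (Nat.card G).factorization 5 = 1 :=
    factorization_of_eq (by norm_num) (show Nat.card G = 5 ^ 1 * 72 by rw [h]; norm_num) (by norm_num)
  have hcard : Nat.card (Subgroup.zpowers x) = 5 ^ (Nat.card G).factorization 5 := by
    rw [Nat.card_zpowers, hx, hfac, pow_one]
  have h1 := card_normalizer_sylow_mul (Sylow.ofCard (Subgroup.zpowers x) hcard)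
  rw [Sylow.coe_ofCard, hn5, h] at h1
  omega

theorem a6_commute_five (x : G) (hx : orderOf x = 5) (g : G) (hc : Commute g x) : g ^ 5 = 1 := by
  have hN := a6_card_normalizer_five hd8 h hn5 x hx
  have hgN : g ∈ Subgroup.normalizer ((Subgroup.zpowers x : Subgroup G) : Set G) := by
    rw [Subgroup.mem_normalizer_iff]
    intro k
    constructor
    · intro hk
      obtain ⟨j, rfl⟩ := Subgroup.mem_zpowers_iff.mp hk
      have e : g * x ^ j * g⁻¹ = x ^ j := by
        rw [(hc.zpow_right j).eq, mul_inv_cancel_right]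
      rw [e]
      exact hk
    · intro hk
      obtain ⟨j, hj⟩ := Subgroup.mem_zpowers_iff.mp hk
      have e : k = x ^ j := by
        have e1 : k = g⁻¹ * (g * k * g⁻¹) * g := by group
        rw [e1, ← hj, mul_assoc, ← (hc.zpow_right j).eq, inv_mul_cancel_left]
      rw [e]
      exact Subgroup.zpow_mem_zpowers x j
  have hd10 : orderOf g ∣ 10 := hN ▸ Subgroup.orderOf_dvd_natCard _ hgN
  rcases Nat.even_or_odd (orderOf g) with he | ho
  · exfalso
    have h4 := a6_pow_four_of_even hd8 g he
    have hd4 : orderOf g ∣ 4 := orderOf_dvd_of_pow_eq_one h4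
    have hd2 : orderOf g ∣ 2 := Nat.dvd_gcd hd4 hd10
    have h2 : orderOf g = 2 := by
      rcases (Nat.dvd_prime Nat.prime_two).mp hd2 with h1 | h2
      · rw [h1] at he; exact absurd he (by decide)
      · exact h2
    have hx4 := (hd8 g h2).pow_four hc.symm
    have := orderOf_dvd_of_pow_eq_one hx4
    rw [hx] at this
    omega
  · have hd5 : orderOf g ∣ 5 :=
      (Nat.Coprime.dvd_of_dvd_mul_left (Nat.coprime_two_right.mpr ho)
        (show orderOf g ∣ 2 * 5 from hd10))
    exact orderOf_dvd_iff_pow_eq_one.mp hd5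

theorem a6_exists_inverting (x : G) (hx : orderOf x = 5) :
    ∃ y : G, orderOf y = 2 ∧ y * x * y⁻¹ = x⁻¹ := by
  have hN := a6_card_normalizer_five hd8 h hn5 x hx
  have : Fact (Nat.Prime 2) := ⟨Nat.prime_two⟩
  obtain ⟨t, ht⟩ := exists_prime_orderOf_dvd_card'
    (G := Subgroup.normalizer ((Subgroup.zpowers x : Subgroup G) : Set G)) 2
    (by rw [hN]; norm_num)
  have hy2 : orderOf (t : G) = 2 := by rw [Subgroup.orderOf_coe]; exact ht
  refine ⟨(t : G), hy2, ?_⟩
  have hmem : (t : G) * x * (t : G)⁻¹ ∈ Subgroup.zpowers x :=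
    (Subgroup.mem_normalizer_iff.mp t.2 x).mp (Subgroup.mem_zpowers x)
  generalize (t : G) = y at hy2 hmem ⊢
  obtain ⟨j, hj⟩ := Subgroup.mem_zpowers_iff.mp hmem
  have hyy : y * y = 1 := mul_self_of_orderOf_two hy2
  have hyinv : y⁻¹ = y := inv_of_orderOf_two hy2
  have hx5 : x ^ 5 = 1 := hx ▸ pow_orderOf_eq_one x
  have hcomm : Commute x (y * x * y⁻¹) := by
    rw [← hj]; exact (Commute.refl x).zpow_right j
  have hp : Commute (x * (y * x * y⁻¹)) y := by
    show x * (y * x * y⁻¹) * y = y * (x * (y * x * y⁻¹))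
    have e1 : x * (y * x * y⁻¹) * y = x * y * x := by group
    have e3 : y * ((y * x * y⁻¹) * x) = (y * y) * x * y⁻¹ * x := by group
    rw [e1, hcomm.eq, e3, hyy, one_mul, hyinv]
  have hp4 : (x * (y * x * y⁻¹)) ^ 4 = 1 := (hd8 y hy2).pow_four hp
  have hp5 : (x * (y * x * y⁻¹)) ^ 5 = 1 := by
    have e : x * x ^ j = x ^ (1 + j) := by rw [zpow_add, zpow_one]
    rw [← hj, e, ← zpow_natCast (x ^ (1 + j)) 5, ← zpow_mul, mul_comm, zpow_mul, zpow_natCast,
      hx5, one_zpow]
  have hp1 : x * (y * x * y⁻¹) = 1 := by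
    have e := pow_succ (x * (y * x * y⁻¹)) 4
    rw [hp5, hp4, one_mul] at e
    exact e.symm
  exact eq_inv_of_mul_eq_one_right hp1

theorem a6_orders (g : G) : orderOf g = 1 ∨ orderOf g = 2 ∨ orderOf g = 3 ∨ orderOf g = 4 ∨
    orderOf g = 5 ∨ orderOf g = 9 := by
  have hdvd : orderOf g ∣ 360 := h ▸ orderOf_dvd_natCard g
  have hpos := orderOf_pos g
  rcases Nat.even_or_odd (orderOf g) with he | ho
  · have h4 := a6_pow_four_of_even hd8 g he
    have hd4 : orderOf g ∣ 4 := orderOf_dvd_of_pow_eq_one h4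
    have hle : orderOf g ≤ 4 := Nat.le_of_dvd (by norm_num) hd4
    obtain ⟨k, hk⟩ := he
    generalize orderOf g = n at *
    interval_cases n <;> omega
  · by_cases h5 : 5 ∣ orderOf g
    · have hx : orderOf (g ^ (orderOf g / 5)) = 5 :=
        orderOf_pow_orderOf_div (orderOf_pos g).ne' h5
      have hg5 := a6_commute_five hd8 h hn5 _ hx g ((Commute.refl g).pow_right _)
      have hd5 : orderOf g ∣ 5 := orderOf_dvd_of_pow_eq_one hg5
      have e5 : orderOf g = 5 := Nat.dvd_antisymm hd5 h5
      rw [e5]; decide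
    · have hcop : Nat.Coprime (orderOf g) 40 := by
        have h2 : Nat.Coprime (orderOf g) 2 := Nat.coprime_two_right.mpr ho
        have h5' : Nat.Coprime (orderOf g) 5 :=
          ((Nat.Prime.coprime_iff_not_dvd (by norm_num)).mpr h5).symm
        exact (show (40 : ℕ) = 2 ^ 3 * 5 by norm_num) ▸
          Nat.Coprime.mul_right (Nat.Coprime.pow_right 3 h2) h5'
      have hd9 : orderOf g ∣ 9 := hcop.dvd_of_dvd_mul_left (show orderOf g ∣ 40 * 9 from hdvd)
      have hle : orderOf g ≤ 9 := Nat.le_of_dvd (by norm_num) hd9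
      obtain ⟨k, hk⟩ := ho
      generalize orderOf g = n at *
      interval_cases n <;> omega

end

/-- the set of elements of a given order -/
noncomputable def ordSet (G : Type u) [Group G] [Fintype G] (k : ℕ) : Finset G :=
  Finset.univ.filter (fun g => orderOf g = k)

theorem mem_ordSet {G : Type u} [Group G] [Fintype G] {k : ℕ} {g : G} :
    g ∈ ordSet G k ↔ orderOf g = k := by
  simp [ordSet]

section Count
variable {G : Type u} [Group G] [Fintype G]
  (hd8 : ∀ y : G, orderOf y = 2 → IsD8Inv y)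
  (hconj : ∀ y y' : G, orderOf y = 2 → orderOf y' = 2 → IsConj y y')
  (h : Nat.card G = 360) (hn5 : Nat.card (Sylow 5 G) = 36)
include hd8 hconj h hn5

theorem a6_card_two (z : G) (hz : orderOf z = 2) : (ordSet G 2).card = 45 := by
  have h1 := MulAction.index_stabilizer (ConjAct G) z
  have h2 := Subgroup.card_mul_index (MulAction.stabilizer (ConjAct G) z)
  have h3 : Nat.card (MulAction.stabilizer (ConjAct G) z) = 8 := by
    rw [← Subgroup.nat_card_centralizer_nat_card_stabilizer]
    exact (hd8 z hz).card_centralizer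
  have h4 : Nat.card (ConjAct G) = 360 := h
  have h5 : (MulAction.orbit (ConjAct G) z) = ↑(ordSet G 2) := by
    ext y
    rw [ConjAct.mem_orbit_conjAct, Finset.mem_coe, mem_ordSet]
    constructor
    · intro hc
      obtain ⟨c, hc⟩ := isConj_iff.mp hc
      rw [← orderOf_conj_eq c y, hc, hz]
    · intro hy
      exact hconj y z hy hz
  rw [h5, Set.ncard_coe_finset] at h1
  rw [h3, h4, h1] at h2
  omega

theorem a6_card_four (z : G) (hz : orderOf z = 2) : (ordSet G 4).card = 90 := by
  classical
  have hmaps : ((ordSet G 4 : Finset G) : Set G).MapsTo (fun u => u * u) (ordSet G 2) := by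
    intro u hu
    rw [Finset.mem_coe, mem_ordSet] at hu ⊢
    show orderOf (u * u) = 2
    rw [← pow_two, orderOf_pow' u (by norm_num), hu]
    rfl
  rw [Finset.card_eq_sum_card_fiberwise hmaps]
  have hfib : ∀ c ∈ ordSet G 2, ((ordSet G 4).filter (fun u => u * u = c)).card = 2 := by
    intro c hc
    rw [mem_ordSet] at hc
    apply (hd8 c hc).card_sqrt
    intro u
    rw [Finset.mem_filter, mem_ordSet]
    constructor
    · exact fun h => h.2
    · intro hu
      refine ⟨?_, hu⟩
      have : Fact (Nat.Prime 2) := ⟨Nat.prime_two⟩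
      have hc2 : c * c = 1 := mul_self_of_orderOf_two hc
      have hc1 : c ≠ 1 := ne_one_of_orderOf_two hc
      apply orderOf_eq_prime_pow (p := 2) (n := 1)
      · rw [pow_one, pow_two, hu]; exact hc1
      · show u ^ 4 = 1
        have e : u ^ 4 = (u * u) * (u * u) := by
          simp only [pow_succ, pow_zero, one_mul, mul_assoc]
        rw [e, hu, hc2]
  rw [Finset.sum_congr rfl hfib, Finset.sum_const, a6_card_two hd8 hconj h hn5 z hz, smul_eq_mul]

theorem a6_card_five : (ordSet G 5).card = 144 := by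
  classical
  have : Fact (Nat.Prime 5) := ⟨by norm_num⟩
  have := Fintype.ofFinite (Sylow 5 G)
  have h360 : Nat.card G = 5 ^ 1 * 72 := by rw [h]; norm_num
  have hP : ∀ P : Sylow 5 G, Nat.card (P : Subgroup G) = 5 := fun P => by
    have := sylow_card_of_eq h360 (by norm_num) P
    simpa using this
  have hord : ∀ (P : Sylow 5 G) (x : G), x ∈ (P : Subgroup G) → x ≠ 1 → orderOf x = 5 := by
    intro P x hxP hx1
    have hd : orderOf x ∣ 5 := hP P ▸ Subgroup.orderOf_dvd_natCard _ hxP
    rcases (Nat.dvd_prime (by norm_num)).mp hd with h1 | h5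
    · exact absurd (orderOf_eq_one_iff.mp h1) hx1
    · exact h5
  have hU : ordSet G 5 = (Finset.univ : Finset (Sylow 5 G)).biUnion
      (fun P => Finset.univ.filter (fun x : G => x ∈ (P : Subgroup G) ∧ x ≠ 1)) := by
    ext x
    rw [mem_ordSet, Finset.mem_biUnion]
    constructor
    · intro hx
      have hfac : (Nat.card G).factorization 5 = 1 :=
        factorization_of_eq (by norm_num) h360 (by norm_num)
      have hcard : Nat.card (Subgroup.zpowers x) = 5 ^ (Nat.card G).factorization 5 := by
        rw [Nat.card_zpowers, hx, hfac, pow_one]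
      refine ⟨Sylow.ofCard (Subgroup.zpowers x) hcard, Finset.mem_univ _, ?_⟩
      rw [Finset.mem_filter]
      refine ⟨Finset.mem_univ _, ?_, ?_⟩
      · rw [Sylow.coe_ofCard]
        exact Subgroup.mem_zpowers x
      · intro h1; rw [h1, orderOf_one] at hx; omega
    · rintro ⟨P, -, hx⟩
      rw [Finset.mem_filter] at hx
      exact hord P x hx.2.1 hx.2.2
  have hcardP : ∀ P : Sylow 5 G,
      (Finset.univ.filter (fun x : G => x ∈ (P : Subgroup G) ∧ x ≠ 1)).card = 4 := by
    intro P
    have h5 : (Finset.univ.filter (fun x : G => x ∈ (P : Subgroup G))).card = 5 := by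
      have h5' := hP P
      rw [Nat.card_eq_fintype_card, Fintype.card_subtype] at h5'
      exact h5'
    have e : Finset.univ.filter (fun x : G => x ∈ (P : Subgroup G) ∧ x ≠ 1) =
        (Finset.univ.filter (fun x : G => x ∈ (P : Subgroup G))).erase 1 := by
      ext x
      simp [and_comm]
    rw [e, Finset.card_erase_of_mem (by simp [one_mem]), h5]
  have hdisj : ((Finset.univ : Finset (Sylow 5 G)) : Set (Sylow 5 G)).PairwiseDisjoint
      (fun P => Finset.univ.filter (fun x : G => x ∈ (P : Subgroup G) ∧ x ≠ 1)) := by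
    intro P _ Q _ hPQ
    show Disjoint _ _
    rw [Finset.disjoint_left]
    intro x hxP hxQ
    rw [Finset.mem_filter] at hxP hxQ
    apply hPQ
    have hx5 : orderOf x = 5 := hord P x hxP.2.1 hxP.2.2
    have e1 : Subgroup.zpowers x = (P : Subgroup G) :=
      Subgroup.eq_of_le_of_card_ge ((Subgroup.zpowers_le).mpr hxP.2.1)
        (by rw [hP P, Nat.card_zpowers, hx5])
    have e2 : Subgroup.zpowers x = (Q : Subgroup G) :=
      Subgroup.eq_of_le_of_card_ge ((Subgroup.zpowers_le).mpr hxQ.2.1)
        (by rw [hP Q, Nat.card_zpowers, hx5])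
    exact Sylow.ext (e1.symm.trans e2)
  rw [hU, Finset.card_biUnion hdisj, Finset.sum_congr rfl (fun P _ => hcardP P), Finset.sum_const,
    smul_eq_mul, Finset.card_univ, ← Nat.card_eq_fintype_card, hn5]

theorem a6_card_sum (z : G) (hz : orderOf z = 2) :
    (ordSet G 3).card + (ordSet G 9).card = 80 := by
  classical
  have hmaps : ((Finset.univ : Finset G) : Set G).MapsTo orderOf
      (({1, 2, 3, 4, 5, 9} : Finset ℕ) : Set ℕ) := by
    intro g _
    have := a6_orders hd8 h hn5 g
    simp only [Finset.coe_insert, Finset.coe_singleton, Set.mem_insert_iff,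
      Set.mem_singleton_iff]
    exact this
  have hsum := Finset.card_eq_sum_card_fiberwise hmaps
  rw [Finset.card_univ, ← Nat.card_eq_fintype_card, h] at hsum
  rw [Finset.sum_insert (by decide), Finset.sum_insert (by decide), Finset.sum_insert (by decide),
    Finset.sum_insert (by decide), Finset.sum_insert (by decide), Finset.sum_singleton] at hsum
  have h1 : (Finset.univ.filter (fun g : G => orderOf g = 1)).card = 1 := by
    rw [Finset.card_eq_one]
    exact ⟨1, by ext g; simp [orderOf_eq_one_iff]⟩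
  have h2 := a6_card_two hd8 hconj h hn5 z hz
  have h4 := a6_card_four hd8 hconj h hn5 z hz
  have h5 := a6_card_five hd8 hconj h hn5
  unfold ordSet at *
  omega

theorem a6_card_nine (z : G) (hz : orderOf z = 2) (x₅ : G) (hx₅ : orderOf x₅ = 5) :
    (ordSet G 9).card = 0 := by
  classical
  have hclosed : ∀ (k g : G), g ∈ ordSet G 9 → k * g * k⁻¹ ∈ ordSet G 9 := by
    intro k g hg
    rw [mem_ordSet] at hg ⊢
    rw [orderOf_conj_eq, hg]
  have h8 : 8 ∣ (ordSet G 9).card := by
    rw [← (hd8 z hz).card_centralizer]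
    apply card_dvd_of_free_conj
    · exact fun k _ g hg => hclosed k g hg
    · intro k hk g hg hfix
      rw [mem_ordSet] at hg
      by_contra hk1
      have hk4 : k ^ 4 = 1 :=
        (hd8 z hz).pow_four (Subgroup.mem_centralizer_singleton_iff.mp hk)
      have hcomm : Commute k g := by
        show k * g = g * k
        calc k * g = (k * g * k⁻¹) * k := by group
          _ = g * k := by rw [hfix]
      have hd4 : orderOf k ∣ 4 := orderOf_dvd_of_pow_eq_one hk4
      have hkeven : Even (orderOf k) := by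
        have hle := Nat.le_of_dvd (by norm_num) hd4
        have hne1 : orderOf k ≠ 1 := fun h => hk1 (orderOf_eq_one_iff.mp h)
        have hpos := orderOf_pos k
        generalize orderOf k = n at *
        interval_cases n <;> first | decide | omega
      have ht : orderOf (k ^ (orderOf k / 2)) = 2 :=
        orderOf_pow_orderOf_div (orderOf_pos k).ne' (even_iff_two_dvd.mp hkeven)
      have hg1 := a6_eq_one_of_odd_commute hd8 g _ ht (hcomm.pow_left _).symm
        (by rw [hg]; decide)
      rw [hg1, orderOf_one] at hg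
      omega
  have h5 : 5 ∣ (ordSet G 9).card := by
    rw [← hx₅, ← Nat.card_zpowers]
    apply card_dvd_of_free_conj
    · exact fun k _ g hg => hclosed k g hg
    · intro k hk g hg hfix
      rw [mem_ordSet] at hg
      obtain ⟨j, rfl⟩ := Subgroup.mem_zpowers_iff.mp hk
      by_contra hk1
      have hx5 : x₅ ^ 5 = 1 := hx₅ ▸ pow_orderOf_eq_one x₅
      have hord : orderOf (x₅ ^ j) = 5 := by
        have hd : orderOf (x₅ ^ j) ∣ 5 := orderOf_dvd_of_pow_eq_one (by
          rw [← zpow_natCast (x₅ ^ j) 5, ← zpow_mul, mul_comm, zpow_mul, zpow_natCast, hx5,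
            one_zpow])
        rcases (Nat.dvd_prime (by norm_num)).mp hd with h1 | h5
        · exact absurd (orderOf_eq_one_iff.mp h1) hk1
        · exact h5
      have hcomm : Commute g (x₅ ^ j) := by
        show g * x₅ ^ j = x₅ ^ j * g
        calc g * x₅ ^ j = (x₅ ^ j * g * (x₅ ^ j)⁻¹) * x₅ ^ j := by rw [hfix]
          _ = x₅ ^ j * g := by group
      have hg5 := a6_commute_five hd8 h hn5 _ hord g hcomm
      have hd5 : orderOf g ∣ 5 := orderOf_dvd_of_pow_eq_one hg5
      rw [hg] at hd5
      omega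
  have h3 : 3 ∣ (ordSet G 9).card := by
    have : Fact (Nat.Prime 3) := ⟨by norm_num⟩
    have h9 : ∀ g ∈ ordSet G 9, g ^ 9 = 1 := by
      intro g hg
      rw [mem_ordSet] at hg
      exact hg ▸ pow_orderOf_eq_one g
    apply card_dvd_of_perm (ordSet G 9) (fun g => g ^ 4) (fun g => g ^ 7) 3
    · intro g hg
      rw [mem_ordSet] at hg ⊢
      rw [orderOf_pow' g (by norm_num), hg]
      rfl
    · intro g hg
      rw [mem_ordSet] at hg ⊢
      rw [orderOf_pow' g (by norm_num), hg]
      rfl
    · intro g hg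
      show (g ^ 4) ^ 7 = g
      have e : (g ^ 4) ^ 7 = (g ^ 9) ^ 3 * g := by group
      rw [e, h9 g hg, one_pow, one_mul]
    · intro g hg
      show (g ^ 7) ^ 4 = g
      have e : (g ^ 7) ^ 4 = (g ^ 9) ^ 3 * g := by group
      rw [e, h9 g hg, one_pow, one_mul]
    · intro g hg
      show ((g ^ 4) ^ 4) ^ 4 = g
      have e : ((g ^ 4) ^ 4) ^ 4 = (g ^ 9) ^ 7 * g := by group
      rw [e, h9 g hg, one_pow, one_mul]
    · intro g hg hfix
      rw [mem_ordSet] at hg
      have e : g ^ 3 = 1 := by
        have h4 : g ^ 4 = g ^ 3 * g := pow_succ g 3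
        have hfix' : g ^ 4 = g := hfix
        rw [h4] at hfix'
        exact mul_eq_right.mp hfix'
      have hd3 := orderOf_dvd_of_pow_eq_one e
      rw [hg] at hd3
      omega
  have hsum := a6_card_sum hd8 hconj h hn5 z hz
  omega

theorem a6_card_three (z : G) (hz : orderOf z = 2) (x₅ : G) (hx₅ : orderOf x₅ = 5) :
    (ordSet G 3).card = 80 := by
  have h1 := a6_card_sum hd8 hconj h hn5 z hz
  have h2 := a6_card_nine hd8 hconj h hn5 z hz x₅ hx₅
  omega

end Count

end Cfsg.Agent.Lib.Helper6
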