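import Mathlib

set_option autoImplicit false

namespace Cfsg.Agent.Lib.Helper6

theorem exists_index_two_of_cyclic_sylow {G : Type*} [Group G] [Finite G] (heven : Even (Nat.card G))
    (T : Sylow 2 G) (hT : IsCyclic (T : Subgroup G)) : ∃ H : Subgroup G, H.index = 2 := by
  have hmin : (Nat.card G).minFac = 2 := (Nat.minFac_eq_two_iff _).mpr (even_iff_two_dvd.mp heven)
  have hcomp := IsCyclic.isComplement' hmin hT
  have hsurj : Function.Surjective (MonoidHom.transferSylow T (hT.normalizer_le_centralizer hmin)) := by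
    have h1 := hcomp.symm.index_eq_card
    rw [Subgroup.index_ker] at h1
    exact MonoidHom.range_eq_top.mp (Subgroup.eq_top_of_card_eq _ h1)
  have hTcard : 2 ∣ Nat.card (T : Subgroup G) := by
    rw [Sylow.card_eq_multiplicity]
    have : 0 < (Nat.card G).factorization 2 :=
      Nat.Prime.factorization_pos_of_dvd Nat.prime_two Nat.card_pos.ne' (even_iff_two_dvd.mp heven)
    exact dvd_pow_self 2 this.ne'
  obtain ⟨k, hk⟩ := (IsPGroup.iff_card.mp T.2 : ∃ n, Nat.card (T : Subgroup G) = 2 ^ n)
  have hk0 : k ≠ 0 := by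
    rintro rfl
    rw [hk] at hTcard
    simp at hTcard
  obtain ⟨j, rfl⟩ : ∃ j, k = j + 1 := ⟨k - 1, by omega⟩
  obtain ⟨K, hK⟩ := Sylow.exists_subgroup_card_pow_prime 2 (n := j) (G := (T : Subgroup G))
    (by rw [hk]; exact pow_dvd_pow 2 (Nat.le_succ j))
  refine ⟨K.comap (MonoidHom.transferSylow T (hT.normalizer_le_centralizer hmin)), ?_⟩
  rw [Subgroup.index_comap_of_surjective _ hsurj]
  have := K.card_mul_index
  rw [hK, hk, pow_succ] at this
  exact Nat.eq_of_mul_eq_mul_left (by positivity) this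

theorem cyclic_involution_unique {A : Type*} [Group A] [Finite A] [IsCyclic A] (a b : A)
    (ha : orderOf a = 2) (hb : orderOf b = 2) : a = b := by
  classical
  have := Fintype.ofFinite A
  have h2 : 2 ∣ Fintype.card A := ha ▸ orderOf_dvd_card
  have h1 := IsCyclic.card_orderOf_eq_totient h2
  rw [Nat.totient_two, Finset.card_eq_one] at h1
  obtain ⟨c, hc⟩ := h1
  have hac : a ∈ ({c} : Finset A) := by rw [← hc]; simp [ha]
  have hbc : b ∈ ({c} : Finset A) := by rw [← hc]; simp [hb]
  rw [Finset.mem_singleton] at hac hbc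
  rw [hac, hbc]

end Cfsg.Agent.Lib.Helper6
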