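import Mathlib
import Cfsg.Agent.Lib.Helper6.A6Ord
import Cfsg.Agent.Lib.Helper6.Idx2

set_option autoImplicit false
set_option linter.unusedSectionVars false

namespace Cfsg.Agent.Lib.Helper6

open Cfsg.Agent.Lib.Helper23

universe u

section Words
variable {G : Type u} [Group G]

theorem a6_card_le_four (s : Finset G) (a b c d : G)
    (hs : ∀ w ∈ s, ∀ w' ∈ s, w⁻¹ * w' = a ∨ w⁻¹ * w' = b ∨ w⁻¹ * w' = c ∨ w⁻¹ * w' = d) :
    s.card ≤ 4 := by
  classical
  rcases s.eq_empty_or_nonempty with rfl | ⟨w₀, hw₀⟩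
  · simp
  · have hsub : s ⊆ {w₀ * a, w₀ * b, w₀ * c, w₀ * d} := by
      intro w hw
      simp only [Finset.mem_insert, Finset.mem_singleton]
      rcases hs w₀ hw₀ w hw with h | h | h | h
      · left; rw [← h]; group
      · right; left; rw [← h]; group
      · right; right; left; rw [← h]; group
      · right; right; right; rw [← h]; group
    exact (Finset.card_le_card hsub).trans Finset.card_le_four

theorem a6_pow_three (w : G) : w ^ 3 = w * w * w := by
  simp only [pow_succ, pow_zero, one_mul]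

theorem a6_orderOf_four_of_sq {u c : G} (hu : u * u = c) (hc : orderOf c = 2) : orderOf u = 4 := by
  have : Fact (Nat.Prime 2) := ⟨Nat.prime_two⟩
  have hc2 : c * c = 1 := mul_self_of_orderOf_two hc
  have hc1 : c ≠ 1 := ne_one_of_orderOf_two hc
  apply orderOf_eq_prime_pow (p := 2) (n := 1)
  · rw [pow_one, pow_two, hu]; exact hc1
  · show u ^ 4 = 1
    have e : u ^ 4 = (u * u) * (u * u) := by
      simp only [pow_succ, pow_zero, one_mul, mul_assoc]
    rw [e, hu, hc2]

theorem a6_word_comm (y w : G) (hy : y * y = 1) (hw : w * w * w = 1)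
    (h4 : y * w * y * w * y * w * y * w = 1) :
    (y * w * y * w) * (w * y * w * y) = (w * y * w * y) * (y * w * y * w) := by
  have yinv : y⁻¹ = y := inv_eq_of_mul_eq_one_left hy
  have hww : w * w = w⁻¹ := by rw [eq_inv_iff_mul_eq_one]; exact hw
  have hWW : w⁻¹ * w⁻¹ = w := by
    have e : w = (w * w * w) * (w⁻¹ * w⁻¹) := by group
    rw [hw, one_mul] at e
    exact e.symm
  have hK : y * w * y = w⁻¹ * y * w⁻¹ * y * w⁻¹ := by
    have e : y * w * y = (y * w * y * w * y * w * y * w) * (w⁻¹ * y⁻¹ * w⁻¹ * y⁻¹ * w⁻¹) := by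
      group
    rw [e, h4, one_mul, yinv]
  have h1 : (y * w * y * w) * (w * y * w * y) = w⁻¹ * y * w * y * w⁻¹ := by
    calc (y * w * y * w) * (w * y * w * y) = (y * w * y) * (w * w) * (y * w * y) := by
          simp only [mul_assoc]
      _ = (w⁻¹ * y * w⁻¹ * y * w⁻¹) * w⁻¹ * (w⁻¹ * y * w⁻¹ * y * w⁻¹) := by rw [hww, hK]
      _ = w⁻¹ * y * w⁻¹ * y * (w * w * w)⁻¹ * y * w⁻¹ * y * w⁻¹ := by group
      _ = w⁻¹ * y * w⁻¹ * (y * y) * w⁻¹ * y * w⁻¹ := by
          rw [hw, inv_one, mul_one]; simp only [mul_assoc]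
      _ = w⁻¹ * y * (w⁻¹ * w⁻¹) * y * w⁻¹ := by rw [hy, mul_one]; simp only [mul_assoc]
      _ = w⁻¹ * y * w * y * w⁻¹ := by rw [hWW]
  have h2 : (w * y * w * y) * (y * w * y * w) = w * y * w⁻¹ * y * w := by
    calc (w * y * w * y) * (y * w * y * w) = w * y * w * (y * y) * w * y * w := by
          simp only [mul_assoc]
      _ = w * y * (w * w) * y * w := by rw [hy, mul_one]; simp only [mul_assoc]
      _ = w * y * w⁻¹ * y * w := by rw [hww]
  have h3 : w⁻¹ * y * w * y * w⁻¹ = w * y * w⁻¹ * y * w := by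
    calc w⁻¹ * y * w * y * w⁻¹ = w⁻¹ * (y * w * y) * w⁻¹ := by simp only [mul_assoc]
      _ = w⁻¹ * (w⁻¹ * y * w⁻¹ * y * w⁻¹) * w⁻¹ := by rw [hK]
      _ = (w⁻¹ * w⁻¹) * y * w⁻¹ * y * (w⁻¹ * w⁻¹) := by simp only [mul_assoc]
      _ = w * y * w⁻¹ * y * w := by rw [hWW]
  rw [h1, h2, h3]

theorem a6_B3_data (y w : G) (hy : y * y = 1) (hw : w * w * w = 1)
    (h3 : y * w * y * w * y * w = 1) :
    Commute (w * y * w⁻¹) y ∧ w * (w * y * w⁻¹) * w⁻¹ = y * (w * y * w⁻¹) := by
  have yinv : y⁻¹ = y := inv_eq_of_mul_eq_one_left hy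
  have hWW : w⁻¹ * w⁻¹ = w := by
    have e : w = (w * w * w) * (w⁻¹ * w⁻¹) := by group
    rw [hw, one_mul] at e
    exact e.symm
  have h1 : y * (w * y * w⁻¹) * (w * (w * y * w⁻¹) * w⁻¹) = 1 := by
    have e : y * (w * y * w⁻¹) * (w * (w * y * w⁻¹) * w⁻¹) =
        y * w * y * w * y * (w⁻¹ * w⁻¹) := by group
    rw [e, hWW]
    exact h3
  have hcc : (w * y * w⁻¹) * (w * y * w⁻¹) = 1 := by
    have e : (w * y * w⁻¹) * (w * y * w⁻¹) = w * (y * y) * w⁻¹ := by group
    rw [e, hy, mul_one, mul_inv_cancel]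
  have hcinv : (w * y * w⁻¹)⁻¹ = w * y * w⁻¹ := inv_eq_of_mul_eq_one_left hcc
  have hd : w * (w * y * w⁻¹) * w⁻¹ = (w * y * w⁻¹) * y := by
    have e := eq_inv_of_mul_eq_one_right h1
    rw [e, mul_inv_rev, yinv, hcinv]
  have hdd : (w * (w * y * w⁻¹) * w⁻¹) * (w * (w * y * w⁻¹) * w⁻¹) = 1 := by
    have e : (w * (w * y * w⁻¹) * w⁻¹) * (w * (w * y * w⁻¹) * w⁻¹) =
        w * ((w * y * w⁻¹) * (w * y * w⁻¹)) * w⁻¹ := by group
    rw [e, hcc, mul_one, mul_inv_cancel]
  rw [hd] at hdd
  have hcomm : Commute (w * y * w⁻¹) y := by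
    show (w * y * w⁻¹) * y = y * (w * y * w⁻¹)
    have e := eq_inv_of_mul_eq_one_right hdd
    rw [mul_inv_rev, yinv, hcinv] at e
    exact e
  exact ⟨hcomm, by rw [hd]; exact hcomm.eq⟩

end Words

section Bounds
variable {G : Type u} [Group G] [Fintype G]
  (hd8 : ∀ y : G, orderOf y = 2 → IsD8Inv y)
include hd8

theorem a6_B3 (y : G) (hy : orderOf y = 2) :
    ((ordSet G 3).filter (fun w => orderOf (y * w) = 3)).card ≤ 16 := by
  classical
  have hyy : y * y = 1 := mul_self_of_orderOf_two hy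
  have hy1 : y ≠ 1 := ne_one_of_orderOf_two hy
  obtain ⟨J, hJ⟩ : ∃ J : Finset G, J = Finset.univ.filter
      (fun c : G => c * c = 1 ∧ c ≠ 1 ∧ Commute c y ∧ c ≠ y) := ⟨_, rfl⟩
  have hJmem : ∀ c, c ∈ J ↔ (c * c = 1 ∧ c ≠ 1 ∧ Commute c y ∧ c ≠ y) := by
    intro c; rw [hJ, Finset.mem_filter]; simp
  have hJcard : J.card = 4 := (hd8 y hy).card_J J hJmem
  have key : ∀ w ∈ (ordSet G 3).filter (fun w => orderOf (y * w) = 3),
      (Commute (w * y * w⁻¹) y ∧ w * (w * y * w⁻¹) * w⁻¹ = y * (w * y * w⁻¹)) ∧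
        (w * y * w⁻¹ ∈ J) := by
    intro w hw
    rw [Finset.mem_filter, mem_ordSet] at hw
    obtain ⟨hw3, hyw3⟩ := hw
    have hwww : w * w * w = 1 := by
      have e := pow_orderOf_eq_one w
      rw [hw3, a6_pow_three] at e
      exact e
    have h3 : y * w * y * w * y * w = 1 := by
      have e := pow_orderOf_eq_one (y * w)
      rw [hyw3] at e
      simp only [pow_succ, pow_zero, one_mul, mul_assoc] at e ⊢
      exact e
    have hdat := a6_B3_data y w hyy hwww h3
    refine ⟨hdat, ?_⟩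
    rw [hJmem]
    refine ⟨?_, ?_, hdat.1, ?_⟩
    · have e : (w * y * w⁻¹) * (w * y * w⁻¹) = w * (y * y) * w⁻¹ := by group
      rw [e, hyy, mul_one, mul_inv_cancel]
    · intro hc
      apply hy1
      have e : y = w⁻¹ * (w * y * w⁻¹) * w := by group
      rw [e, hc]; group
    · intro hc
      have hcomm : Commute w y := by
        show w * y = y * w
        calc w * y = (w * y * w⁻¹) * w := by group
          _ = y * w := by rw [hc]
      have e1 := a6_eq_one_of_odd_commute hd8 w y hy hcomm (by rw [hw3]; decide)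
      rw [e1, orderOf_one] at hw3
      omega
  have hmaps : ∀ w ∈ (ordSet G 3).filter (fun w => orderOf (y * w) = 3),
      (fun w => w * y * w⁻¹) w ∈ J := fun w hw => (key w hw).2
  have hfib : ∀ c ∈ J, (((ordSet G 3).filter (fun w => orderOf (y * w) = 3)).filter
      (fun w => (fun w => w * y * w⁻¹) w = c)).card ≤ 4 := by
    intro c hc
    rw [hJmem] at hc
    obtain ⟨hcc, hc1, hcy, hcne⟩ := hc
    apply a6_card_le_four _ 1 y c (y * c)
    intro w hw w' hw'
    rw [Finset.mem_filter] at hw hw'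
    obtain ⟨hwB, hwc⟩ := hw
    obtain ⟨hwB', hwc'⟩ := hw'
    have hwc : w * y * w⁻¹ = c := hwc
    have hwc' : w' * y * w'⁻¹ = c := hwc'
    have d1 := (key w hwB).1.2
    have d2 := (key w' hwB').1.2
    rw [hwc] at d1
    rw [hwc'] at d2
    apply (hd8 y hy).comm_mem hcc hc1 hcy hcne
    · show w⁻¹ * w' * y = y * (w⁻¹ * w')
      have e : w⁻¹ * w' * y = w⁻¹ * (w' * y * w'⁻¹) * w' := by group
      rw [e, hwc', ← hwc]; group
    · show w⁻¹ * w' * c = c * (w⁻¹ * w')
      have e : w⁻¹ * w' * c = w⁻¹ * (w' * c * w'⁻¹) * w' := by group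
      rw [e, d2, ← d1]; group
  have hfin := Finset.card_le_mul_card_image_of_maps_to hmaps 4 hfib
  rw [hJcard] at hfin
  exact hfin

theorem a6_B4_data (y w : G) (hy : orderOf y = 2) (hw : orderOf w = 3)
    (h4 : orderOf (y * w) = 4) (a a' : G) (ha : a = y * w * y * w) (ha' : a' = w * y * w * y) :
    ((a * a') * (a * a') = 1 ∧ a * a' ≠ 1 ∧ Commute (a * a') y ∧ a * a' ≠ y) ∧
    (a * a = 1 ∧ a ≠ 1 ∧ Commute a (a * a') ∧ a ≠ a * a' ∧ ¬ Commute a y) ∧
    (w * a * w⁻¹ = a * (a * a') ∧ w * (a * a') * w⁻¹ = a) := by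
  have hyy : y * y = 1 := mul_self_of_orderOf_two hy
  have hy1 : y ≠ 1 := ne_one_of_orderOf_two hy
  have yinv : y⁻¹ = y := inv_of_orderOf_two hy
  have hwww : w * w * w = 1 := by
    have e := pow_orderOf_eq_one w
    rw [hw, a6_pow_three] at e
    exact e
  have h4' : y * w * y * w * y * w * y * w = 1 := by
    have e := pow_orderOf_eq_one (y * w)
    rw [h4] at e
    simp only [pow_succ, pow_zero, one_mul, mul_assoc] at e ⊢
    exact e
  have hw_odd : Odd (orderOf w) := by rw [hw]; decide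
  have hw1 : w ≠ 1 := by
    intro h1; rw [h1, orderOf_one] at hw; omega
  have haa : a * a = 1 := by
    rw [ha]
    simp only [mul_assoc] at h4' ⊢
    exact h4'
  have ha1 : a ≠ 1 := by
    intro h1
    have e : (y * w) ^ 2 = 1 := by
      rw [pow_two]
      rw [ha] at h1
      simp only [mul_assoc] at h1 ⊢
      exact h1
    have hd := orderOf_dvd_of_pow_eq_one e
    rw [h4] at hd
    omega
  have ha2 : orderOf a = 2 := orderOf_two_of_mul_self haa ha1
  have hconj1 : w * a * w⁻¹ = a' := by rw [ha, ha']; group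
  have hconj2 : y * a * y⁻¹ = a' := by
    rw [ha, ha', yinv]
    have e : y * (y * w * y * w) * y = (y * y) * w * y * w * y := by simp only [mul_assoc]
    rw [e, hyy, one_mul]
  have ha'a' : a' * a' = 1 := by
    have e : (w * a * w⁻¹) * (w * a * w⁻¹) = w * (a * a) * w⁻¹ := by group
    rw [hconj1, haa, mul_one, mul_inv_cancel] at e
    exact e
  have ha'1 : a' ≠ 1 := by
    intro h1
    apply ha1
    have e : a = w⁻¹ * (w * a * w⁻¹) * w := by group
    rw [e, hconj1, h1]; group
  have ha'2 : orderOf a' = 2 := orderOf_two_of_mul_self ha'a' ha'1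
  have hcomm : a * a' = a' * a := by rw [ha, ha']; exact a6_word_comm y w hyy hwww h4'
  have hne : a ≠ a' := by
    intro he
    have hc : Commute w a := by
      show w * a = a * w
      calc w * a = (w * a * w⁻¹) * w := by group
        _ = a * w := by rw [hconj1, ← he]
    exact hw1 (a6_eq_one_of_odd_commute hd8 w a ha2 hc hw_odd)
  have hee : (a * a') * (a * a') = 1 := by
    have e : (a * a') * (a * a') = a * (a' * a) * a' := by group
    rw [e, ← hcomm]
    have e2 : a * (a * a') * a' = (a * a) * (a' * a') := by group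
    rw [e2, haa, ha'a', one_mul]
  have he1 : a * a' ≠ 1 := by
    intro h1
    apply hne
    have e := eq_inv_of_mul_eq_one_right h1
    rw [e, inv_eq_of_mul_eq_one_left haa]
  have hconj3 : y * a' * y⁻¹ = a := by
    have e : y * (y * a * y⁻¹) * y⁻¹ = (y * y) * a * (y * y)⁻¹ := by group
    rw [hconj2, hyy, one_mul, inv_one, mul_one] at e
    exact e
  have hey : Commute (a * a') y := by
    show a * a' * y = y * (a * a')
    have e : (y * a * y⁻¹) * (y * a' * y⁻¹) * y = y * (a * a') := by group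
    rw [hconj2, hconj3, ← hcomm] at e
    exact e
  have hey_ne : a * a' ≠ y := by
    intro he
    have e : a * y * a = (a * (y * a * y⁻¹)) * y := by group
    rw [hconj2, he, hyy] at e
    apply hy1
    have e2 : y = a⁻¹ * (a * y * a) * a⁻¹ := by group
    rw [e2, e, mul_one, ← mul_inv_rev, haa, inv_one]
  have hae : Commute a (a * a') := by
    show a * (a * a') = a * a' * a
    rw [mul_assoc, ← hcomm]
  have hane : a ≠ a * a' := by
    intro he
    apply ha'1
    have e : a * a' = a * 1 := by rw [mul_one]; exact he.symm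
    exact mul_left_cancel e
  have hay : ¬ Commute a y := by
    intro hc
    apply hne
    have e : y * a * y⁻¹ = a := by rw [← hc.eq, mul_inv_cancel_right]
    rw [← hconj2, e]
  have hwa : w * a * w⁻¹ = a * (a * a') := by
    rw [hconj1, ← mul_assoc, haa, one_mul]
  obtain ⟨a'', ha''⟩ : ∃ a'' : G, a'' = w * a' * w⁻¹ := ⟨_, rfl⟩
  have hwa'' : w * a'' * w⁻¹ = a := by
    have e : w * (w * (w * a * w⁻¹) * w⁻¹) * w⁻¹ = (w * w * w) * a * (w * w * w)⁻¹ := by group
    rw [hconj1, ← ha'', hwww, one_mul, inv_one, mul_one] at e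
    exact e
  have h1'' : a'' * a'' = 1 := by
    have e : (w * a' * w⁻¹) * (w * a' * w⁻¹) = w * (a' * a') * w⁻¹ := by group
    rw [← ha'', ha'a', mul_one, mul_inv_cancel] at e
    exact e
  have h2'' : a'' ≠ 1 := by
    intro h1
    apply ha'1
    have e : a' = w⁻¹ * (w * a' * w⁻¹) * w := by group
    rw [e, ← ha'', h1]; group
  have hc3 : Commute a' a'' := by
    show a' * a'' = a'' * a'
    have e1 : (w * a * w⁻¹) * (w * a' * w⁻¹) = w * (a * a') * w⁻¹ := by group
    have e2 : (w * a' * w⁻¹) * (w * a * w⁻¹) = w * (a' * a) * w⁻¹ := by group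
    rw [hconj1, ← ha''] at e1 e2
    rw [e1, e2, hcomm]
  have hca'' : Commute a'' a := by
    show a'' * a = a * a''
    have e3 : (w * a' * w⁻¹) * (w * a'' * w⁻¹) = w * (a' * a'') * w⁻¹ := by group
    have e4 : (w * a'' * w⁻¹) * (w * a' * w⁻¹) = w * (a'' * a') * w⁻¹ := by group
    rw [← ha'', hwa''] at e3 e4
    rw [e3, e4, hc3.eq]
  have hne'' : a'' ≠ a := by
    intro h
    apply hne
    have e : a' = a := by rw [← hconj1, ← h, hwa'', h]
    exact e.symm
  have hne3 : a' ≠ a'' := by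
    intro h
    have hc : Commute w a' := by
      show w * a' = a' * w
      calc w * a' = (w * a' * w⁻¹) * w := by group
        _ = a' * w := by rw [← ha'', ← h]
    exact hw1 (a6_eq_one_of_odd_commute hd8 w a' ha'2 hc hw_odd)
  have hmul := (hd8 a ha2).mul_eq ha'a' ha'1 (show Commute a' a from hcomm.symm) hne.symm
    h1'' h2'' hca'' hne'' hne3 hc3
  have hwe : w * a' * w⁻¹ = a * a' := by
    rw [← ha'']
    have e : a'' = a'⁻¹ * (a' * a'') := by group
    rw [e, hmul, inv_eq_of_mul_eq_one_left ha'a', hcomm]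
  refine ⟨⟨hee, he1, hey, hey_ne⟩, ⟨haa, ha1, hae, hane, hay⟩, hwa, ?_⟩
  have e : w * (a * a') * w⁻¹ = (w * a * w⁻¹) * (w * a' * w⁻¹) := by group
  rw [e, hconj1, hwe, hcomm, ← mul_assoc, ha'a', one_mul]

theorem a6_B4 (y : G) (hy : orderOf y = 2) :
    ((ordSet G 3).filter (fun w => orderOf (y * w) = 4)).card ≤ 32 := by
  classical
  have hyy : y * y = 1 := mul_self_of_orderOf_two hy
  have hy1 : y ≠ 1 := ne_one_of_orderOf_two hy
  obtain ⟨J, hJ⟩ : ∃ J : Finset G, J = Finset.univ.filter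
      (fun c : G => c * c = 1 ∧ c ≠ 1 ∧ Commute c y ∧ c ≠ y) := ⟨_, rfl⟩
  have hJmem : ∀ c, c ∈ J ↔ (c * c = 1 ∧ c ≠ 1 ∧ Commute c y ∧ c ≠ y) := by
    intro c; rw [hJ, Finset.mem_filter]; simp
  have hJcard : J.card = 4 := (hd8 y hy).card_J J hJmem
  obtain ⟨B, hB⟩ : ∃ B : Finset G, B = (ordSet G 3).filter (fun w => orderOf (y * w) = 4) :=
    ⟨_, rfl⟩
  rw [← hB]
  have key : ∀ w ∈ B, ∀ a a' : G, a = y * w * y * w → a' = w * y * w * y →
      ((a * a') * (a * a') = 1 ∧ a * a' ≠ 1 ∧ Commute (a * a') y ∧ a * a' ≠ y) ∧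
      (a * a = 1 ∧ a ≠ 1 ∧ Commute a (a * a') ∧ a ≠ a * a' ∧ ¬ Commute a y) ∧
      (w * a * w⁻¹ = a * (a * a') ∧ w * (a * a') * w⁻¹ = a) := by
    intro w hw a a' ha ha'
    rw [hB, Finset.mem_filter, mem_ordSet] at hw
    exact a6_B4_data hd8 y w hy hw.1 hw.2 a a' ha ha'
  have hmaps : ∀ w ∈ B, (fun w => (y * w * y * w) * (w * y * w * y)) w ∈ J := by
    intro w hw
    rw [hJmem]
    exact (key w hw _ _ rfl rfl).1
  have hfib : ∀ e ∈ J, (B.filter
      (fun w => (fun w => (y * w * y * w) * (w * y * w * y)) w = e)).card ≤ 8 := by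
    intro e he
    rw [hJmem] at he
    obtain ⟨hee, he1, hey, hene⟩ := he
    have he2 : orderOf e = 2 := orderOf_two_of_mul_self hee he1
    obtain ⟨A, hA⟩ : ∃ A : Finset G, A = Finset.univ.filter
        (fun a : G => a * a = 1 ∧ a ≠ 1 ∧ Commute a e ∧ a ≠ e ∧ ¬ Commute a y) := ⟨_, rfl⟩
    have hAmem : ∀ a, a ∈ A ↔ (a * a = 1 ∧ a ≠ 1 ∧ Commute a e ∧ a ≠ e ∧ ¬ Commute a y) := by
      intro a; rw [hA, Finset.mem_filter]; simp
    have hAcard : A.card ≤ 2 :=
      (hd8 e he2).card_noncomm hyy hy1 hey.symm (fun h => hene h.symm) A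
        (fun a ha => (hAmem a).mp ha)
    have hmaps2 : ∀ w ∈ B.filter
        (fun w => (fun w => (y * w * y * w) * (w * y * w * y)) w = e),
        (fun w => y * w * y * w) w ∈ A := by
      intro w hw
      rw [Finset.mem_filter] at hw
      obtain ⟨hwB, hwe⟩ := hw
      have hwe : (y * w * y * w) * (w * y * w * y) = e := hwe
      have d := (key w hwB _ _ rfl rfl).2.1
      rw [hwe] at d
      rw [hAmem]
      exact d
    have hfib2 : ∀ a ∈ A, ((B.filter
        (fun w => (fun w => (y * w * y * w) * (w * y * w * y)) w = e)).filter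
        (fun w => (fun w => y * w * y * w) w = a)).card ≤ 4 := by
      intro a ha
      rw [hAmem] at ha
      obtain ⟨haa, ha1, hae, hane, -⟩ := ha
      apply a6_card_le_four _ 1 e a (e * a)
      intro w hw w' hw'
      rw [Finset.mem_filter, Finset.mem_filter] at hw hw'
      obtain ⟨⟨hwB, hwe⟩, hwa⟩ := hw
      obtain ⟨⟨hwB', hwe'⟩, hwa'⟩ := hw'
      have hwe : (y * w * y * w) * (w * y * w * y) = e := hwe
      have hwe' : (y * w' * y * w') * (w' * y * w' * y) = e := hwe'
      have hwa : y * w * y * w = a := hwa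
      have hwa' : y * w' * y * w' = a := hwa'
      have d := (key w hwB _ _ rfl rfl).2.2
      have d' := (key w' hwB' _ _ rfl rfl).2.2
      rw [hwe, hwa] at d
      rw [hwe', hwa'] at d'
      obtain ⟨d1, d2⟩ := d
      obtain ⟨d1', d2'⟩ := d'
      apply (hd8 e he2).comm_mem haa ha1 hae hane
      · show w⁻¹ * w' * e = e * (w⁻¹ * w')
        have e1 : w⁻¹ * w' * e = w⁻¹ * (w' * e * w'⁻¹) * w' := by group
        have e2 : w⁻¹ * (w * e * w⁻¹) * w' = e * (w⁻¹ * w') := by group
        rw [e1, d2', ← d2, e2]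
      · show w⁻¹ * w' * a = a * (w⁻¹ * w')
        have e1 : w⁻¹ * w' * a = w⁻¹ * (w' * a * w'⁻¹) * w' := by group
        have e2 : w⁻¹ * (w * a * w⁻¹) * w' = a * (w⁻¹ * w') := by group
        rw [e1, d1', ← d1, e2]
    have hfin2 := Finset.card_le_mul_card_image_of_maps_to hmaps2 4 hfib2
    omega
  have hfin := Finset.card_le_mul_card_image_of_maps_to hmaps 8 hfib
  rw [hJcard] at hfin
  exact hfin

end Bounds

section Final
variable {G : Type u} [Group G] [Fintype G]
  (hd8 : ∀ y : G, orderOf y = 2 → IsD8Inv y)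
  (hconj : ∀ y y' : G, orderOf y = 2 → orderOf y' = 2 → IsConj y y')
  (h : Nat.card G = 360) (hn5 : Nat.card (Sylow 5 G) = 36)
include hd8 hconj h hn5

theorem a6_B2 (y : G) (hy : orderOf y = 2) (x₀ : G) (hx₀ : orderOf x₀ = 5)
    (hinv : y * x₀ * y⁻¹ = x₀⁻¹) :
    ((ordSet G 3).filter (fun w => orderOf (y * w) = 2)).card ≤ 31 := by
  classical
  have hyy : y * y = 1 := mul_self_of_orderOf_two hy
  have hy1 : y ≠ 1 := ne_one_of_orderOf_two hy
  have yinv : y⁻¹ = y := inv_of_orderOf_two hy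
  obtain ⟨B, hB⟩ : ∃ B : Finset G, B = (ordSet G 3).filter (fun w => orderOf (y * w) = 2) :=
    ⟨_, rfl⟩
  rw [← hB]
  obtain ⟨Y, hY⟩ : ∃ Y : Finset G, Y = Finset.univ.filter
      (fun g : G => (y * g) * (y * g) = 1) := ⟨_, rfl⟩
  have hYmem : ∀ g, g ∈ Y ↔ (y * g) * (y * g) = 1 := by
    intro g; rw [hY, Finset.mem_filter]; simp
  have hYcard : Y.card = 46 := by
    have hT : (insert 1 (ordSet G 2)).card = 46 := by
      rw [Finset.card_insert_of_notMem, a6_card_two hd8 hconj h hn5 y hy]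
      rw [mem_ordSet, orderOf_one]
      norm_num
    rw [← hT]
    apply Finset.card_bij (fun g _ => y * g)
    · intro g hg
      rw [hYmem] at hg
      rw [Finset.mem_insert, mem_ordSet]
      by_cases h1 : y * g = 1
      · left; exact h1
      · right; exact orderOf_two_of_mul_self hg h1
    · intro g _ g' _ hgg
      exact mul_left_cancel hgg
    · intro t ht
      refine ⟨y⁻¹ * t, ?_, by rw [mul_inv_cancel_left]⟩
      rw [hYmem, mul_inv_cancel_left]
      rw [Finset.mem_insert, mem_ordSet] at ht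
      rcases ht with rfl | ht
      · rw [mul_one]
      · exact mul_self_of_orderOf_two ht
  obtain ⟨J, hJ⟩ : ∃ J : Finset G, J = Finset.univ.filter
      (fun c : G => c * c = 1 ∧ c ≠ 1 ∧ Commute c y ∧ c ≠ y) := ⟨_, rfl⟩
  have hJmem : ∀ c, c ∈ J ↔ (c * c = 1 ∧ c ≠ 1 ∧ Commute c y ∧ c ≠ y) := by
    intro c; rw [hJ, Finset.mem_filter]; simp
  have hJcard : J.card = 4 := (hd8 y hy).card_J J hJmem
  have hJord : ∀ c ∈ J, orderOf c = 2 := by
    intro c hc
    rw [hJmem] at hc
    exact orderOf_two_of_mul_self hc.1 hc.2.1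
  obtain ⟨U, hU⟩ : ∃ U : Finset G, U = J.biUnion
      (fun c => Finset.univ.filter (fun u : G => u * u = c)) := ⟨_, rfl⟩
  have hUmem : ∀ u, u ∈ U ↔ u * u ∈ J := by
    intro u
    rw [hU, Finset.mem_biUnion]
    constructor
    · rintro ⟨c, hc, hu⟩
      rw [Finset.mem_filter] at hu
      rw [hu.2]; exact hc
    · intro hu
      exact ⟨u * u, hu, by rw [Finset.mem_filter]; exact ⟨Finset.mem_univ _, rfl⟩⟩
  have hUord : ∀ u ∈ U, orderOf u = 4 := by
    intro u hu
    rw [hUmem] at hu
    exact a6_orderOf_four_of_sq rfl (hJord _ hu)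
  have hUcard : U.card = 8 := by
    have hdisj : ((J : Finset G) : Set G).PairwiseDisjoint
        (fun c => Finset.univ.filter (fun u : G => u * u = c)) := by
      intro c _ c' _ hcc
      show Disjoint _ _
      rw [Finset.disjoint_left]
      intro u hu hu'
      rw [Finset.mem_filter] at hu hu'
      exact hcc (hu.2.symm.trans hu'.2)
    have hc2 : ∀ c ∈ J, (Finset.univ.filter (fun u : G => u * u = c)).card = 2 := by
      intro c hc
      apply (hd8 c (hJord c hc)).card_sqrt
      intro u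
      rw [Finset.mem_filter]
      simp
    rw [hU, Finset.card_biUnion hdisj, Finset.sum_congr rfl hc2, Finset.sum_const, hJcard]
    rfl
  obtain ⟨D, hD⟩ : ∃ D : Finset G, D = insert x₀ (insert 1 (insert y (J ∪ U))) := ⟨_, rfl⟩
  have hDord : ∀ g ∈ D, orderOf g ≠ 3 := by
    intro g hg
    rw [hD, Finset.mem_insert, Finset.mem_insert, Finset.mem_insert, Finset.mem_union] at hg
    rcases hg with rfl | rfl | rfl | hg | hg
    · rw [hx₀]; norm_num
    · rw [orderOf_one]; norm_num
    · rw [hy]; norm_num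
    · rw [hJord g hg]; norm_num
    · rw [hUord g hg]; norm_num
  have hDcard : D.card = 15 := by
    have hJU : Disjoint J U := by
      rw [Finset.disjoint_left]
      intro g hg hg'
      have e1 := hJord g hg
      have e2 := hUord g hg'
      omega
    have h1 : (J ∪ U).card = 12 := by
      rw [Finset.card_union_of_disjoint hJU, hJcard, hUcard]
    have hy_notin : y ∉ J ∪ U := by
      intro hmem
      rw [Finset.mem_union] at hmem
      rcases hmem with hm | hm
      · rw [hJmem] at hm; exact hm.2.2.2 rfl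
      · have := hUord y hm; omega
    have h1_notin : (1 : G) ∉ insert y (J ∪ U) := by
      intro hmem
      rw [Finset.mem_insert, Finset.mem_union] at hmem
      rcases hmem with hm | hm | hm
      · exact hy1 hm.symm
      · have := hJord 1 hm; rw [orderOf_one] at this; omega
      · have := hUord 1 hm; rw [orderOf_one] at this; omega
    have hx_notin : x₀ ∉ insert 1 (insert y (J ∪ U)) := by
      intro hmem
      rw [Finset.mem_insert, Finset.mem_insert, Finset.mem_union] at hmem
      rcases hmem with hm | hm | hm | hm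
      · rw [hm, orderOf_one] at hx₀; omega
      · rw [hm] at hx₀; omega
      · have := hJord x₀ hm; omega
      · have := hUord x₀ hm; omega
    rw [hD, Finset.card_insert_of_notMem hx_notin, Finset.card_insert_of_notMem h1_notin,
      Finset.card_insert_of_notMem hy_notin, h1]
  have hBD : Disjoint B D := by
    rw [Finset.disjoint_left]
    intro g hg hg'
    rw [hB, Finset.mem_filter, mem_ordSet] at hg
    exact hDord g hg' hg.1
  have hsub : B ∪ D ⊆ Y := by
    intro g hg
    rw [hYmem]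
    rw [Finset.mem_union] at hg
    rcases hg with hg | hg
    · rw [hB, Finset.mem_filter] at hg
      exact mul_self_of_orderOf_two hg.2
    · rw [hD, Finset.mem_insert, Finset.mem_insert, Finset.mem_insert, Finset.mem_union] at hg
      rcases hg with rfl | rfl | rfl | hg | hg
      · have e : (y * g) * (y * g) = (y * g * y⁻¹) * (y * y) * g := by group
        rw [e, hinv, hyy, mul_one, inv_mul_cancel]
      · rw [mul_one]; exact hyy
      · rw [hyy, mul_one]
      · rw [hJmem] at hg
        obtain ⟨hcc, -, hcy, -⟩ := hg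
        have e : (y * g) * (y * g) = y * (g * y) * g := by group
        rw [e, hcy.eq]
        have e2 : y * (y * g) * g = (y * y) * (g * g) := by group
        rw [e2, hyy, hcc, one_mul]
      · rw [hUmem, hJmem] at hg
        obtain ⟨hcc, hc1, hcy, hcne⟩ := hg
        have hc2 : orderOf (g * g) = 2 := orderOf_two_of_mul_self hcc hc1
        have hinv' := (hd8 (g * g) hc2).inverts hyy hy1 hcy.symm (fun h => hcne h.symm) rfl
        have e : (y * g) * (y * g) = y * g * y * g := by group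
        rw [e, hinv']
  have hcard := Finset.card_le_card hsub
  rw [Finset.card_union_of_disjoint hBD, hDcard, hYcard] at hcard
  omega

theorem a6_exists_triple (y : G) (hy : orderOf y = 2) (x₀ : G) (hx₀ : orderOf x₀ = 5)
    (hinv : y * x₀ * y⁻¹ = x₀⁻¹) : ∃ w : G, orderOf w = 3 ∧ orderOf (y * w) = 5 := by
  classical
  by_contra hcon
  push Not at hcon
  have h3 := a6_card_three hd8 hconj h hn5 y hy x₀ hx₀
  have h9 := a6_card_nine hd8 hconj h hn5 y hy x₀ hx₀
  have hb2 := a6_B2 hd8 hconj h hn5 y hy x₀ hx₀ hinv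
  have hb3 := a6_B3 hd8 y hy
  have hb4 := a6_B4 hd8 y hy
  have hsub : ordSet G 3 ⊆ ((ordSet G 3).filter (fun w => orderOf (y * w) = 2)) ∪
      ((ordSet G 3).filter (fun w => orderOf (y * w) = 3)) ∪
      ((ordSet G 3).filter (fun w => orderOf (y * w) = 4)) := by
    intro w hw
    have hw3 := mem_ordSet.mp hw
    simp only [Finset.mem_union, Finset.mem_filter]
    rcases a6_orders hd8 h hn5 (y * w) with h1 | h2 | h3 | h4 | h5 | h9'
    · exfalso
      have e1 := orderOf_eq_one_iff.mp h1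
      have e2 : w = y⁻¹ := eq_inv_of_mul_eq_one_right e1
      rw [e2, orderOf_inv, hy] at hw3
      omega
    · exact Or.inl (Or.inl ⟨hw, h2⟩)
    · exact Or.inl (Or.inr ⟨hw, h3⟩)
    · exact Or.inr ⟨hw, h4⟩
    · exact absurd h5 (hcon w hw3)
    · exfalso
      have hmem : y * w ∈ ordSet G 9 := mem_ordSet.mpr h9'
      rw [Finset.card_eq_zero] at h9
      rw [h9] at hmem
      exact absurd hmem (Finset.notMem_empty _)
  have hle := Finset.card_le_card hsub
  have u1 := Finset.card_union_le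
    (((ordSet G 3).filter (fun w => orderOf (y * w) = 2)) ∪
      ((ordSet G 3).filter (fun w => orderOf (y * w) = 3)))
    ((ordSet G 3).filter (fun w => orderOf (y * w) = 4))
  have u2 := Finset.card_union_le ((ordSet G 3).filter (fun w => orderOf (y * w) = 2))
    ((ordSet G 3).filter (fun w => orderOf (y * w) = 3))
  omega

end Final

theorem a6_mem_of_index_two_of_pow {H : Type*} [Group H] (K : Subgroup H) (hK : K.index = 2)
    (g : H) (m : ℕ) (hg : g ^ (2 * m + 1) = 1) : g ∈ K := by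
  have h1 := Subgroup.sq_mem_of_index_two hK (g ^ (m + 1))
  have e : (g ^ (m + 1)) ^ 2 = g := by
    rw [← pow_mul, show (m + 1) * 2 = (2 * m + 1) + 1 by ring, pow_succ, hg, one_mul]
  rwa [e] at h1

theorem a6_of_triple {G : Type u} [Group G] [Finite G] [IsSimpleGroup G] (h : Nat.card G = 360)
    (y w : G) (hy : orderOf y = 2) (hw : orderOf w = 3) (hx : orderOf (y * w) = 5) :
    Nonempty (G ≃* alternatingGroup (Fin 6)) := by
  obtain ⟨x, hxdef⟩ : ∃ x, x = y * w := ⟨_, rfl⟩
  rw [← hxdef] at hx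
  have hyy := mul_self_of_orderOf_two hy
  have hx5 : x ^ 5 = 1 := hx ▸ pow_orderOf_eq_one x
  have hw3 : w ^ 3 = 1 := hw ▸ pow_orderOf_eq_one w
  have hyx : y * x = w := by rw [hxdef, ← mul_assoc, hyy, one_mul]
  have hrel : y * x * y * x * y * x = 1 := by
    have e : y * x * y * x * y * x = (y * x) * (y * x) * (y * x) := by simp only [mul_assoc]
    rw [e, hyx, ← a6_pow_three]
    exact hw3
  obtain ⟨H, hH⟩ : ∃ H : Subgroup G, H = Subgroup.closure ({x, y} : Set G) := ⟨_, rfl⟩
  have hle : Nat.card H ≤ 60 := by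
    rw [hH]; exact card_closure_le_sixty x y hyy hx5 hrel
  have hxH : x ∈ H := by rw [hH]; exact Subgroup.subset_closure (by simp)
  have hyH : y ∈ H := by rw [hH]; exact Subgroup.subset_closure (by simp)
  have hwH : w ∈ H := hyx ▸ H.mul_mem hyH hxH
  have d2 : 2 ∣ Nat.card H := hy ▸ Subgroup.orderOf_dvd_natCard H hyH
  have d3 : 3 ∣ Nat.card H := hw ▸ Subgroup.orderOf_dvd_natCard H hwH
  have d5 : 5 ∣ Nat.card H := hx ▸ Subgroup.orderOf_dvd_natCard H hxH
  have hpos : 0 < Nat.card H := Nat.card_pos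
  have hne30 : Nat.card H ≠ 30 := by
    intro h30
    have : Fact (Nat.Prime 2) := ⟨Nat.prime_two⟩
    obtain ⟨T⟩ : Nonempty (Sylow 2 H) := inferInstance
    have hT : Nat.card (T : Subgroup H) = 2 := by
      have := sylow_card_of_eq (G := H) (p := 2) (k := 1) (m := 15) (by rw [h30]; norm_num)
        (by norm_num) T
      simpa using this
    have hcyc : IsCyclic (T : Subgroup H) := isCyclic_of_prime_card hT
    obtain ⟨K, hK⟩ := exists_index_two_of_cyclic_sylow (G := H) (by rw [h30]; decide) T hcyc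
    have hK15 : Nat.card K = 15 := by
      have := K.card_mul_index
      rw [hK, h30] at this
      omega
    have hxK : (⟨x, hxH⟩ : H) ∈ K :=
      a6_mem_of_index_two_of_pow K hK _ 2 (Subtype.ext (by
        rw [Subgroup.coe_pow, Subgroup.coe_one]; exact hx5))
    have hwK : (⟨w, hwH⟩ : H) ∈ K :=
      a6_mem_of_index_two_of_pow K hK _ 1 (Subtype.ext (by
        rw [Subgroup.coe_pow, Subgroup.coe_one]; exact hw3))
    have hyK : (⟨y, hyH⟩ : H) ∈ K := by
      have e : (⟨y, hyH⟩ : H) = ⟨w, hwH⟩ * (⟨x, hxH⟩ : H)⁻¹ := by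
        apply Subtype.ext
        show y = w * x⁻¹
        rw [← hyx]; group
      rw [e]
      exact K.mul_mem hwK (K.inv_mem hxK)
    have hdvd := Subgroup.orderOf_dvd_natCard K hyK
    rw [Subgroup.orderOf_mk, hy, hK15] at hdvd
    omega
  have h60 : Nat.card H = 60 := by omega
  have hidx : H.index = 6 := by
    have := H.card_mul_index
    rw [h60, h] at this
    omega
  exact a6_of_index_six h H hidx

/-- **Lemma A6.** A simple group of order `360` with one class of involutions whose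
centralizers are dihedral of order `8` is isomorphic to `A₆`. -/
theorem a6_of_d8 {G : Type u} [Group G] [Finite G] [IsSimpleGroup G] (h : Nat.card G = 360)
    (z : G) (hz : orderOf z = 2) (e : Subgroup.centralizer ({z} : Set G) ≃* DihedralGroup 4)
    (hconj : ∀ y : G, orderOf y = 2 → IsConj z y) :
    Nonempty (G ≃* alternatingGroup (Fin 6)) := by
  classical
  have := Fintype.ofFinite G
  have hz8 : IsD8Inv z := isD8Inv_of_equiv z hz e
  have hd8 : ∀ y : G, orderOf y = 2 → IsD8Inv y := by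
    intro y hy
    obtain ⟨c, hc⟩ := isConj_iff.mp (hconj y hy)
    rw [← hc]
    exact hz8.conj c
  have hconj' : ∀ y y' : G, orderOf y = 2 → orderOf y' = 2 → IsConj y y' :=
    fun y y' hy hy' => (hconj y hy).symm.trans (hconj y' hy')
  have : Fact (Nat.Prime 5) := ⟨by norm_num⟩
  have h360 : Nat.card G = 5 ^ 1 * 72 := by rw [h]; norm_num
  have hmem := card_sylow_mem_filter (G := G) (p := 5) h360 (by norm_num)
  have hne1 := simple_sylow_card_ne_one (G := G) (p := 5) h360 (by norm_num) (by norm_num)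
    (by norm_num)
  rw [show (Nat.divisors 72).filter (fun d => d % 5 = 1) = {1, 6, 36} from by decide] at hmem
  simp only [Finset.mem_insert, Finset.mem_singleton] at hmem
  obtain ⟨P⟩ : Nonempty (Sylow 5 G) := inferInstance
  rcases hmem with h1 | h6 | h36
  · exact absurd h1 hne1
  · exact a6_of_index_six h _ ((Sylow.card_eq_index_normalizer P).symm.trans h6)
  · obtain ⟨x₀, hx₀⟩ := exists_prime_orderOf_dvd_card' (G := G) 5 (by rw [h]; norm_num)
    obtain ⟨y, hy, hinv⟩ := a6_exists_inverting hd8 h h36 x₀ hx₀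
    obtain ⟨w, hw3, hw5⟩ := a6_exists_triple hd8 hconj' h h36 y hy x₀ hx₀ hinv
    exact a6_of_triple h y w hy hw3 hw5

end Cfsg.Agent.Lib.Helper6
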