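import Mathlib
import Cfsg.Agent.Lib.Helper6.A6Count
import Cfsg.Agent.Lib.Helper23.DihedralLift

set_option autoImplicit false
set_option linter.unusedSectionVars false

namespace Cfsg.Agent.Lib.Helper6

open Cfsg.Agent.Lib.Helper23

universe u

theorem a6s_comm_of_sq {G : Type*} [Group G] {a b : G} (ha : a ^ 2 = 1) (hb : b ^ 2 = 1)
    (hab : (a * b) ^ 2 = 1) : a * b = b * a := by
  have h1 : a * b * (a * b) = 1 := by rw [← sq]; exact hab
  have ha' : a * a = 1 := by rw [← sq]; exact ha
  have hb' : b * b = 1 := by rw [← sq]; exact hb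
  have h2 : b * a = b * a * (a * b * (a * b)) := by rw [h1, mul_one]
  rw [h2]
  calc a * b = (b * b) * (a * b) := by rw [hb', one_mul]
    _ = b * (a * a) * b * (a * b) := by rw [ha', mul_one]
    _ = b * a * (a * b * (a * b)) := by simp only [mul_assoc]

/-- a proper subgroup of a simple group of order `360` has index at least `6` -/
theorem a6s_index_ge_six {G : Type u} [Group G] [Finite G] [IsSimpleGroup G]
    (h : Nat.card G = 360) (H : Subgroup G) (hH : H ≠ ⊤) : 6 ≤ H.index := by
  classical
  have := Fintype.ofFinite (G ⧸ H)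
  let φ : G →* Equiv.Perm (G ⧸ H) := MulAction.toPermHom G (G ⧸ H)
  have hker : φ.ker ≠ ⊤ := by
    intro hk
    apply hH
    rw [← Subgroup.normalCore_eq_ker] at hk
    exact eq_top_iff.mpr (hk ▸ Subgroup.normalCore_le H)
  have hinj : Function.Injective φ :=
    (MonoidHom.ker_eq_bot_iff φ).mp ((φ.normal_ker.eq_bot_or_eq_top).resolve_right hker)
  have hc : Fintype.card (G ⧸ H) = H.index := by
    rw [← Nat.card_eq_fintype_card, Subgroup.index_eq_card]
  have hle : Nat.card G ≤ (H.index).factorial := by
    have := Nat.card_le_card_of_injective φ hinj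
    rwa [Nat.card_perm, Nat.card_eq_fintype_card (α := G ⧸ H), hc] at this
  by_contra hlt
  push Not at hlt
  rw [h] at hle
  have h0 : H.index ≠ 0 := Subgroup.index_ne_zero_of_finite
  generalize H.index = k at *
  interval_cases k <;> simp_all [Nat.factorial]

/-- an element of prime order `p` permuting (by conjugation) a finite set of size prime to `p`
commutes with one of its elements -/
theorem a6s_exists_fixed {G : Type u} [Group G] [Finite G] (g : G) (p : ℕ) [hp : Fact p.Prime]
    (hg : orderOf g = p) (s : Finset G) (hs : ∀ x ∈ s, g * x * g⁻¹ ∈ s) (hnd : ¬ p ∣ s.card) :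
    ∃ x ∈ s, Commute g x := by
  classical
  by_contra hno
  push Not at hno
  apply hnd
  rw [← hg, ← Nat.card_zpowers]
  have hpow : ∀ (i : ℕ), ∀ x ∈ s, g ^ i * x * (g ^ i)⁻¹ ∈ s := by
    intro i
    induction i with
    | zero => intro x hx; simpa using hx
    | succ i ih =>
      intro x hx
      have e : g ^ (i + 1) * x * (g ^ (i + 1))⁻¹ = g * (g ^ i * x * (g ^ i)⁻¹) * g⁻¹ := by
        rw [pow_succ']; group
      rw [e]
      exact hs _ (ih x hx)
  apply card_dvd_of_free_conj
  · intro k hk x hx
    rw [mem_zpowers_iff_mem_range_orderOf, Finset.mem_image] at hk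
    obtain ⟨i, -, rfl⟩ := hk
    exact hpow i x hx
  · intro k hk x hx hfix
    by_contra hk1
    have hle : Subgroup.zpowers k ≤ Subgroup.zpowers g := (Subgroup.zpowers_le).mpr hk
    have hcard : Nat.card (Subgroup.zpowers k) = p := by
      have hd : orderOf k ∣ p := by
        rw [← hg]; exact orderOf_dvd_of_mem_zpowers hk
      rcases (Nat.dvd_prime hp.out).mp hd with h1 | hp'
      · exact absurd (orderOf_eq_one_iff.mp h1) hk1
      · rw [Nat.card_zpowers, hp']
    have heq : Subgroup.zpowers k = Subgroup.zpowers g :=
      Subgroup.eq_of_le_of_card_ge hle (by rw [hcard, Nat.card_zpowers, hg])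
    have hgk : g ∈ Subgroup.zpowers k := heq ▸ Subgroup.mem_zpowers g
    obtain ⟨j, hj⟩ := Subgroup.mem_zpowers_iff.mp hgk
    apply hno x hx
    have hc : Commute k x := by
      show k * x = x * k
      calc k * x = (k * x * k⁻¹) * k := by group
        _ = x * k := by rw [hfix]
    rw [← hj]
    exact hc.zpow_left j

open scoped IsMulCommutative in
/-- Burnside-type transfer: in a finite simple nonabelian group, a commutative Sylow
`2`-subgroup has no nontrivial element centralized by its normalizer. -/
theorem a6s_transfer {G : Type u} [Group G] [Finite G] [IsSimpleGroup G]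
    (hG : ¬ IsMulCommutative G) (S : Sylow 2 G) [hS : IsMulCommutative (S : Subgroup G)] (u : G)
    (huS : u ∈ (S : Subgroup G)) (hu1 : u ≠ 1)
    (hN : ∀ n ∈ Subgroup.normalizer ((S : Subgroup G) : Set G), Commute n u) : False := by
  have : Fact (Nat.Prime 2) := ⟨Nat.prime_two⟩
  let f : G →* (S : Subgroup G) := MonoidHom.transfer (MonoidHom.id (S : Subgroup G))
  have key : ∀ (k : ℕ) (g₀ : G), g₀⁻¹ * u ^ k * g₀ ∈ (S : Subgroup G) →
      g₀⁻¹ * u ^ k * g₀ = u ^ k := by
    intro k g₀ hmem
    obtain ⟨n, hn, h⟩ := S.conj_eq_normalizer_conj_of_mem (u ^ k) g₀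
      ((S : Subgroup G).pow_mem huS k) hmem
    rw [h]
    have hc : Commute n (u ^ k) := (hN n hn).pow_right k
    rw [mul_assoc, ← hc.eq, inv_mul_cancel_left]
  have h1 := MonoidHom.transfer_eq_pow (MonoidHom.id (S : Subgroup G)) u key
  have hker : f.ker = ⊤ := by
    rcases f.normal_ker.eq_bot_or_eq_top with hb | ht
    · exfalso
      apply hG
      have hinj : Function.Injective f := (MonoidHom.ker_eq_bot_iff f).mp hb
      refine ⟨⟨fun a b => hinj ?_⟩⟩
      rw [map_mul, map_mul, mul_comm]
    · exact ht
  have h2 : f u = 1 := by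
    have hmem : u ∈ f.ker := by rw [hker]; trivial
    exact MonoidHom.mem_ker.mp hmem
  have h3 : u ^ (S : Subgroup G).index = 1 := by
    have e := congrArg Subtype.val (h1.symm.trans h2)
    simpa using e
  have hd : orderOf u ∣ (S : Subgroup G).index := orderOf_dvd_of_pow_eq_one h3
  obtain ⟨k, hk⟩ := S.2 ⟨u, huS⟩
  have hk' : u ^ 2 ^ k = 1 := by
    have e := congrArg Subtype.val hk
    simpa using e
  obtain ⟨j, -, hj⟩ := (Nat.dvd_prime_pow Nat.prime_two).mp (orderOf_dvd_of_pow_eq_one hk')
  rcases Nat.eq_zero_or_pos j with rfl | hjpos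
  · rw [pow_zero] at hj
    exact hu1 (orderOf_eq_one_iff.mp hj)
  · have h2d : 2 ∣ (S : Subgroup G).index := by
      refine dvd_trans ?_ hd
      rw [hj]
      exact dvd_pow_self 2 hjpos.ne'
    exact S.not_dvd_index h2d

/-- A noncommutative group of order `8` either has a unique involution or is dihedral. -/
theorem a6s_d8_or_unique_involution {T : Type*} [Group T] (h8 : Nat.card T = 8)
    (hnc : ¬ ∀ a b : T, a * b = b * a) :
    (∃ t : T, orderOf t = 2 ∧ ∀ t' : T, orderOf t' = 2 → t' = t) ∨
      Nonempty (T ≃* DihedralGroup 4) := by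
  classical
  have hfin : Finite T := Nat.finite_of_card_ne_zero (by rw [h8]; norm_num)
  have hord : ∀ g : T, orderOf g ∣ 8 := fun g => h8 ▸ orderOf_dvd_natCard g
  obtain ⟨a, ha4⟩ : ∃ a : T, orderOf a = 4 := by
    by_contra hno
    push Not at hno
    apply hnc
    by_cases h8' : ∃ g : T, orderOf g = 8
    · obtain ⟨g, hg⟩ := h8'
      have hcyc : IsCyclic T := isCyclic_of_orderOf_eq_card g (by rw [hg, h8])
      intro x y
      obtain ⟨c, hc⟩ := hcyc
      obtain ⟨i, rfl⟩ := Subgroup.mem_zpowers_iff.mp (hc x)
      obtain ⟨j, rfl⟩ := Subgroup.mem_zpowers_iff.mp (hc y)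
      rw [← zpow_add, ← zpow_add, add_comm]
    · push Not at h8'
      have hsq : ∀ g : T, g ^ 2 = 1 := by
        intro g
        have hd := hord g
        have hle := Nat.le_of_dvd (by norm_num) hd
        have h4 := hno g
        have h8'' := h8' g
        have hpos := orderOf_pos g
        have hd2 : orderOf g ∣ 2 := by
          generalize orderOf g = n at *
          interval_cases n <;> omega
        exact orderOf_dvd_iff_pow_eq_one.mp hd2
      intro x y
      exact a6s_comm_of_sq (hsq x) (hsq y) (hsq (x * y))
  have ha44 : a ^ 4 = 1 := ha4 ▸ pow_orderOf_eq_one a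
  have hA4 : Nat.card (Subgroup.zpowers a) = 4 := by rw [Nat.card_zpowers, ha4]
  have hAidx : (Subgroup.zpowers a).index = 2 := by
    have := (Subgroup.zpowers a).card_mul_index
    rw [hA4, h8] at this
    omega
  have hAn : (Subgroup.zpowers a).Normal := Subgroup.normal_of_index_eq_two hAidx
  -- every element outside `⟨a⟩` inverts `a`
  have hinv : ∀ b : T, b ∉ Subgroup.zpowers a → b * a * b⁻¹ = a⁻¹ := by
    intro b hb
    have hmem : b * a * b⁻¹ ∈ Subgroup.zpowers a := hAn.conj_mem a (Subgroup.mem_zpowers a) b
    have hv4 : orderOf (b * a * b⁻¹) = 4 := by rw [orderOf_conj_eq, ha4]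
    rw [mem_zpowers_iff_mem_range_orderOf, ha4] at hmem
    simp only [Finset.mem_image, Finset.mem_range] at hmem
    obtain ⟨k, hk, hkv⟩ := hmem
    interval_cases k
    · rw [pow_zero] at hkv
      rw [← hkv, orderOf_one] at hv4
      omega
    · rw [pow_one] at hkv
      exfalso
      -- `b` commutes with `a`, so the centre is too big
      have hcomm : b * a = a * b := by
        calc b * a = (b * a * b⁻¹) * b := by group
          _ = a * b := by rw [← hkv]
      have hZa : a ∈ Subgroup.centralizer ({b} : Set T) :=
        Subgroup.mem_centralizer_singleton_iff.mpr hcomm.symm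
      have hZb : b ∈ Subgroup.centralizer ({b} : Set T) :=
        Subgroup.mem_centralizer_singleton_iff.mpr rfl
      have hle : Subgroup.zpowers a ≤ Subgroup.centralizer ({b} : Set T) :=
        (Subgroup.zpowers_le).mpr hZa
      have hCb : Subgroup.centralizer ({b} : Set T) = ⊤ := by
        have hd1 := Subgroup.card_dvd_of_le hle
        have hd2 := Subgroup.card_subgroup_dvd_card (Subgroup.centralizer ({b} : Set T))
        rw [hA4] at hd1
        rw [h8] at hd2
        have hne : Nat.card (Subgroup.centralizer ({b} : Set T)) ≠ 4 := by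
          intro h4
          have : Subgroup.zpowers a = Subgroup.centralizer ({b} : Set T) :=
            Subgroup.eq_of_le_of_card_ge hle (by rw [h4, hA4])
          exact hb (this ▸ hZb)
        have hle8 := Nat.le_of_dvd (by norm_num) hd2
        have h8c : Nat.card (Subgroup.centralizer ({b} : Set T)) = 8 := by
          generalize Nat.card (Subgroup.centralizer ({b} : Set T)) = n at *
          interval_cases n <;> omega
        exact Subgroup.eq_top_of_card_eq _ (by rw [h8c, h8])
      have hCa : Subgroup.centralizer ({a} : Set T) = ⊤ := by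
        have hZa' : a ∈ Subgroup.centralizer ({a} : Set T) :=
          Subgroup.mem_centralizer_singleton_iff.mpr rfl
        have hZb' : b ∈ Subgroup.centralizer ({a} : Set T) :=
          Subgroup.mem_centralizer_singleton_iff.mpr hcomm
        have hle' : Subgroup.zpowers a ≤ Subgroup.centralizer ({a} : Set T) :=
          (Subgroup.zpowers_le).mpr hZa'
        have hd1 := Subgroup.card_dvd_of_le hle'
        have hd2 := Subgroup.card_subgroup_dvd_card (Subgroup.centralizer ({a} : Set T))
        rw [hA4] at hd1
        rw [h8] at hd2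
        have hne : Nat.card (Subgroup.centralizer ({a} : Set T)) ≠ 4 := by
          intro h4
          have : Subgroup.zpowers a = Subgroup.centralizer ({a} : Set T) :=
            Subgroup.eq_of_le_of_card_ge hle' (by rw [h4, hA4])
          exact hb (this ▸ hZb')
        have hle8 := Nat.le_of_dvd (by norm_num) hd2
        have h8c : Nat.card (Subgroup.centralizer ({a} : Set T)) = 8 := by
          generalize Nat.card (Subgroup.centralizer ({a} : Set T)) = n at *
          interval_cases n <;> omega
        exact Subgroup.eq_top_of_card_eq _ (by rw [h8c, h8])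
      -- every element is `a ^ i` or `b * a ^ i`-like: use the centre
      have hcen_a : a ∈ Subgroup.center T := by
        rw [Subgroup.mem_center_iff]
        intro g
        have hg : g ∈ Subgroup.centralizer ({a} : Set T) := by rw [hCa]; trivial
        exact (Subgroup.mem_centralizer_singleton_iff.mp hg)
      have hcen_b : b ∈ Subgroup.center T := by
        rw [Subgroup.mem_center_iff]
        intro g
        have hg : g ∈ Subgroup.centralizer ({b} : Set T) := by rw [hCb]; trivial
        exact (Subgroup.mem_centralizer_singleton_iff.mp hg)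
      have hle : Subgroup.zpowers a ≤ Subgroup.center T := (Subgroup.zpowers_le).mpr hcen_a
      have hZ : Subgroup.center T = ⊤ := by
        have hd1 := Subgroup.card_dvd_of_le hle
        have hd2 := Subgroup.card_subgroup_dvd_card (Subgroup.center T)
        rw [hA4] at hd1
        rw [h8] at hd2
        have hne : Nat.card (Subgroup.center T) ≠ 4 := by
          intro h4
          have : Subgroup.zpowers a = Subgroup.center T :=
            Subgroup.eq_of_le_of_card_ge hle (by rw [h4, hA4])
          exact hb (this ▸ hcen_b)
        have hle8 := Nat.le_of_dvd (by norm_num) hd2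
        have h8c : Nat.card (Subgroup.center T) = 8 := by
          generalize Nat.card (Subgroup.center T) = n at *
          interval_cases n <;> omega
        exact Subgroup.eq_top_of_card_eq _ (by rw [h8c, h8])
      apply hnc
      intro x y
      have hx : x ∈ Subgroup.center T := by rw [hZ]; trivial
      exact ((Subgroup.mem_center_iff.mp hx) y).symm
    · exfalso
      have h2 : (b * a * b⁻¹) ^ 2 = 1 := by
        rw [← hkv, ← pow_mul]
        exact ha44
      have := orderOf_dvd_of_pow_eq_one h2
      rw [hv4] at this
      omega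
    · rw [← hkv]
      apply eq_inv_of_mul_eq_one_left
      rw [← pow_succ]
      exact ha44
  by_cases hex : ∃ b : T, b ∉ Subgroup.zpowers a ∧ b * b = 1
  · right
    obtain ⟨b, hbA, hbb⟩ := hex
    have hba := hinv b hbA
    let φ := dihedralLift 4 a b ha44 hbb hba
    have hφa : a ∈ φ.range := ⟨DihedralGroup.r 1, dihedralLift_r_one 4 a b ha44 hbb hba⟩
    have hφb : b ∈ φ.range := ⟨DihedralGroup.sr 0, dihedralLift_sr_zero 4 a b ha44 hbb hba⟩
    have hza : Subgroup.zpowers a ≤ φ.range := (Subgroup.zpowers_le).mpr hφa
    have hr8 : Nat.card φ.range = 8 := by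
      have hd1 := Subgroup.card_dvd_of_le hza
      have hd2 := Subgroup.card_subgroup_dvd_card φ.range
      rw [hA4] at hd1
      rw [h8] at hd2
      have hne : Nat.card φ.range ≠ 4 := by
        intro h4
        have : Subgroup.zpowers a = φ.range :=
          Subgroup.eq_of_le_of_card_ge hza (by rw [h4, hA4])
        exact hbA (this ▸ hφb)
      have hle8 := Nat.le_of_dvd (by norm_num) hd2
      generalize Nat.card φ.range = n at *
      interval_cases n <;> omega
    have hsurj : Function.Surjective φ := by
      rw [← MonoidHom.range_eq_top]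
      exact Subgroup.eq_top_of_card_eq _ (by rw [hr8, h8])
    have hbij : Function.Bijective φ :=
      (Nat.bijective_iff_surjective_and_card φ).mpr
        ⟨hsurj, by rw [DihedralGroup.nat_card, h8]⟩
    exact ⟨(MulEquiv.ofBijective φ hbij).symm⟩
  · left
    push Not at hex
    have ha2 : orderOf (a ^ 2) = 2 := by
      rw [orderOf_pow' a (by norm_num), ha4]
      rfl
    refine ⟨a ^ 2, ha2, ?_⟩
    intro t ht
    have htA : t ∈ Subgroup.zpowers a := by
      by_contra htA
      exact hex t htA (mul_self_of_orderOf_two ht)
    rw [mem_zpowers_iff_mem_range_orderOf, ha4] at htA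
    simp only [Finset.mem_image, Finset.mem_range] at htA
    obtain ⟨k, hk, hkv⟩ := htA
    interval_cases k
    · rw [pow_zero] at hkv
      rw [← hkv, orderOf_one] at ht
      omega
    · rw [pow_one] at hkv
      rw [← hkv, ha4] at ht
      omega
    · exact hkv.symm
    · exfalso
      have h3 : orderOf (a ^ 3) = 4 := by
        rw [orderOf_pow' a (by norm_num), ha4]
        rfl
      rw [← hkv, h3] at ht
      omega

end Cfsg.Agent.Lib.Helper6
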