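import Mathlib
import Cfsg.Agent.Lib.Helper6.A6Syl
import Cfsg.Agent.S0107

set_option autoImplicit false
set_option linter.unusedSectionVars false

namespace Cfsg.Agent.Lib.Helper6

open Cfsg.Agent.Lib.Helper23

universe u

theorem a6s_pres_normal (G : Type*) [Group G] : (Cfsg.pResidual 2 G).Normal := by
  constructor
  intro n hn g
  unfold Cfsg.pResidual at hn ⊢
  induction hn using Subgroup.closure_induction with
  | mem x hx =>
    exact Subgroup.subset_closure (by
      show Nat.Coprime (orderOf (g * x * g⁻¹)) 2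
      rw [orderOf_conj_eq]; exact hx)
  | one => simp
  | mul x y _ _ hx hy =>
    have e : g * (x * y) * g⁻¹ = (g * x * g⁻¹) * (g * y * g⁻¹) := by group
    rw [e]; exact Subgroup.mul_mem _ hx hy
  | inv x _ hx =>
    have e : g * x⁻¹ * g⁻¹ = (g * x * g⁻¹)⁻¹ := by group
    rw [e]; exact Subgroup.inv_mem _ hx

theorem a6s_conj_mem_sylow {G : Type u} [Group G] [Finite G] (S : Sylow 2 G) (t : G)
    (ht : orderOf t = 2) : ∃ g : G, g * t * g⁻¹ ∈ (S : Subgroup G) := by
  have : Fact (Nat.Prime 2) := ⟨Nat.prime_two⟩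
  have hp : IsPGroup 2 (Subgroup.zpowers t) := by
    apply IsPGroup.of_card (n := 1)
    rw [Nat.card_zpowers, ht, pow_one]
  obtain ⟨S', hS'⟩ := hp.exists_le_sylow
  obtain ⟨c, rfl⟩ := MulAction.exists_smul_eq G S S'
  have htS : t ∈ ((c • S : Sylow 2 G) : Subgroup G) := hS' (Subgroup.mem_zpowers t)
  rw [Sylow.coe_subgroup_smul, Subgroup.mem_pointwise_smul_iff_inv_smul_mem] at htS
  refine ⟨c⁻¹, ?_⟩
  simpa [MulAut.smul_def] using htS

theorem a6s_card_sub_one {G : Type u} [Group G] [Fintype G] (H : Subgroup G)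
    [DecidablePred (fun g : G => g ∈ H ∧ g ≠ 1)] :
    (Finset.univ.filter (fun g : G => g ∈ H ∧ g ≠ 1)).card = Nat.card H - 1 := by
  classical
  have h5 : (Finset.univ.filter (fun x : G => x ∈ H)).card = Nat.card H := by
    rw [Nat.card_eq_fintype_card, Fintype.card_subtype]
  have e : Finset.univ.filter (fun x : G => x ∈ H ∧ x ≠ 1) =
      (Finset.univ.filter (fun x : G => x ∈ H)).erase 1 := by
    ext x
    simp [and_comm]
  rw [e, Finset.card_erase_of_mem (by simp [one_mem]), h5]

section
variable {G : Type u} [Group G] [Finite G] [IsSimpleGroup G] (h : Nat.card G = 360)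
  (hn5 : Nat.card (Sylow 5 G) = 36)
include h

theorem a6s_not_comm : ¬ IsMulCommutative G :=
  not_comm_of_simple_of_not_prime (by rw [h]; norm_num)

theorem a6s_pres : Cfsg.pResidual 2 G = ⊤ := by
  rcases (a6s_pres_normal G).eq_bot_or_eq_top with hb | ht
  · exfalso
    have : Fact (Nat.Prime 5) := ⟨by norm_num⟩
    obtain ⟨x, hx⟩ := exists_prime_orderOf_dvd_card' (G := G) 5 (by rw [h]; norm_num)
    have hmem : x ∈ Cfsg.pResidual 2 G := Subgroup.subset_closure (by
      show Nat.Coprime (orderOf x) 2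
      rw [hx]; decide)
    rw [hb, Subgroup.mem_bot] at hmem
    rw [hmem, orderOf_one] at hx
    omega
  · exact ht

include hn5

theorem a6s_mem_zpowers_five (x : G) (hx : orderOf x = 5) (g : G) (hc : Commute g x) :
    g ∈ Subgroup.zpowers x := by
  have hG := a6s_not_comm h
  have : Fact (Nat.Prime 5) := ⟨by norm_num⟩
  have h360 : Nat.card G = 5 ^ 1 * 72 := by rw [h]; norm_num
  have hfac : (Nat.card G).factorization 5 = 1 :=
    factorization_of_eq (by norm_num) h360 (by norm_num)
  have hcard : Nat.card (Subgroup.zpowers x) = 5 ^ (Nat.card G).factorization 5 := by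
    rw [Nat.card_zpowers, hx, hfac, pow_one]
  obtain ⟨P, hPc⟩ : ∃ P : Sylow 5 G, (P : Subgroup G) = Subgroup.zpowers x :=
    ⟨Sylow.ofCard (Subgroup.zpowers x) hcard, Sylow.coe_ofCard _ _⟩
  have hN : Nat.card (Subgroup.normalizer ((P : Subgroup G) : Set G)) = 10 := by
    have h1 := card_normalizer_sylow_mul P
    rw [hn5, h] at h1
    omega
  have hPbot : (P : Subgroup G) ≠ ⊥ := by
    intro hb
    have hc1 : Nat.card (P : Subgroup G) = 1 := by rw [hb, Subgroup.card_bot]
    rw [hPc, Nat.card_zpowers, hx] at hc1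
    omega
  have hnot := simple_not_normalizer_le_centralizer hG P hPbot
  have hle1 : (P : Subgroup G) ≤ Subgroup.centralizer ((P : Subgroup G) : Set G) := by
    rw [hPc]
    intro y hy
    rw [Subgroup.mem_centralizer_iff]
    intro w hw
    obtain ⟨i, rfl⟩ := Subgroup.mem_zpowers_iff.mp hy
    obtain ⟨j, rfl⟩ := Subgroup.mem_zpowers_iff.mp hw
    rw [← zpow_add, ← zpow_add, add_comm]
  have hle2 := Subgroup.centralizer_le_normalizer ((P : Subgroup G) : Set G)
  have hC5 : Nat.card (Subgroup.centralizer ((P : Subgroup G) : Set G)) = 5 := by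
    have hd1 := Subgroup.card_dvd_of_le hle1
    have hd2 := Subgroup.card_dvd_of_le hle2
    have hP5 : Nat.card (P : Subgroup G) = 5 := by rw [hPc, Nat.card_zpowers, hx]
    rw [hP5] at hd1
    rw [hN] at hd2
    have hne : Nat.card (Subgroup.centralizer ((P : Subgroup G) : Set G)) ≠ 10 := by
      intro h10
      apply hnot
      exact (Subgroup.eq_of_le_of_card_ge hle2 (by rw [h10, hN])).symm.le
    have hle := Nat.le_of_dvd (by norm_num) hd2
    generalize Nat.card (Subgroup.centralizer ((P : Subgroup G) : Set G)) = n at *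
    interval_cases n <;> omega
  have hCeq : (P : Subgroup G) = Subgroup.centralizer ((P : Subgroup G) : Set G) :=
    Subgroup.eq_of_le_of_card_ge hle1 (by rw [hC5, hPc, Nat.card_zpowers, hx])
  have hg : g ∈ Subgroup.centralizer ((P : Subgroup G) : Set G) := by
    rw [Subgroup.mem_centralizer_iff]
    intro w hw
    rw [hPc] at hw
    obtain ⟨j, rfl⟩ := Subgroup.mem_zpowers_iff.mp hw
    exact ((hc.zpow_right j).eq).symm
  rw [← hCeq, hPc] at hg
  exact hg

theorem a6s_exists_inverting (x : G) (hx : orderOf x = 5) :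
    ∃ y : G, orderOf y = 2 ∧ y * x * y⁻¹ = x⁻¹ := by
  have : Fact (Nat.Prime 5) := ⟨by norm_num⟩
  have h360 : Nat.card G = 5 ^ 1 * 72 := by rw [h]; norm_num
  have hfac : (Nat.card G).factorization 5 = 1 :=
    factorization_of_eq (by norm_num) h360 (by norm_num)
  have hcard : Nat.card (Subgroup.zpowers x) = 5 ^ (Nat.card G).factorization 5 := by
    rw [Nat.card_zpowers, hx, hfac, pow_one]
  have hN : Nat.card (Subgroup.normalizer ((Subgroup.zpowers x : Subgroup G) : Set G)) = 10 := by
    have h1 := card_normalizer_sylow_mul (Sylow.ofCard (Subgroup.zpowers x) hcard)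
    rw [Sylow.coe_ofCard, hn5, h] at h1
    omega
  have : Fact (Nat.Prime 2) := ⟨Nat.prime_two⟩
  obtain ⟨t, ht⟩ := exists_prime_orderOf_dvd_card'
    (G := Subgroup.normalizer ((Subgroup.zpowers x : Subgroup G) : Set G)) 2
    (by rw [hN]; norm_num)
  have hy2 : orderOf (t : G) = 2 := by rw [Subgroup.orderOf_coe]; exact ht
  refine ⟨(t : G), hy2, ?_⟩
  have hmem : (t : G) * x * (t : G)⁻¹ ∈ Subgroup.zpowers x :=
    (Subgroup.mem_normalizer_iff.mp t.2 x).mp (Subgroup.mem_zpowers x)
  generalize (t : G) = y at hy2 hmem ⊢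
  obtain ⟨j, hj⟩ := Subgroup.mem_zpowers_iff.mp hmem
  have hyy : y * y = 1 := mul_self_of_orderOf_two hy2
  have hyinv : y⁻¹ = y := inv_of_orderOf_two hy2
  have hcomm : Commute x (y * x * y⁻¹) := by
    rw [← hj]; exact (Commute.refl x).zpow_right j
  have hp : Commute (x * (y * x * y⁻¹)) y := by
    show x * (y * x * y⁻¹) * y = y * (x * (y * x * y⁻¹))
    have e1 : x * (y * x * y⁻¹) * y = x * y * x := by group
    have e3 : y * ((y * x * y⁻¹) * x) = (y * y) * x * y⁻¹ * x := by group
    rw [e1, hcomm.eq, e3, hyy, one_mul, hyinv]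
  have hpmem : x * (y * x * y⁻¹) ∈ Subgroup.zpowers x :=
    Subgroup.mul_mem _ (Subgroup.mem_zpowers x) hmem
  by_contra hne
  have hp1 : x * (y * x * y⁻¹) ≠ 1 := fun h1 => hne (eq_inv_of_mul_eq_one_right h1)
  have hp5 : orderOf (x * (y * x * y⁻¹)) = 5 := by
    have hd : orderOf (x * (y * x * y⁻¹)) ∣ 5 := by
      rw [← hx]; exact orderOf_dvd_of_mem_zpowers hpmem
    rcases (Nat.dvd_prime (by norm_num)).mp hd with h1 | h5
    · exact absurd (orderOf_eq_one_iff.mp h1) hp1
    · exact h5
  have hy_mem := a6s_mem_zpowers_five h hn5 _ hp5 y hp.symm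
  have hd := orderOf_dvd_of_mem_zpowers hy_mem
  rw [hy2, hp5] at hd
  omega

end

section
variable {G : Type u} [Group G] [Fintype G] [IsSimpleGroup G] (h : Nat.card G = 360)
  (hn5 : Nat.card (Sylow 5 G) = 36)
include h hn5

theorem a6s_card_five : (ordSet G 5).card = 144 := by
  classical
  have : Fact (Nat.Prime 5) := ⟨by norm_num⟩
  have := Fintype.ofFinite (Sylow 5 G)
  have h360 : Nat.card G = 5 ^ 1 * 72 := by rw [h]; norm_num
  have hP : ∀ P : Sylow 5 G, Nat.card (P : Subgroup G) = 5 := fun P => by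
    have := sylow_card_of_eq h360 (by norm_num) P
    simpa using this
  have hord : ∀ (P : Sylow 5 G) (x : G), x ∈ (P : Subgroup G) → x ≠ 1 → orderOf x = 5 := by
    intro P x hxP hx1
    have hd : orderOf x ∣ 5 := hP P ▸ Subgroup.orderOf_dvd_natCard _ hxP
    rcases (Nat.dvd_prime (by norm_num)).mp hd with h1 | h5
    · exact absurd (orderOf_eq_one_iff.mp h1) hx1
    · exact h5
  have hU : ordSet G 5 = (Finset.univ : Finset (Sylow 5 G)).biUnion
      (fun P => Finset.univ.filter (fun x : G => x ∈ (P : Subgroup G) ∧ x ≠ 1)) := by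
    ext x
    rw [mem_ordSet, Finset.mem_biUnion]
    constructor
    · intro hx
      have hfac : (Nat.card G).factorization 5 = 1 :=
        factorization_of_eq (by norm_num) h360 (by norm_num)
      have hcard : Nat.card (Subgroup.zpowers x) = 5 ^ (Nat.card G).factorization 5 := by
        rw [Nat.card_zpowers, hx, hfac, pow_one]
      refine ⟨Sylow.ofCard (Subgroup.zpowers x) hcard, Finset.mem_univ _, ?_⟩
      rw [Finset.mem_filter]
      refine ⟨Finset.mem_univ _, ?_, ?_⟩
      · rw [Sylow.coe_ofCard]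
        exact Subgroup.mem_zpowers x
      · intro h1; rw [h1, orderOf_one] at hx; omega
    · rintro ⟨P, -, hx⟩
      rw [Finset.mem_filter] at hx
      exact hord P x hx.2.1 hx.2.2
  have hcardP : ∀ P : Sylow 5 G,
      (Finset.univ.filter (fun x : G => x ∈ (P : Subgroup G) ∧ x ≠ 1)).card = 4 := by
    intro P
    rw [a6s_card_sub_one, hP P]
  have hdisj : ((Finset.univ : Finset (Sylow 5 G)) : Set (Sylow 5 G)).PairwiseDisjoint
      (fun P => Finset.univ.filter (fun x : G => x ∈ (P : Subgroup G) ∧ x ≠ 1)) := by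
    intro P _ Q _ hPQ
    show Disjoint _ _
    rw [Finset.disjoint_left]
    intro x hxP hxQ
    rw [Finset.mem_filter] at hxP hxQ
    apply hPQ
    have hx5 : orderOf x = 5 := hord P x hxP.2.1 hxP.2.2
    have e1 : Subgroup.zpowers x = (P : Subgroup G) :=
      Subgroup.eq_of_le_of_card_ge ((Subgroup.zpowers_le).mpr hxP.2.1)
        (by rw [hP P, Nat.card_zpowers, hx5])
    have e2 : Subgroup.zpowers x = (Q : Subgroup G) :=
      Subgroup.eq_of_le_of_card_ge ((Subgroup.zpowers_le).mpr hxQ.2.1)
        (by rw [hP Q, Nat.card_zpowers, hx5])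
    exact Sylow.ext (e1.symm.trans e2)
  rw [hU, Finset.card_biUnion hdisj, Finset.sum_congr rfl (fun P _ => hcardP P), Finset.sum_const,
    smul_eq_mul, Finset.card_univ, ← Nat.card_eq_fintype_card, hn5]

/-- double counting pairs (involution, inverted element of order five) -/
theorem a6s_card_inv_ge : 27 ≤ (ordSet G 2).card := by
  classical
  have h5 := a6s_card_five h hn5
  have key := Finset.card_mul_le_card_mul (s := ordSet G 5) (t := ordSet G 2)
    (fun x t => t * x * t⁻¹ = x⁻¹) (m := 5) (n := (ordSet G 2).card) ?_ ?_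
  · rw [h5] at key
    by_contra hlt
    push Not at hlt
    have hle : (ordSet G 2).card * (ordSet G 2).card ≤ 26 * 26 :=
      Nat.mul_le_mul (by omega) (by omega)
    omega
  · intro x hx
    rw [mem_ordSet] at hx
    obtain ⟨t₀, ht₀, hinv⟩ := a6s_exists_inverting h hn5 x hx
    have hinj : Set.InjOn (fun i : ℕ => t₀ * x ^ i) (Finset.range 5 : Set ℕ) := by
      intro i hi j hj hij
      have hij' : x ^ i = x ^ j := mul_left_cancel hij
      rw [Finset.coe_range] at hi hj
      exact pow_injOn_Iio_orderOf (by rw [hx]; exact hi) (by rw [hx]; exact hj) hij'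
    have hsub : (Finset.range 5).image (fun i : ℕ => t₀ * x ^ i) ⊆
        (ordSet G 2).bipartiteAbove (fun x t => t * x * t⁻¹ = x⁻¹) x := by
      intro t ht
      rw [Finset.mem_image] at ht
      obtain ⟨i, -, rfl⟩ := ht
      rw [Finset.bipartiteAbove, Finset.mem_filter, mem_ordSet]
      have hconj : t₀ * x ^ i * x * (t₀ * x ^ i)⁻¹ = x⁻¹ := by
        have e2 : x ^ i * x * (x ^ i)⁻¹ = x := by
          rw [← pow_succ, pow_succ', mul_inv_cancel_right]
        have e : t₀ * x ^ i * x * (t₀ * x ^ i)⁻¹ = t₀ * (x ^ i * x * (x ^ i)⁻¹) * t₀⁻¹ := by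
          group
        rw [e, e2, hinv]
      refine ⟨?_, hconj⟩
      apply orderOf_two_of_mul_self
      · have hti : t₀ * x ^ i * t₀⁻¹ = (x ^ i)⁻¹ := by
          have e := conj_pow (a := t₀) (b := x) (i := i)
          rw [← e, hinv, inv_pow]
        have e : t₀ * x ^ i * (t₀ * x ^ i) = (t₀ * x ^ i * t₀⁻¹) * (t₀ * t₀) * x ^ i := by group
        rw [e, hti, mul_self_of_orderOf_two ht₀, mul_one, inv_mul_cancel]
      · intro h1
        have e : t₀ = (x ^ i)⁻¹ := eq_inv_of_mul_eq_one_left h1
        have hmem : t₀ ∈ Subgroup.zpowers x := by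
          rw [e]
          exact Subgroup.inv_mem _ (Subgroup.pow_mem _ (Subgroup.mem_zpowers x) i)
        have hd := orderOf_dvd_of_mem_zpowers hmem
        rw [ht₀, hx] at hd
        omega
    calc 5 = ((Finset.range 5).image (fun i : ℕ => t₀ * x ^ i)).card := by
          rw [Finset.card_image_of_injOn hinj, Finset.card_range]
      _ ≤ _ := Finset.card_le_card hsub
  · intro t ht
    rw [mem_ordSet] at ht
    apply Finset.card_le_card_of_injOn (fun x => t * x)
    · intro x hx
      rw [Finset.mem_coe, Finset.bipartiteBelow, Finset.mem_filter, mem_ordSet] at hx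
      obtain ⟨hx5, hinv⟩ := hx
      rw [Finset.mem_coe, mem_ordSet]
      apply orderOf_two_of_mul_self
      · have e : t * x * (t * x) = (t * x * t⁻¹) * (t * t) * x := by group
        rw [e, hinv, mul_self_of_orderOf_two ht, mul_one, inv_mul_cancel]
      · intro h1
        have e : x = t⁻¹ := eq_inv_of_mul_eq_one_right h1
        rw [e, orderOf_inv, ht] at hx5
        omega
    · intro x _ x' _ hxx
      exact mul_left_cancel hxx

theorem a6s_card_sylow_two (S : Sylow 2 G) : Nat.card (S : Subgroup G) = 8 := by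
  have : Fact (Nat.Prime 2) := ⟨Nat.prime_two⟩
  have h360 : Nat.card G = 2 ^ 3 * 45 := by rw [h]; norm_num
  have := sylow_card_of_eq h360 (by norm_num) S
  simpa using this

theorem a6s_card_normalizer_two (S : Sylow 2 G) :
    Nat.card (Subgroup.normalizer ((S : Subgroup G) : Set G)) = 8 ∨
      Nat.card (Subgroup.normalizer ((S : Subgroup G) : Set G)) = 24 := by
  classical
  have : Fact (Nat.Prime 2) := ⟨Nat.prime_two⟩
  have h360 : Nat.card G = 2 ^ 3 * 45 := by rw [h]; norm_num
  have hS8 := a6s_card_sylow_two h hn5 S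
  have hmul := card_normalizer_sylow_mul S
  have hidx : (Subgroup.normalizer ((S : Subgroup G) : Set G)).index = Nat.card (Sylow 2 G) :=
    (Sylow.card_eq_index_normalizer S).symm
  have hne1 := simple_sylow_card_ne_one (G := G) (p := 2) h360 (by norm_num) (by norm_num)
    (by norm_num)
  have hNtop : Subgroup.normalizer ((S : Subgroup G) : Set G) ≠ ⊤ := by
    intro ht
    rw [ht, Subgroup.index_top] at hidx
    exact hne1 hidx.symm
  have h6 := a6s_index_ge_six h _ hNtop
  rw [hidx] at h6
  have hdvd : 8 ∣ Nat.card (Subgroup.normalizer ((S : Subgroup G) : Set G)) := by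
    have := Subgroup.card_dvd_of_le (Subgroup.le_normalizer (H := (S : Subgroup G)))
    rwa [hS8] at this
  rw [h] at hmul
  obtain ⟨k, hk⟩ := hdvd
  have hk5 : k ≠ 5 := by
    intro h5
    have hN40 : Nat.card (Subgroup.normalizer ((S : Subgroup G) : Set G)) = 40 := by
      rw [hk, h5]
    have : Fact (Nat.Prime 5) := ⟨by norm_num⟩
    obtain ⟨x, hx⟩ := exists_prime_orderOf_dvd_card'
      (G := Subgroup.normalizer ((S : Subgroup G) : Set G)) 5 (by rw [hN40]; norm_num)
    have hx5 : orderOf (x : G) = 5 := by rw [Subgroup.orderOf_coe]; exact hx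
    obtain ⟨u, hu, hcomm⟩ := a6s_exists_fixed (x : G) 5 hx5
      (Finset.univ.filter (fun g : G => g ∈ (S : Subgroup G) ∧ g ≠ 1)) (by
        intro g hg
        rw [Finset.mem_filter] at hg ⊢
        refine ⟨Finset.mem_univ _, (Subgroup.mem_normalizer_iff.mp x.2 g).mp hg.2.1, ?_⟩
        intro h1
        apply hg.2.2
        have e : g = (x : G)⁻¹ * ((x : G) * g * (x : G)⁻¹) * (x : G) := by group
        rw [e, h1]; group) (by
        rw [a6s_card_sub_one, hS8]; norm_num)
    rw [Finset.mem_filter] at hu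
    have hmem := a6s_mem_zpowers_five h hn5 (x : G) hx5 u hcomm.symm
    have hd5 := orderOf_dvd_of_mem_zpowers hmem
    have hd8 : orderOf u ∣ 8 := hS8 ▸ Subgroup.orderOf_dvd_natCard _ hu.2.1
    rw [hx5] at hd5
    have h1 : orderOf u ∣ Nat.gcd 5 8 := Nat.dvd_gcd hd5 hd8
    have h1' : orderOf u = 1 := Nat.dvd_one.mp h1
    exact hu.2.2 (orderOf_eq_one_iff.mp h1')
  generalize Nat.card (Sylow 2 G) = n2 at *
  have hkn : k * n2 = 45 := by
    rw [hk] at hmul
    have e : 8 * (k * n2) = 8 * 45 := by rw [← mul_assoc]; exact hmul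
    omega
  have hk7 : k ≤ 7 := by
    by_contra hgt
    push Not at hgt
    have : 8 * 6 ≤ k * n2 := Nat.mul_le_mul hgt h6
    omega
  interval_cases k <;> omega

theorem a6s_sylow_not_comm (S : Sylow 2 G) :
    ¬ ∀ a ∈ (S : Subgroup G), ∀ b ∈ (S : Subgroup G), a * b = b * a := by
  intro hcomm
  classical
  have hG := a6s_not_comm h
  have : IsMulCommutative (S : Subgroup G) :=
    ⟨⟨fun a b => Subtype.ext (hcomm a a.2 b b.2)⟩⟩
  have hS8 := a6s_card_sylow_two h hn5 S
  obtain ⟨u, huS, hu1, hN⟩ : ∃ u ∈ (S : Subgroup G), u ≠ 1 ∧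
      ∀ n ∈ Subgroup.normalizer ((S : Subgroup G) : Set G), Commute n u := by
    rcases a6s_card_normalizer_two h hn5 S with h8 | h24
    · have hNS : (S : Subgroup G) = Subgroup.normalizer ((S : Subgroup G) : Set G) :=
        Subgroup.eq_of_le_of_card_ge Subgroup.le_normalizer (by rw [h8, hS8])
      obtain ⟨u, huS, hu1⟩ : ∃ u ∈ (S : Subgroup G), u ≠ 1 := by
        by_contra hno
        push Not at hno
        have hb : (S : Subgroup G) = ⊥ := (Subgroup.eq_bot_iff_forall _).mpr hno
        rw [hb, Subgroup.card_bot] at hS8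
        omega
      refine ⟨u, huS, hu1, fun n hn => ?_⟩
      rw [← hNS] at hn
      exact hcomm n hn u huS
    · have : Fact (Nat.Prime 3) := ⟨by norm_num⟩
      obtain ⟨σ, hσ⟩ := exists_prime_orderOf_dvd_card'
        (G := Subgroup.normalizer ((S : Subgroup G) : Set G)) 3 (by rw [h24]; norm_num)
      have hσ3 : orderOf (σ : G) = 3 := by rw [Subgroup.orderOf_coe]; exact hσ
      obtain ⟨u, hu, hcu⟩ := a6s_exists_fixed (σ : G) 3 hσ3
        (Finset.univ.filter (fun g : G => g ∈ (S : Subgroup G) ∧ g ≠ 1)) (by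
          intro g hg
          rw [Finset.mem_filter] at hg ⊢
          refine ⟨Finset.mem_univ _, (Subgroup.mem_normalizer_iff.mp σ.2 g).mp hg.2.1, ?_⟩
          intro h1
          apply hg.2.2
          have e : g = (σ : G)⁻¹ * ((σ : G) * g * (σ : G)⁻¹) * (σ : G) := by group
          rw [e, h1]; group) (by
          rw [a6s_card_sub_one, hS8]; norm_num)
      rw [Finset.mem_filter] at hu
      refine ⟨u, hu.2.1, hu.2.2, ?_⟩
      have hK8 : (S : Subgroup G) ≤ Subgroup.normalizer ((S : Subgroup G) : Set G) ⊓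
          Subgroup.centralizer ({u} : Set G) := by
        intro s hs
        exact ⟨Subgroup.le_normalizer hs,
          Subgroup.mem_centralizer_singleton_iff.mpr (hcomm s hs u hu.2.1)⟩
      have hσK : (σ : G) ∈ Subgroup.normalizer ((S : Subgroup G) : Set G) ⊓
          Subgroup.centralizer ({u} : Set G) :=
        ⟨σ.2, Subgroup.mem_centralizer_singleton_iff.mpr hcu.eq⟩
      have d8 := Subgroup.card_dvd_of_le hK8
      have d3 := Subgroup.orderOf_dvd_natCard _ hσK
      rw [hS8] at d8
      rw [hσ3] at d3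
      have dle := Subgroup.card_dvd_of_le (inf_le_left :
        Subgroup.normalizer ((S : Subgroup G) : Set G) ⊓ Subgroup.centralizer ({u} : Set G) ≤
          Subgroup.normalizer ((S : Subgroup G) : Set G))
      rw [h24] at dle
      have hK24 : Nat.card ↥(Subgroup.normalizer ((S : Subgroup G) : Set G) ⊓
          Subgroup.centralizer ({u} : Set G)) = 24 := by
        have hle := Nat.le_of_dvd (by norm_num) dle
        have hpos : 0 < Nat.card ↥(Subgroup.normalizer ((S : Subgroup G) : Set G) ⊓
          Subgroup.centralizer ({u} : Set G)) := Nat.card_pos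
        omega
      have hKN : Subgroup.normalizer ((S : Subgroup G) : Set G) ⊓
          Subgroup.centralizer ({u} : Set G) = Subgroup.normalizer ((S : Subgroup G) : Set G) :=
        Subgroup.eq_of_le_of_card_ge inf_le_left (by rw [hK24, h24])
      intro n hn
      rw [← hKN] at hn
      exact Subgroup.mem_centralizer_singleton_iff.mp hn.2
  exact a6s_transfer hG S u huS hu1 hN

theorem a6s_class_card (z : G) (hz : orderOf z = 2)
    (hconj : ∀ t : G, orderOf t = 2 → IsConj z t) :
    (ordSet G 2).card * Nat.card (Subgroup.centralizer ({z} : Set G)) = 360 := by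
  have h1 := MulAction.index_stabilizer (ConjAct G) z
  have h2 := Subgroup.card_mul_index (MulAction.stabilizer (ConjAct G) z)
  have h3 : Nat.card (MulAction.stabilizer (ConjAct G) z) =
      Nat.card (Subgroup.centralizer ({z} : Set G)) :=
    (Subgroup.nat_card_centralizer_nat_card_stabilizer z).symm
  have h4 : Nat.card (ConjAct G) = 360 := h
  have h5 : (MulAction.orbit (ConjAct G) z) = ↑(ordSet G 2) := by
    ext y
    rw [ConjAct.mem_orbit_conjAct, Finset.mem_coe, mem_ordSet]
    constructor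
    · intro hc
      obtain ⟨c, hc⟩ := isConj_iff.mp hc
      rw [← orderOf_conj_eq c y, hc, hz]
    · intro hy
      exact (hconj y hy).symm
  rw [h5, Set.ncard_coe_finset] at h1
  rw [h3, h4, h1] at h2
  rw [mul_comm]
  exact h2

theorem a6s_centralizer_eq (S : Sylow 2 G) (z : G) (hzS : z ∈ (S : Subgroup G))
    (hz : orderOf z = 2) (hzc : ∀ s ∈ (S : Subgroup G), Commute s z)
    (hconj : ∀ t : G, orderOf t = 2 → IsConj z t) :
    Subgroup.centralizer ({z} : Set G) = (S : Subgroup G) := by
  have hS8 := a6s_card_sylow_two h hn5 S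
  have hle : (S : Subgroup G) ≤ Subgroup.centralizer ({z} : Set G) :=
    fun s hs => Subgroup.mem_centralizer_singleton_iff.mpr (hzc s hs).eq
  have hI := a6s_card_inv_ge h hn5
  have hclass := a6s_class_card h hn5 z hz hconj
  have d8 := Subgroup.card_dvd_of_le hle
  rw [hS8] at d8
  have hC8 : Nat.card (Subgroup.centralizer ({z} : Set G)) = 8 := by
    obtain ⟨k, hk⟩ := d8
    rw [hk] at hclass ⊢
    have hk0 : k ≠ 0 := by
      rintro rfl
      simp at hclass
    have hk2 : k < 2 := by
      by_contra hge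
      push Not at hge
      have : 27 * (8 * 2) ≤ (ordSet G 2).card * (8 * k) := Nat.mul_le_mul hI (by omega)
      omega
    have hk1 : k = 1 := by omega
    rw [hk1]
  exact (Subgroup.eq_of_le_of_card_ge hle (by rw [hC8, hS8])).symm

theorem a6s_of_dihedral (S : Sylow 2 G) (eS : (S : Subgroup G) ≃* DihedralGroup 4) :
    Nonempty (G ≃* alternatingGroup (Fin 6)) := by
  obtain ⟨zS, hzS⟩ : ∃ zS : (S : Subgroup G), zS = eS.symm (DihedralGroup.r 2) := ⟨_, rfl⟩
  have hz2S : orderOf zS = 2 := by
    rw [hzS, MulEquiv.orderOf_eq]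
    exact orderOf_eq_prime (by rw [pow_two]; exact d8a_r2.1) d8a_r2.2
  have hzc : ∀ s : (S : Subgroup G), s * zS = zS * s := by
    intro s
    apply eS.injective
    rw [map_mul, map_mul, hzS, eS.apply_symm_apply]
    generalize eS s = d
    revert d
    decide
  have hz2 : orderOf (zS : G) = 2 := by rw [Subgroup.orderOf_coe]; exact hz2S
  have hzcG : ∀ s ∈ (S : Subgroup G), Commute s (zS : G) :=
    fun s hs => congrArg Subtype.val (hzc ⟨s, hs⟩)
  have hpres : Cfsg.pResidual 2 G = ⊤ := a6s_pres h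
  have hconj : ∀ t : G, orderOf t = 2 → IsConj (zS : G) t := by
    intro t ht
    obtain ⟨g, hg⟩ := Cfsg.Agent.S0107.result S 2 le_rfl ⟨eS⟩ hpres (zS : G) t hz2 ht
    exact isConj_iff.mpr ⟨g, hg⟩
  have hCS := a6s_centralizer_eq h hn5 S (zS : G) zS.2 hz2 hzcG hconj
  exact a6_of_d8 h (zS : G) hz2 ((MulEquiv.subgroupCongr hCS).trans eS) hconj

theorem a6s_unique_inv_false (S : Sylow 2 G) (z : G) (hzS : z ∈ (S : Subgroup G))
    (hz2 : orderOf z = 2) (huniq : ∀ t ∈ (S : Subgroup G), orderOf t = 2 → t = z) : False := by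
  classical
  have hS8 := a6s_card_sylow_two h hn5 S
  have hconj : ∀ t : G, orderOf t = 2 → IsConj z t := by
    intro t ht
    obtain ⟨g, hg⟩ := a6s_conj_mem_sylow S t ht
    have h2 : orderOf (g * t * g⁻¹) = 2 := by rw [orderOf_conj_eq, ht]
    have e := huniq _ hg h2
    exact (isConj_iff.mpr ⟨g, e⟩).symm
  have hzc : ∀ s ∈ (S : Subgroup G), Commute s z := by
    intro s hs
    have hmem : s * z * s⁻¹ ∈ (S : Subgroup G) :=
      Subgroup.mul_mem _ (Subgroup.mul_mem _ hs hzS) (Subgroup.inv_mem _ hs)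
    have h2 : orderOf (s * z * s⁻¹) = 2 := by rw [orderOf_conj_eq, hz2]
    have e := huniq _ hmem h2
    show s * z = z * s
    calc s * z = (s * z * s⁻¹) * s := by group
      _ = z * s := by rw [e]
  have hCS := a6s_centralizer_eq h hn5 S z hzS hz2 hzc hconj
  have hI : (ordSet G 2).card = 45 := by
    have hc := a6s_class_card h hn5 z hz2 hconj
    rw [hCS, hS8] at hc
    omega
  have hCt : ∀ t : G, orderOf t = 2 →
      Nat.card (Subgroup.centralizer ({t} : Set G)) = 8 ∧
        ∀ t' : G, orderOf t' = 2 → Commute t' t → t' = t := by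
    intro t ht
    constructor
    · have hc := a6s_class_card h hn5 t ht
        (fun t' ht' => (hconj t ht).symm.trans (hconj t' ht'))
      rw [hI] at hc
      omega
    · intro t' ht' hc
      obtain ⟨g, hg⟩ := isConj_iff.mp (hconj t ht)
      have hmem : g⁻¹ * t' * g ∈ Subgroup.centralizer ({z} : Set G) := by
        rw [Subgroup.mem_centralizer_singleton_iff]
        have e1 : g⁻¹ * t' * g * z = g⁻¹ * (t' * (g * z * g⁻¹)) * g := by group
        have e2 : z * (g⁻¹ * t' * g) = g⁻¹ * ((g * z * g⁻¹) * t') * g := by group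
        rw [e1, e2, hg, hc.eq]
      rw [hCS] at hmem
      have h2 : orderOf (g⁻¹ * t' * g) = 2 := by
        have e := orderOf_conj_eq g⁻¹ t'
        rw [inv_inv] at e
        rw [e, ht']
      have e := huniq _ hmem h2
      rw [← hg, ← e]
      group
  -- the sets `C(t) \ {1}` are pairwise disjoint
  have hdisj : ((ordSet G 2 : Finset G) : Set G).PairwiseDisjoint
      (fun t => Finset.univ.filter
        (fun g : G => g ∈ Subgroup.centralizer ({t} : Set G) ∧ g ≠ 1)) := by
    intro t ht t' ht' htt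
    show Disjoint _ _
    rw [Finset.disjoint_left]
    intro g hg hg'
    rw [Finset.mem_coe, mem_ordSet] at ht ht'
    rw [Finset.mem_filter] at hg hg'
    apply htt
    have hd8 : orderOf g ∣ 8 := (hCt t ht).1 ▸ Subgroup.orderOf_dvd_natCard _ hg.2.1
    have hne1 : orderOf g ≠ 1 := fun h1 => hg.2.2 (orderOf_eq_one_iff.mp h1)
    have heven : 2 ∣ orderOf g := by
      have hle := Nat.le_of_dvd (by norm_num) hd8
      have hpos := orderOf_pos g
      generalize orderOf g = n at *
      interval_cases n <;> omega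
    have hτ : orderOf (g ^ (orderOf g / 2)) = 2 :=
      orderOf_pow_orderOf_div (orderOf_pos g).ne' heven
    have c1 : Commute (g ^ (orderOf g / 2)) t :=
      (show Commute g t from Subgroup.mem_centralizer_singleton_iff.mp hg.2.1).pow_left _
    have c2 : Commute (g ^ (orderOf g / 2)) t' :=
      (show Commute g t' from Subgroup.mem_centralizer_singleton_iff.mp hg'.2.1).pow_left _
    rw [← (hCt t ht).2 _ hτ c1, ← (hCt t' ht').2 _ hτ c2]
  have hcard7 : ∀ t ∈ ordSet G 2, (Finset.univ.filter
      (fun g : G => g ∈ Subgroup.centralizer ({t} : Set G) ∧ g ≠ 1)).card = 7 := by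
    intro t ht
    rw [mem_ordSet] at ht
    rw [a6s_card_sub_one, (hCt t ht).1]
  have hUcard : ((ordSet G 2).biUnion (fun t => Finset.univ.filter
      (fun g : G => g ∈ Subgroup.centralizer ({t} : Set G) ∧ g ≠ 1))).card = 315 := by
    rw [Finset.card_biUnion hdisj, Finset.sum_congr rfl hcard7, Finset.sum_const, hI]
    rfl
  have hU5 : Disjoint ((ordSet G 2).biUnion (fun t => Finset.univ.filter
      (fun g : G => g ∈ Subgroup.centralizer ({t} : Set G) ∧ g ≠ 1))) (ordSet G 5) := by
    rw [Finset.disjoint_left]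
    intro g hg hg5
    rw [Finset.mem_biUnion] at hg
    obtain ⟨t, ht, hg⟩ := hg
    rw [mem_ordSet] at ht hg5
    rw [Finset.mem_filter] at hg
    have hd8 : orderOf g ∣ 8 := (hCt t ht).1 ▸ Subgroup.orderOf_dvd_natCard _ hg.2.1
    rw [hg5] at hd8
    omega
  have hle := Finset.card_le_univ (((ordSet G 2).biUnion (fun t => Finset.univ.filter
      (fun g : G => g ∈ Subgroup.centralizer ({t} : Set G) ∧ g ≠ 1))) ∪ ordSet G 5)
  rw [Finset.card_union_of_disjoint hU5, hUcard, a6s_card_five h hn5,
    ← Nat.card_eq_fintype_card, h] at hle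
  omega

end

/-- A simple group of order `360` is isomorphic to `A₆`. -/
theorem a6s_main {G : Type u} [Group G] [Finite G] [IsSimpleGroup G] (h : Nat.card G = 360) :
    Nonempty (G ≃* alternatingGroup (Fin 6)) := by
  classical
  have := Fintype.ofFinite G
  have : Fact (Nat.Prime 5) := ⟨by norm_num⟩
  have h360 : Nat.card G = 5 ^ 1 * 72 := by rw [h]; norm_num
  have hmem := card_sylow_mem_filter (G := G) (p := 5) h360 (by norm_num)
  have hne1 := simple_sylow_card_ne_one (G := G) (p := 5) h360 (by norm_num) (by norm_num)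
    (by norm_num)
  rw [show (Nat.divisors 72).filter (fun d => d % 5 = 1) = {1, 6, 36} from by decide] at hmem
  simp only [Finset.mem_insert, Finset.mem_singleton] at hmem
  obtain ⟨P⟩ : Nonempty (Sylow 5 G) := inferInstance
  rcases hmem with h1 | h6 | h36
  · exact absurd h1 hne1
  · exact a6_of_index_six h _ ((Sylow.card_eq_index_normalizer P).symm.trans h6)
  · have : Fact (Nat.Prime 2) := ⟨Nat.prime_two⟩
    obtain ⟨S⟩ : Nonempty (Sylow 2 G) := inferInstance
    have hS8 := a6s_card_sylow_two h h36 S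
    have hnc := a6s_sylow_not_comm h h36 S
    have hnc' : ¬ ∀ a b : (S : Subgroup G), a * b = b * a :=
      fun hc => hnc (fun a ha b hb => congrArg Subtype.val (hc ⟨a, ha⟩ ⟨b, hb⟩))
    rcases a6s_d8_or_unique_involution hS8 hnc' with ⟨t, ht2, huniq⟩ | ⟨eS⟩
    · exfalso
      apply a6s_unique_inv_false h h36 S (t : G) t.2 (by rw [Subgroup.orderOf_coe]; exact ht2)
      intro t' ht'S ht'2
      have e := huniq ⟨t', ht'S⟩ (by rw [Subgroup.orderOf_mk]; exact ht'2)
      exact congrArg Subtype.val e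
    · obtain ⟨eS'⟩ := eS
      exact a6s_of_dihedral h h36 S eS'

end Cfsg.Agent.Lib.Helper6
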