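import Mathlib

/-!
S4442 TG-MOD piece RK (poster helper82): the rank of a matrix does not grow under a ring
homomorphism from a subring of `ℂ` to a field (via a nonzero minor).
-/

set_option autoImplicit false

namespace Cfsg.Agent.Lib.Helper6.TGM

open Module Matrix

/-- one can select `rank A` linearly independent columns -/
theorem exists_cols {K : Type*} [Field K] {m n : Type*} [Fintype n] (A : Matrix m n K)
    (k : ℕ) (hk : A.rank = k) :
    ∃ c : Fin k → n, LinearIndependent K (fun j => A.col (c j)) := by
  classical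
  obtain ⟨κ, a, ha, hspan, hli⟩ := exists_linearIndependent' K A.col
  have : Fintype κ := Fintype.ofInjective a ha
  have hcard : Fintype.card κ = k := by
    rw [← finrank_span_eq_card hli, hspan, ← Matrix.rank_eq_finrank_span_cols, hk]
  let e : Fin k ≃ κ := (Fintype.equivFinOfCardEq hcard).symm
  exact ⟨a ∘ e, hli.comp e e.injective⟩

/-- a matrix over a field has an invertible square submatrix of size its rank -/
theorem exists_minor {K : Type*} [Field K] {m n : Type*} [Fintype m] [Fintype n]
    (A : Matrix m n K) :
    ∃ (r : Fin A.rank → m) (c : Fin A.rank → n), (A.submatrix r c).det ≠ 0 := by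
  classical
  obtain ⟨c, hc⟩ := exists_cols A A.rank rfl
  have hB : (A.submatrix id c)ᵀ.rank = A.rank := by
    have h1 : LinearIndependent K (A.submatrix id c)ᵀ.row := hc
    rw [h1.rank_matrix, Fintype.card_fin]
  obtain ⟨r, hr⟩ := exists_cols (A.submatrix id c)ᵀ A.rank hB
  refine ⟨r, c, ?_⟩
  have h2 : LinearIndependent K (A.submatrix r c).row := hr
  have h3 := Matrix.linearIndependent_rows_iff_isUnit.mp h2
  exact ((Matrix.isUnit_iff_isUnit_det _).mp h3).ne_zero

theorem rank_map_le {n : Type*} [Fintype n] [DecidableEq n] (R : Subring ℂ) {F : Type*}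
    [Field F] (f : R →+* F) (M : Matrix n n R) :
    (M.map f).rank ≤ (M.map (fun x : R => (x : ℂ))).rank := by
  obtain ⟨r, c, hdet⟩ := exists_minor (M.map f)
  have h1 : (M.map f).submatrix r c = f.mapMatrix (M.submatrix r c) := rfl
  rw [h1, ← RingHom.map_det] at hdet
  have h2 : (M.submatrix r c).det ≠ 0 := fun h => hdet (by rw [h, map_zero])
  have h3 : ((M.map (fun x : R => (x : ℂ))).submatrix r c).det ≠ 0 := by
    have h4 : (M.map (fun x : R => (x : ℂ))).submatrix r c
        = R.subtype.mapMatrix (M.submatrix r c) := rfl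
    rw [h4, ← RingHom.map_det]
    intro h5
    exact h2 (Subtype.ext h5)
  have h6 := Matrix.rank_submatrix_le (M.map (fun x : R => (x : ℂ))) r c
  rw [Matrix.rank_of_isUnit _ ((Matrix.isUnit_iff_isUnit_det _).2 (isUnit_iff_ne_zero.2 h3)),
    Fintype.card_fin] at h6
  exact h6

end Cfsg.Agent.Lib.Helper6.TGM
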