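import Mathlib
import Cfsg.Agent.Lib.Helper33.BFOne2

/-!
DG project (helper79), piece SMT: second main theorem + conjugacy of the maximal Brauer pairs,
expansion of `χ (u^t s)` over the normalizer of the defect group.
-/

set_option autoImplicit false
set_option linter.style.haveILetI false
set_option maxHeartbeats 1600000

namespace Cfsg.Agent.Lib.Helper6.DG

open Cfsg Cfsg.Agent.Lib.Helper80.GenDec Cfsg.Agent.Lib.Helper80.Contrib
open Cfsg.Agent.Lib.Helper4 Cfsg.Agent.Lib.Helper21 Cfsg.Agent.Lib.Helper22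
open Cfsg.Agent.Lib.Helper80.K2 Cfsg.Agent.Lib.Helper80.Major Cfsg.Agent.Lib.Helper81
open scoped ComplexConjugate

theorem pow_mod_of_order {G : Type*} [Group G] (u : G) (m : ℕ) (h : orderOf u = m) (a : ℕ) :
    u ^ (a % m) = u ^ a := by
  subst h
  exact pow_mod_orderOf u a

/-- Block parts only depend on the subgroup (with blockhood transported as well). -/
theorem blockPart_cast' {G : Type*} [Group G] [Finite G] (M : Ideal AlgInt) (H H' : Subgroup G)
    (h : H = H') (b : Set (IrrCharacter H)) :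
    ∃ b' : Set (IrrCharacter H'),
      (IsPBlock M b ↔ IsPBlock M b') ∧
      (∀ B : Set (IrrCharacter G), IsInducedBlock M H b B ↔ IsInducedBlock M H' b' B) ∧
      ∀ (F : G → ℂ) (s : H) (s' : H'), (s : G) = (s' : G) →
        blockPart b (fun c : H => F (c : G)) s = blockPart b' (fun c : H' => F (c : G)) s' := by
  subst h
  exact ⟨b, Iff.rfl, fun _ => Iff.rfl, fun F s s' hs => by rw [Subtype.ext hs]⟩

section Dec

variable {K : Type*} [Group K] [Fintype K] {p : ℕ} [Fact p.Prime] {M : Ideal AlgInt}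

open scoped Classical in
/-- A class function is the sum of its block parts; the parts that are known to vanish at `s`
can be dropped. -/
theorem block_decomp [Fintype (IrrCharacter K)] (hM : IsPModular p M) (F : K → ℂ)
    (hF : IsClassFunction K F) (s : K) (Q : Set (IrrCharacter K) → Prop)
    (hzero : ∀ b : Set (IrrCharacter K), IsPBlock M b → ¬ Q b → blockPart b F s = 0) :
    F s = ∑ j ∈ (Finset.univ.image
        (fun ξ : IrrCharacter K => blockOf M (ξ : K → ℂ))).filter Q, blockPart j F s := by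
  have h1 : F s = ∑ ξ : IrrCharacter K, classInner F ξ.1 * ξ.1 s := by
    have h := congrFun (classFunction_expansion F hF) s
    rw [Finset.sum_apply] at h
    rw [h]
    exact Finset.sum_congr rfl fun ξ _ => by rw [Pi.smul_apply, smul_eq_mul]
  have h2 : ∀ j ∈ Finset.univ.image (fun ξ : IrrCharacter K => blockOf M (ξ : K → ℂ)),
      ∑ ξ ∈ Finset.univ.filter (fun ξ : IrrCharacter K => blockOf M (ξ : K → ℂ) = j),
        classInner F ξ.1 * ξ.1 s = blockPart j F s := by
    intro j hj
    obtain ⟨ξ₁, -, rfl⟩ := Finset.mem_image.mp hj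
    rw [blockPart_eq', ← Finset.sum_filter]
    apply Finset.sum_congr _ (fun _ _ => rfl)
    ext ξ
    simp only [Finset.mem_filter, Finset.mem_univ, true_and]
    constructor
    · intro h
      rw [← h]
      exact Cfsg.Agent.Lib.Helper22.mem_blockOf_self hM ξ
    · intro h
      exact Cfsg.Agent.Lib.Helper82.block_eq_of_mem hM ⟨ξ, rfl⟩ ⟨ξ₁, rfl⟩ ξ
        (Cfsg.Agent.Lib.Helper22.mem_blockOf_self hM ξ) h
  rw [h1, ← Finset.sum_fiberwise_of_maps_to
    (g := fun ξ : IrrCharacter K => blockOf M (ξ : K → ℂ))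
    (t := Finset.univ.image (fun ξ : IrrCharacter K => blockOf M (ξ : K → ℂ)))
    (fun ξ _ => Finset.mem_image_of_mem _ (Finset.mem_univ ξ))]
  rw [Finset.sum_congr rfl h2]
  symm
  apply Finset.sum_filter_of_ne
  intro j hj hne
  by_contra hQ
  obtain ⟨ξ₁, -, rfl⟩ := Finset.mem_image.mp hj
  exact hne (hzero _ ⟨ξ₁, rfl⟩ hQ)

end Dec

section Loc

variable {G : Type*} [Group G] [Fintype G] {p : ℕ} [Fact p.Prime] {M : Ideal AlgInt}

open scoped Classical in
/-- PIECE SMT -/
theorem smt_expand [Fintype (IrrCharacter G)] (hM : IsPModular p M)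
    (β : Set (IrrCharacter G)) (P : Subgroup G)
    (c : Set (IrrCharacter (Subgroup.centralizer (P : Set G))))
    (hmax : IsMaximalBrauerPair p M β P c) (hPcard : Nat.card P = p)
    (u : G) (huP : u ∈ P) (hu1 : u ≠ 1)
    (ξ₀ : IrrCharacter (Subgroup.centralizer (P : Set G)))
    (Dv : ZMod p → IrrCharacter G → ℂ)
    (hKD : ∀ (t : ZMod p) (θ : IrrCharacter G), θ ∈ β →
      ∀ s : Subgroup.centralizer (P : Set G), ¬ p ∣ orderOf s →
        blockPart c (fun x : Subgroup.centralizer (P : Set G) => θ.1 (u ^ t.val * (x : G))) s =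
          Dv t θ * ξ₀.1 s)
    (κ : G → ZMod p)
    (hκ : ∀ n ∈ Subgroup.normalizer (P : Set G), n⁻¹ * u * n = u ^ (κ n).val)
    (χ : IrrCharacter G) (hχ : χ ∈ β) (t : ZMod p) (ht : t ≠ 0)
    (s : Subgroup.centralizer (P : Set G)) (hs : ¬ p ∣ orderOf s) :
    (Nat.card {g : G // conjPair g (⟨P, c⟩ : BrauerPairIdx G) = ⟨P, c⟩} : ℂ) *
        χ.1 (u ^ t.val * (s : G)) =
      ∑ n : G, if n ∈ Subgroup.normalizer (P : Set G) then
        Dv (κ n * t) χ *
          extendByZero (Subgroup.centralizer (P : Set G)) ξ₀.1 (n⁻¹ * (s : G) * n) else 0 := by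
  have hp : p.Prime := Fact.out
  haveI : NeZero p := ⟨hp.ne_zero⟩
  have hpair : IsBrauerPairOf p M β P c := hmax.1
  have hPp : IsPGroup p P := hpair.1.1
  have hβ : IsPBlock M β := hpair.2.1
  have hou : orderOf u = p := by
    have h1 : orderOf u ∣ p := by
      have h2 := Subgroup.orderOf_dvd_natCard P huP
      rwa [hPcard] at h2
    rcases (Nat.dvd_prime hp).mp h1 with h | h
    · exact absurd (orderOf_eq_one_iff.mp h) hu1
    · exact h
  have hgen : Subgroup.zpowers (u ^ t.val) = P := by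
    apply Subgroup.eq_of_le_of_card_ge (Subgroup.zpowers_le.mpr (Subgroup.pow_mem _ huP _))
    have htv : t.val ≠ 0 := fun h => ht ((ZMod.val_eq_zero t).mp h)
    have hcop : (orderOf u).Coprime t.val := by
      rw [hou]
      refine (Nat.Prime.coprime_iff_not_dvd hp).mpr fun h => htv ?_
      exact Nat.eq_zero_of_dvd_of_lt h (ZMod.val_lt t)
    rw [Nat.card_zpowers, hcop.orderOf_pow, hou, hPcard]
  have houtp : orderOf (u ^ t.val) = p := by
    rw [← Nat.card_zpowers, hgen, hPcard]
  letI : Fintype (Subgroup.centralizer (P : Set G)) := Fintype.ofFinite _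
  haveI := irr_finite (G := Subgroup.centralizer (P : Set G))
  letI := Fintype.ofFinite (IrrCharacter (Subgroup.centralizer (P : Set G)))
  -- the function `F`
  obtain ⟨F, hFdef⟩ : ∃ F : Subgroup.centralizer (P : Set G) → ℂ,
      ∀ k, F k = χ.1 (u ^ t.val * (k : G)) := ⟨_, fun _ => rfl⟩
  have hF : F = fun k : Subgroup.centralizer (P : Set G) => χ.1 (u ^ t.val * (k : G)) :=
    funext hFdef
  have hFcf : IsClassFunction (Subgroup.centralizer (P : Set G)) F := by
    intro g h
    rw [hFdef, hFdef]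
    have hc : u ^ t.val * (h : G) = (h : G) * u ^ t.val :=
      Subgroup.mem_centralizer_iff.mp h.2 (u ^ t.val) (Subgroup.pow_mem _ huP _)
    have e : u ^ t.val * ((h * g * h⁻¹ : Subgroup.centralizer (P : Set G)) : G) =
        (h : G) * (u ^ t.val * (g : G)) * (h : G)⁻¹ := by
      rw [Subgroup.coe_mul, Subgroup.coe_mul, Subgroup.coe_inv]
      calc u ^ t.val * ((h : G) * (g : G) * (h : G)⁻¹)
          = (u ^ t.val * (h : G)) * (g : G) * (h : G)⁻¹ := by simp only [mul_assoc]
        _ = ((h : G) * u ^ t.val) * (g : G) * (h : G)⁻¹ := by rw [hc]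
        _ = (h : G) * (u ^ t.val * (g : G)) * (h : G)⁻¹ := by simp only [mul_assoc]
    rw [e]
    exact isClassFunction_irr χ _ _
  -- vanishing of the parts of the blocks that do not induce `β` (second main theorem)
  have hzero : ∀ b : Set (IrrCharacter (Subgroup.centralizer (P : Set G))), IsPBlock M b →
      ¬ IsInducedBlock M (Subgroup.centralizer (P : Set G)) b β → blockPart b F s = 0 := by
    intro b hb hnot
    have heqC : Subgroup.centralizer (P : Set G) = Subgroup.centralizer ({u ^ t.val} : Set G) := by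
      rw [Cfsg.Agent.Lib.Helper33.Klein.centralizer_singleton_eq, hgen]
    obtain ⟨b', hb'blk, hb'ind, hb'part⟩ := blockPart_cast' M _ _ heqC b
    obtain ⟨s', hs'⟩ : ∃ s' : Subgroup.centralizer ({u ^ t.val} : Set G), (s' : G) = (s : G) :=
      ⟨⟨(s : G), by rw [← heqC]; exact s.2⟩, rfl⟩
    have hs'reg : ¬ p ∣ orderOf s' := by
      rw [← Subgroup.orderOf_coe, hs', Subgroup.orderOf_coe]
      exact hs
    have h0 := Cfsg.Agent.S0923.result p M hM (u ^ t.val) ⟨1, by rw [houtp, pow_one]⟩ β hβ χ hχ b'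
      (hb'blk.mp hb) (fun h => hnot ((hb'ind β).mpr h)) s' hs'reg
    have h7 := hb'part (fun g => χ.1 (u ^ t.val * g)) s s' hs'.symm
    rw [hF, h7]
    exact h0
  have hdecomp := block_decomp hM F hFcf s
    (fun b => IsInducedBlock M (Subgroup.centralizer (P : Set G)) b β) hzero
  -- the conjugates of `c` under the normalizer
  obtain ⟨cn, hcn⟩ : ∃ cn : ↥(Subgroup.normalizer (P : Set G)) →
      Set (IrrCharacter (Subgroup.centralizer (P : Set G))),
      ∀ n : ↥(Subgroup.normalizer (P : Set G)),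
        conjPair (n : G) (⟨P, c⟩ : BrauerPairIdx G) = ⟨P, cn n⟩ :=
    ⟨fun n => conjSet (Subgroup.centralizer (P : Set G)) (n : G)
      (normalizer_le_normalizer_centralizer P n.2) c,
      fun n => conjPair_of_mem_normalizer P (n : G) n.2 c⟩
  have hcnind : ∀ n : ↥(Subgroup.normalizer (P : Set G)),
      IsInducedBlock M (Subgroup.centralizer (P : Set G)) (cn n) β := by
    intro n
    have h1 := brauerPairOf_conj β P c hpair (n : G)
    have h2 : IsBrauerPairOf p M β (conjPair (n : G) ⟨P, c⟩).1 (conjPair (n : G) ⟨P, c⟩).2 := h1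
    rw [hcn n] at h2
    exact (isBrauerPairOf_iff_isInducedBlock hM P hPp (cn n) β).mp h2
  -- every block inducing `β` is one of them
  have hsurj : ∀ j : Set (IrrCharacter (Subgroup.centralizer (P : Set G))),
      IsInducedBlock M (Subgroup.centralizer (P : Set G)) j β → ∃ n₀, cn n₀ = j := by
    intro j hj
    have hpairj : IsBrauerPairOf p M β P j :=
      (isBrauerPairOf_iff_isInducedBlock hM P hPp j β).mpr hj
    obtain ⟨g, hg⟩ := exists_conj_subpairLE_maximal hM β P P c j hmax hpairj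
    have hg' : Relation.ReflTransGen (NormalSubpairRel p M) (conjPair g ⟨P, j⟩) ⟨P, c⟩ := hg
    have hle : P.map (MulAut.conj g).toMonoidHom ≤ P := reflTransGen_le _ _ hg'
    have hQP : P.map (MulAut.conj g).toMonoidHom = P :=
      Subgroup.eq_of_le_of_card_ge hle (by rw [card_conj_map])
    have heq : conjPair g ⟨P, j⟩ = ⟨P, c⟩ := reflTransGen_eq_of_fst_eq hM _ _ hg' hQP
    have heq2 : conjPair g⁻¹ (⟨P, c⟩ : BrauerPairIdx G) = ⟨P, j⟩ := by
      rw [← heq, conjPair_inv_conjPair]
    have hgN : g⁻¹ ∈ Subgroup.normalizer (P : Set G) :=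
      mem_normalizer_of_conj_map_eq P g⁻¹ (congrArg Sigma.fst heq2)
    refine ⟨⟨g⁻¹, hgN⟩, ?_⟩
    have h3 := (hcn ⟨g⁻¹, hgN⟩).symm.trans heq2
    exact eq_of_heq (Sigma.mk.inj_iff.mp h3).2
  -- all fibres of `n ↦ c_n` have the size of the stabilizer
  have hfib : ∀ n₀ : ↥(Subgroup.normalizer (P : Set G)),
      (Finset.univ.filter (fun n : ↥(Subgroup.normalizer (P : Set G)) => cn n = cn n₀)).card =
        Nat.card {g : G // conjPair g (⟨P, c⟩ : BrauerPairIdx G) = ⟨P, c⟩} := by
    intro n₀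
    rw [← Fintype.card_subtype, ← Nat.card_eq_fintype_card]
    apply Nat.card_congr
    refine Equiv.ofBijective (fun n => ⟨(n₀ : G)⁻¹ * (n.1 : G), ?_⟩) ⟨?_, ?_⟩
    · rw [← conjPair_mul, hcn n.1, n.2, ← hcn n₀, conjPair_inv_conjPair]
    · intro n n' h
      have h1 : (n₀ : G)⁻¹ * (n.1 : G) = (n₀ : G)⁻¹ * (n'.1 : G) := congrArg Subtype.val h
      exact Subtype.ext (Subtype.ext (mul_left_cancel h1))
    · rintro ⟨g, hg⟩
      have hgN : g ∈ Subgroup.normalizer (P : Set G) :=
        mem_normalizer_of_conj_map_eq P g (congrArg Sigma.fst hg)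
      have hmem : (n₀ : G) * g ∈ Subgroup.normalizer (P : Set G) := mul_mem n₀.2 hgN
      have hc : cn ⟨(n₀ : G) * g, hmem⟩ = cn n₀ := by
        have h1 := hcn ⟨(n₀ : G) * g, hmem⟩
        have h2 : conjPair ((n₀ : G) * g) (⟨P, c⟩ : BrauerPairIdx G) = ⟨P, cn n₀⟩ := by
          rw [← conjPair_mul, hg, hcn n₀]
        exact eq_of_heq (Sigma.mk.inj_iff.mp (h1.symm.trans h2)).2
      refine ⟨⟨⟨(n₀ : G) * g, hmem⟩, hc⟩, ?_⟩
      apply Subtype.ext
      show (n₀ : G)⁻¹ * ((n₀ : G) * g) = g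
      rw [inv_mul_cancel_left]
  -- the block part of `F` with respect to `c_n`
  have hval : ∀ n : ↥(Subgroup.normalizer (P : Set G)), blockPart (cn n) F s =
      Dv (κ (n : G) * t) χ * extendByZero (Subgroup.centralizer (P : Set G)) ξ₀.1
        ((n : G)⁻¹ * (s : G) * (n : G)) := by
    intro n
    have hnC := normalizer_le_normalizer_centralizer P n.2
    have hs₁mem : (n : G)⁻¹ * (s : G) * (n : G) ∈ Subgroup.centralizer (P : Set G) :=
      (Subgroup.mem_normalizer_iff''.mp hnC (s : G)).mp s.2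
    obtain ⟨s₁, hs₁⟩ : ∃ s₁ : Subgroup.centralizer (P : Set G),
        (s₁ : G) = (n : G)⁻¹ * (s : G) * (n : G) := ⟨⟨_, hs₁mem⟩, rfl⟩
    have hs' : (s : G) = (n : G) * (s₁ : G) * (n : G)⁻¹ := by rw [hs₁]; group
    have hs₁reg : ¬ p ∣ orderOf s₁ := by
      rw [← Subgroup.orderOf_coe, hs₁]
      have ho : orderOf ((n : G)⁻¹ * (s : G) * (n : G)) = orderOf (s : G) := by
        have := (MulAut.conj (n : G)⁻¹).orderOf_eq (s : G)
        rwa [MulAut.conj_apply, inv_inv] at this
      rw [ho, Subgroup.orderOf_coe]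
      exact hs
    have h6 := Cfsg.Agent.Lib.BF.blockPart_conjPair (n : G) ⟨P, c⟩ ⟨P, cn n⟩ (hcn n) χ.1
      (isClassFunction_irr χ) ((n : G)⁻¹ * u ^ t.val * (n : G)) s₁ s hs'
    have e1 : (n : G) * ((n : G)⁻¹ * u ^ t.val * (n : G)) * (n : G)⁻¹ = u ^ t.val := by group
    have e2 : (n : G)⁻¹ * u ^ t.val * (n : G) = u ^ (κ (n : G) * t).val := by
      have h1 : ((n : G)⁻¹ * u * (n : G)) ^ t.val = (n : G)⁻¹ * u ^ t.val * (n : G) := by
        have := conj_pow (a := (n : G)⁻¹) (b := u) (i := t.val)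
        rwa [inv_inv] at this
      rw [← h1, hκ (n : G) n.2, ← pow_mul, ZMod.val_mul]
      exact (pow_mod_of_order u p hou _).symm
    rw [e1, e2] at h6
    have h6' : blockPart (cn n) (fun c' : Subgroup.centralizer (P : Set G) =>
        χ.1 (u ^ t.val * (c' : G))) s =
        blockPart c (fun c' : Subgroup.centralizer (P : Set G) =>
          χ.1 (u ^ (κ (n : G) * t).val * (c' : G))) s₁ := h6
    rw [hF, h6', hKD (κ (n : G) * t) χ hχ s₁ hs₁reg, ← hs₁, extendByZero_apply_mem]
  -- assembling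
  have hR : (∑ n : G, if n ∈ Subgroup.normalizer (P : Set G) then
        Dv (κ n * t) χ *
          extendByZero (Subgroup.centralizer (P : Set G)) ξ₀.1 (n⁻¹ * (s : G) * n) else 0) =
      ∑ n : ↥(Subgroup.normalizer (P : Set G)), blockPart (cn n) F s := by
    rw [← Finset.sum_filter]
    have h1 : ∑ n ∈ Finset.univ.filter (fun x : G => x ∈ Subgroup.normalizer (P : Set G)),
        Dv (κ n * t) χ *
          extendByZero (Subgroup.centralizer (P : Set G)) ξ₀.1 (n⁻¹ * (s : G) * n) =
        ∑ n : ↥(Subgroup.normalizer (P : Set G)), Dv (κ (n : G) * t) χ *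
          extendByZero (Subgroup.centralizer (P : Set G)) ξ₀.1
            ((n : G)⁻¹ * (s : G) * (n : G)) :=
      Finset.sum_subtype _ (fun x => by simp) _
    rw [h1]
    exact Finset.sum_congr rfl (fun n _ => (hval n).symm)
  have hmaps : ∀ n ∈ (Finset.univ : Finset ↥(Subgroup.normalizer (P : Set G))),
      cn n ∈ (Finset.univ.image (fun ξ : IrrCharacter (Subgroup.centralizer (P : Set G)) =>
        blockOf M (ξ : Subgroup.centralizer (P : Set G) → ℂ))).filter
        (fun b => IsInducedBlock M (Subgroup.centralizer (P : Set G)) b β) := by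
    intro n _
    rw [Finset.mem_filter, Finset.mem_image]
    obtain ⟨ξ, hξ⟩ := (hcnind n).1
    exact ⟨⟨ξ, Finset.mem_univ _, hξ.symm⟩, hcnind n⟩
  rw [hR, ← hFdef s, hdecomp, Finset.mul_sum, ← Finset.sum_fiberwise_of_maps_to hmaps]
  refine Finset.sum_congr rfl fun j hj => ?_
  obtain ⟨n₀, rfl⟩ := hsurj j (Finset.mem_filter.mp hj).2
  have h1 : ∀ n ∈ Finset.univ.filter
      (fun n : ↥(Subgroup.normalizer (P : Set G)) => cn n = cn n₀),
      blockPart (cn n) F s = blockPart (cn n₀) F s := by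
    intro n hn
    rw [(Finset.mem_filter.mp hn).2]
  rw [Finset.sum_congr rfl h1, Finset.sum_const, hfib n₀, nsmul_eq_mul]

end Loc

end Cfsg.Agent.Lib.Helper6.DG
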