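import Mathlib
import Cfsg.Agent.Lib.Helper22.HPDefs
import Cfsg.Agent.Lib.Helper22.HPDefs2
import Cfsg.Agent.Lib.Helper83.Ortho
import Cfsg.Agent.Lib.Helper83.Twist
import Cfsg.Agent.Lib.Helper83.Central

/-!
# S4504 (helper22 project), piece HP-STAR-BUDGET (helper6)

Column orthogonality at `z ^ t` and `u * z ^ t` (`u` central), split by central character:
the sum over the irreducible characters with a given central character of
`∑_{t ≠ 0} ‖φ (z ^ t)‖ ^ 2` is `p (p - 1)`.
-/

set_option autoImplicit false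

namespace Cfsg.Agent.Lib.Helper6.HPT

open Cfsg Cfsg.Agent.Lib.Helper22.BFD Cfsg.Agent.Lib.Helper22.HPD
open scoped ComplexConjugate

universe u

section general

variable {G : Type u} [Group G]

/-- A nontrivial multiplicative function on the centre sums to zero. -/
theorem hpb_centre_sum [Fintype (Subgroup.center G)] (l : G → ℂ)
    (hmul : ∀ u ∈ Subgroup.center G, ∀ v ∈ Subgroup.center G, l (u * v) = l u * l v)
    (u0 : G) (hu0 : u0 ∈ Subgroup.center G) (hne : l u0 ≠ 1) :
    ∑ u : Subgroup.center G, l (u : G) = 0 := by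
  have h : ∑ u : Subgroup.center G, l (u : G) =
      l u0 * ∑ u : Subgroup.center G, l (u : G) := by
    calc ∑ u : Subgroup.center G, l (u : G)
        = ∑ u : Subgroup.center G, l (((⟨u0, hu0⟩ : Subgroup.center G) * u :
            Subgroup.center G) : G) :=
          (Fintype.sum_equiv (Equiv.mulLeft (⟨u0, hu0⟩ : Subgroup.center G))
            (fun u => l (((⟨u0, hu0⟩ : Subgroup.center G) * u : Subgroup.center G) : G))
            (fun u => l (u : G)) (fun u => rfl)).symm
      _ = ∑ u : Subgroup.center G, l u0 * l (u : G) := by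
          refine Finset.sum_congr rfl (fun u _ => ?_)
          rw [Subgroup.coe_mul]
          exact hmul u0 hu0 u u.2
      _ = l u0 * ∑ u : Subgroup.center G, l (u : G) := by rw [Finset.mul_sum]
  have h2 : (1 - l u0) * ∑ u : Subgroup.center G, l (u : G) = 0 := by
    linear_combination h
  rcases mul_eq_zero.mp h2 with h3 | h3
  · exact absurd (sub_eq_zero.mp h3).symm hne
  · exact h3

open Classical in
/-- Column orthogonality at `g` and `u * g`, weighted by a linear character `τ` of the centre. -/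
theorem hpb_general [Fintype G] [Fintype (IrrCharacter G)] (τ : G → ℂ) (hτ1 : τ 1 = 1)
    (hτmul : ∀ u ∈ Subgroup.center G, ∀ v ∈ Subgroup.center G, τ (u * v) = τ u * τ v)
    (hτnorm : ∀ u ∈ Subgroup.center G, τ u * conj (τ u) = 1)
    (g : G) (hg : ∀ u ∈ Subgroup.center G, IsConj (u * g) g → u = 1) :
    (Nat.card (Subgroup.center G) : ℂ) *
      ∑ φ ∈ Finset.univ.filter (fun φ : IrrCharacter G =>
          ∀ u ∈ Subgroup.center G, φ.1 u = τ u * φ.1 1), φ.1 g * conj (φ.1 g) =
      (Nat.card (Subgroup.centralizer ({g} : Set G)) : ℂ) := by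
  have key1 : ∑ u : Subgroup.center G, τ (u : G) *
      ∑ φ : IrrCharacter G, φ.1 g * conj (φ.1 ((u : G) * g)) =
      (Nat.card (Subgroup.centralizer ({g} : Set G)) : ℂ) := by
    rw [Finset.sum_eq_single (1 : Subgroup.center G)]
    · rw [Subgroup.coe_one, hτ1, one_mul]
      have h := Cfsg.Agent.Lib.Helper83.column_orthogonality (G := G) g ((1 : G) * g)
      rw [if_pos (by rw [one_mul])] at h
      rw [h, one_mul]
    · intro u _ hu
      have h := Cfsg.Agent.Lib.Helper83.column_orthogonality (G := G) g ((u : G) * g)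
      rw [if_neg (fun hc => hu (Subtype.ext (hg u u.2 hc)))] at h
      rw [h, mul_zero]
    · intro h
      exact absurd (Finset.mem_univ _) h
  have key2 : ∑ u : Subgroup.center G, τ (u : G) *
      ∑ φ : IrrCharacter G, φ.1 g * conj (φ.1 ((u : G) * g)) =
      ∑ φ : IrrCharacter G, (φ.1 g * conj (φ.1 g)) *
        ∑ u : Subgroup.center G, τ (u : G) * conj (φ.1 (u : G) / φ.1 1) := by
    simp_rw [Finset.mul_sum]
    rw [Finset.sum_comm]
    refine Finset.sum_congr rfl (fun φ _ => Finset.sum_congr rfl (fun u _ => ?_))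
    have h1 := Cfsg.Agent.Lib.Helper83.irr_central_mul φ (u : G) u.2 g
    have h0 : φ.1 1 ≠ 0 := Cfsg.Agent.Lib.Helper83.irr_one_ne_zero φ.2
    have h2 : φ.1 ((u : G) * g) = φ.1 (u : G) / φ.1 1 * φ.1 g := by
      field_simp
      linear_combination h1
    rw [h2, map_mul]
    ring
  have key3 : ∀ φ : IrrCharacter G,
      ∑ u : Subgroup.center G, τ (u : G) * conj (φ.1 (u : G) / φ.1 1) =
      if (∀ u ∈ Subgroup.center G, φ.1 u = τ u * φ.1 1) then
        (Nat.card (Subgroup.center G) : ℂ) else 0 := by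
    intro φ
    have h0 : φ.1 1 ≠ 0 := Cfsg.Agent.Lib.Helper83.irr_one_ne_zero φ.2
    have hω : ∀ u ∈ Subgroup.center G, (φ.1 u / φ.1 1) * conj (φ.1 u / φ.1 1) = 1 := by
      intro u hu
      have hn1 := Cfsg.Agent.Lib.Helper83.irr_central_norm φ u hu
      have hn2 := Cfsg.Agent.Lib.Helper83.irr_central_norm φ 1 (Subgroup.one_mem _)
      have hn0 : ‖φ.1 1‖ ≠ 0 := norm_ne_zero_iff.mpr h0
      rw [Complex.mul_conj, Complex.normSq_eq_norm_sq, norm_div, hn1, ← hn2, div_self hn0]
      norm_num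
    split_ifs with hP
    · have hterm : ∀ u ∈ (Finset.univ : Finset (Subgroup.center G)),
          τ (u : G) * conj (φ.1 (u : G) / φ.1 1) = 1 := by
        intro u _
        rw [hP u u.2, mul_div_cancel_right₀ _ h0]
        exact hτnorm u u.2
      rw [Finset.sum_congr rfl hterm]
      simp [Nat.card_eq_fintype_card]
    · push Not at hP
      obtain ⟨u0, hu0, hne⟩ := hP
      refine hpb_centre_sum (fun u => τ u * conj (φ.1 u / φ.1 1)) ?_ u0 hu0 ?_
      · intro u hu v hv
        have h1 := Cfsg.Agent.Lib.Helper83.irr_central_mul φ u hu v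
        have h2 : φ.1 (u * v) / φ.1 1 = (φ.1 u / φ.1 1) * (φ.1 v / φ.1 1) := by
          field_simp
          linear_combination h1
        show τ (u * v) * conj (φ.1 (u * v) / φ.1 1) =
          τ u * conj (φ.1 u / φ.1 1) * (τ v * conj (φ.1 v / φ.1 1))
        rw [h2, hτmul u hu v hv, map_mul]
        ring
      · intro h
        apply hne
        have h2 := hω u0 hu0
        have h3 : τ u0 = φ.1 u0 / φ.1 1 := by
          calc τ u0 = τ u0 * (φ.1 u0 / φ.1 1 * conj (φ.1 u0 / φ.1 1)) := by rw [h2, mul_one]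
            _ = (τ u0 * conj (φ.1 u0 / φ.1 1)) * (φ.1 u0 / φ.1 1) := by ring
            _ = φ.1 u0 / φ.1 1 := by rw [h, one_mul]
        rw [h3, div_mul_cancel₀ _ h0]
  rw [← key1, key2]
  simp_rw [key3]
  rw [Finset.mul_sum, Finset.sum_filter]
  refine Finset.sum_congr rfl (fun φ _ => ?_)
  split_ifs <;> ring

end general

section specific

variable {G : Type u} [Group G]

theorem hpb_pow_add {z : G} {p : ℕ} [Fact p.Prime] (hz : orderOf z = p) (i j : ZMod p) :
    z ^ (i + j).val = z ^ i.val * z ^ j.val := by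
  rw [← pow_add, pow_eq_pow_iff_modEq, hz, ZMod.val_add]
  exact Nat.mod_modEq _ _

theorem hpb_pow_mul {z : G} {p : ℕ} [Fact p.Prime] (hz : orderOf z = p) (i j : ZMod p) :
    z ^ (i * j).val = (z ^ i.val) ^ j.val := by
  rw [← pow_mul, pow_eq_pow_iff_modEq, hz, ZMod.val_mul]
  exact Nat.mod_modEq _ _

/-- No central element of order `p`. -/
theorem hpb_not_central {p : ℕ}
    (hnn : ∀ H : Subgroup G, H.Normal → Nat.card H ≠ p) (u : G)
    (hu : u ∈ Subgroup.center G) (ho : orderOf u = p) : False := by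
  have hn : (Subgroup.zpowers u).Normal := by
    constructor
    intro x hx g
    obtain ⟨k, rfl⟩ := Subgroup.mem_zpowers_iff.mp hx
    have hc : u ^ k ∈ Subgroup.center G := Subgroup.zpow_mem _ hu k
    have h1 : g * u ^ k * g⁻¹ = u ^ k := by
      rw [Subgroup.mem_center_iff.mp hc g, mul_inv_cancel_right]
    rw [h1]
    exact Subgroup.zpow_mem_zpowers u k
  exact hnn _ hn (by rw [Nat.card_zpowers, ho])

/-- `u * z ^ t` is conjugate to `z ^ t` only for `u = 1`. -/
theorem hpb_conj {p : ℕ} [Fact p.Prime]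
    (hnn : ∀ H : Subgroup G, H.Normal → Nat.card H ≠ p) {z : G} (hz : orderOf z = p)
    (t : ZMod p) (u : G) (hu : u ∈ Subgroup.center G)
    (hc : IsConj (u * z ^ t.val) (z ^ t.val)) : u = 1 := by
  by_contra hne
  obtain ⟨c, hc⟩ := isConj_iff.mp hc
  have hzp1 : z ^ p = 1 := hz ▸ pow_orderOf_eq_one z
  have hzp : (z ^ t.val) ^ p = 1 := by
    rw [← pow_mul, mul_comm, pow_mul, hzp1, one_pow]
  have hcomm : Commute u (z ^ t.val) := (Subgroup.mem_center_iff.mp hu _).symm
  have h1 : (u * z ^ t.val) ^ p = 1 := by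
    have h2 : (c * (u * z ^ t.val) * c⁻¹) ^ p = 1 := by rw [hc, hzp]
    rw [conj_pow] at h2
    have h3 := congrArg (fun y => c⁻¹ * y * c) h2
    simpa [mul_assoc] using h3
  rw [hcomm.mul_pow, hzp, mul_one] at h1
  have ho : orderOf u = p := by
    have hd : orderOf u ∣ p := orderOf_dvd_of_pow_eq_one h1
    rcases (Nat.dvd_prime (Fact.out : p.Prime)).mp hd with h | h
    · exact absurd (orderOf_eq_one_iff.mp h) hne
    · exact h
  exact hpb_not_central hnn u hu ho

/-- `|C_G(z ^ t)| = p |Z(G)|`. -/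
theorem hpb_card_centralizer {p : ℕ} [Fact p.Prime]
    (hnn : ∀ H : Subgroup G, H.Normal → Nat.card H ≠ p) (χ : G → ℂ) (z : G) (ζ : ℂ)
    (hHP : HP p ζ z χ) (t : ZMod p) (ht : t ≠ 0) :
    Nat.card (Subgroup.centralizer ({z ^ t.val} : Set G)) =
      p * Nat.card (Subgroup.center G) := by
  have hz := hHP.hz
  have hzt : (z ^ t.val) ^ (t⁻¹).val = z := by
    rw [← hpb_pow_mul hz, mul_inv_cancel₀ ht, ZMod.val_one, pow_one]
  have hmem : ∀ x : ZMod p × Subgroup.center G,
      z ^ x.1.val * (x.2 : G) ∈ Subgroup.centralizer ({z ^ t.val} : Set G) := by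
    intro x
    rw [Subgroup.mem_centralizer_iff]
    intro y hy
    rw [Set.mem_singleton_iff] at hy
    subst hy
    have hu := Subgroup.mem_center_iff.mp x.2.2 (z ^ t.val)
    rw [mul_assoc (z ^ x.1.val), ← hu, ← mul_assoc, ← mul_assoc, ← pow_add, ← pow_add, add_comm]
  let f : ZMod p × Subgroup.center G → Subgroup.centralizer ({z ^ t.val} : Set G) :=
    fun x => ⟨z ^ x.1.val * (x.2 : G), hmem x⟩
  have hf : Function.Bijective f := by
    constructor
    · rintro ⟨i, u⟩ ⟨j, v⟩ h
      have h' : z ^ i.val * (u : G) = z ^ j.val * (v : G) := congrArg Subtype.val h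
      have hij : i = j := by
        by_contra hne
        have hd : i - j ≠ 0 := sub_ne_zero.mpr hne
        have hcen : (v : G) * (u : G)⁻¹ ∈ Subgroup.center G :=
          Subgroup.mul_mem _ v.2 (Subgroup.inv_mem _ u.2)
        have h3 : z ^ (i - j).val ∈ Subgroup.center G := by
          have h4 : z ^ (i - j).val * z ^ j.val = z ^ i.val := by
            rw [← hpb_pow_add hz, sub_add_cancel]
          have h6 : z ^ i.val = z ^ j.val * ((v : G) * (u : G)⁻¹) := by
            rw [← mul_assoc, ← h', mul_inv_cancel_right]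
          rw [h6, Subgroup.mem_center_iff.mp hcen (z ^ j.val)] at h4
          rw [mul_right_cancel h4]
          exact hcen
        have h7 : z ∈ Subgroup.center G := by
          have h8 : (z ^ (i - j).val) ^ ((i - j)⁻¹).val = z := by
            rw [← hpb_pow_mul hz, mul_inv_cancel₀ hd, ZMod.val_one, pow_one]
          rw [← h8]
          exact Subgroup.pow_mem _ h3 _
        exact hpb_not_central hnn z h7 hz
      subst hij
      have huv : (u : G) = (v : G) := mul_left_cancel h'
      exact Prod.ext rfl (Subtype.ext huv)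
    · rintro ⟨x, hx⟩
      have hxz : x * z = z * x := by
        have h8 := Subgroup.mem_centralizer_iff.mp hx (z ^ t.val) (Set.mem_singleton _)
        have h9 : Commute x (z ^ t.val) := h8.symm
        have h10 := h9.pow_right (t⁻¹).val
        rw [hzt] at h10
        exact h10
      obtain ⟨s, u, hu, hxs⟩ := hHP.hC x hxz
      exact ⟨(s, ⟨u, hu⟩), Subtype.ext hxs.symm⟩
  rw [← Nat.card_congr (Equiv.ofBijective f hf), Nat.card_prod, Nat.card_eq_fintype_card,
    ZMod.card]

end specific

open Classical in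
/-- PIECE BUDGET (G4): column orthogonality at `z ^ t`, split by central character -/
theorem hp_budget {G : Type u} [Group G] [Fintype G] [Fintype (IrrCharacter G)]
    (p : ℕ) [Fact p.Prime] (hsq : ¬ p ^ 2 ∣ Nat.card G)
    (hnn : ∀ H : Subgroup G, H.Normal → Nat.card H ≠ p)
    (χ : IrrCharacter G) (z : G) (ζ : ℂ) (hHP : HP p ζ z χ.1) :
    (∑ φ ∈ Finset.univ.filter (fun φ : IrrCharacter G => TrivZ φ.1),
      ∑ t ∈ Finset.univ.filter (fun t : ZMod p => t ≠ 0), ‖φ.1 (z ^ t.val)‖ ^ 2 =
        (p : ℝ) * ((p : ℝ) - 1)) ∧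
    (∑ φ ∈ Finset.univ.filter (fun φ : IrrCharacter G => SameZ χ.1 φ.1),
      ∑ t ∈ Finset.univ.filter (fun t : ZMod p => t ≠ 0), ‖φ.1 (z ^ t.val)‖ ^ 2 =
        (p : ℝ) * ((p : ℝ) - 1)) := by
  have hz := hHP.hz
  have hp : p.Prime := Fact.out
  have key : ∀ (τ : G → ℂ), τ 1 = 1 →
      (∀ u ∈ Subgroup.center G, ∀ v ∈ Subgroup.center G, τ (u * v) = τ u * τ v) →
      (∀ u ∈ Subgroup.center G, τ u * conj (τ u) = 1) →
      ∑ φ ∈ Finset.univ.filter (fun φ : IrrCharacter G =>
          ∀ u ∈ Subgroup.center G, φ.1 u = τ u * φ.1 1),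
        ∑ t ∈ Finset.univ.filter (fun t : ZMod p => t ≠ 0), ‖φ.1 (z ^ t.val)‖ ^ 2 =
          (p : ℝ) * ((p : ℝ) - 1) := by
    intro τ h1 hmul hnorm
    rw [Finset.sum_comm]
    have hin : ∀ t ∈ Finset.univ.filter (fun t : ZMod p => t ≠ 0),
        ∑ φ ∈ Finset.univ.filter (fun φ : IrrCharacter G =>
          ∀ u ∈ Subgroup.center G, φ.1 u = τ u * φ.1 1), ‖φ.1 (z ^ t.val)‖ ^ 2 = (p : ℝ) := by
      intro t ht
      have ht0 : t ≠ 0 := (Finset.mem_filter.mp ht).2
      have hgen := hpb_general τ h1 hmul hnorm (z ^ t.val)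
        (fun u hu hc => hpb_conj hnn hz t u hu hc)
      rw [hpb_card_centralizer hnn χ.1 z ζ hHP t ht0] at hgen
      have hZ : (Nat.card (Subgroup.center G) : ℂ) ≠ 0 := by
        exact_mod_cast (Nat.card_pos (α := Subgroup.center G)).ne'
      have h2 : ∑ φ ∈ Finset.univ.filter (fun φ : IrrCharacter G =>
          ∀ u ∈ Subgroup.center G, φ.1 u = τ u * φ.1 1),
          φ.1 (z ^ t.val) * conj (φ.1 (z ^ t.val)) = (p : ℂ) := by
        apply mul_left_cancel₀ hZ
        rw [hgen]
        push_cast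
        ring
      have h3 : ((∑ φ ∈ Finset.univ.filter (fun φ : IrrCharacter G =>
          ∀ u ∈ Subgroup.center G, φ.1 u = τ u * φ.1 1),
          ‖φ.1 (z ^ t.val)‖ ^ 2 : ℝ) : ℂ) = (p : ℂ) := by
        rw [← h2]
        push_cast
        refine Finset.sum_congr rfl (fun φ _ => ?_)
        rw [Complex.mul_conj, Complex.normSq_eq_norm_sq]
        push_cast
        rfl
      exact_mod_cast h3
    rw [Finset.sum_congr rfl hin, Finset.sum_const, nsmul_eq_mul]
    have hcard : (Finset.univ.filter (fun t : ZMod p => t ≠ 0)).card = p - 1 := by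
      rw [Finset.filter_ne', Finset.card_erase_of_mem (Finset.mem_univ _), Finset.card_univ,
        ZMod.card]
    rw [hcard, Nat.cast_sub hp.one_lt.le]
    push_cast
    ring
  constructor
  · have hfilt : Finset.univ.filter (fun φ : IrrCharacter G => TrivZ φ.1) =
        Finset.univ.filter (fun φ : IrrCharacter G =>
          ∀ u ∈ Subgroup.center G, φ.1 u = (fun _ : G => (1 : ℂ)) u * φ.1 1) := by
      refine Finset.filter_congr (fun φ _ => ?_)
      simp only [TrivZ, one_mul]
    rw [hfilt]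
    exact key (fun _ => 1) rfl (fun _ _ _ _ => by norm_num) (fun _ _ => by simp)
  · have h0 : χ.1 1 ≠ 0 := Cfsg.Agent.Lib.Helper83.irr_one_ne_zero χ.2
    have hfilt : Finset.univ.filter (fun φ : IrrCharacter G => SameZ χ.1 φ.1) =
        Finset.univ.filter (fun φ : IrrCharacter G =>
          ∀ u ∈ Subgroup.center G, φ.1 u = (fun u : G => χ.1 u / χ.1 1) u * φ.1 1) := by
      refine Finset.filter_congr (fun φ _ => ?_)
      simp only [SameZ]
      refine forall_congr' (fun u => forall_congr' (fun _ => ?_))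
      constructor
      · intro h
        field_simp
        linear_combination h
      · intro h
        rw [h]
        field_simp
    rw [hfilt]
    refine key (fun u => χ.1 u / χ.1 1) (div_self h0) ?_ ?_
    · intro u hu v hv
      have h1 := Cfsg.Agent.Lib.Helper83.irr_central_mul χ u hu v
      show χ.1 (u * v) / χ.1 1 = χ.1 u / χ.1 1 * (χ.1 v / χ.1 1)
      field_simp
      linear_combination h1
    · intro u hu
      have hn1 := Cfsg.Agent.Lib.Helper83.irr_central_norm χ u hu
      have hn2 := Cfsg.Agent.Lib.Helper83.irr_central_norm χ 1 (Subgroup.one_mem _)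
      have hn0 : ‖χ.1 1‖ ≠ 0 := norm_ne_zero_iff.mpr h0
      show χ.1 u / χ.1 1 * conj (χ.1 u / χ.1 1) = 1
      rw [Complex.mul_conj, Complex.normSq_eq_norm_sq, norm_div, hn1, ← hn2, div_self hn0]
      norm_num

end Cfsg.Agent.Lib.Helper6.HPT
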