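import Mathlib
import Cfsg.Agent.Lib.Helper58.JEDefs
import Cfsg.Agent.Lib.Helper94.JcTH
import Cfsg.Agent.Lib.Helper66.JNThc

/-!
# Project JE (S2948, helper58), piece A1

`T ∈ 𝒯*(M)` and `N_G(J(S)) ≤ M` for a Sylow 2-subgroup `S` imply `N_G(J(T)) ≤ M`.
-/

set_option autoImplicit false

namespace Cfsg.Agent.Lib.Helper6.JE

open Cfsg.Agent.Lib.Helper58.JE Cfsg.Agent.Lib.Helper72.JL Cfsg.Agent.Lib.Helper72.SC
  Cfsg.Agent.Lib.Helper78.Jc
open Cfsg.Agent.Lib.Helper94.Jc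

universe u

/-- a 2-subgroup of `M` lies in an `M`-conjugate of a Sylow 2-subgroup contained in `M` -/
theorem jea1_exists_conj {G : Type u} [Group G] [Finite G] (S : Sylow 2 G) (M T : Subgroup G)
    (hSM : (S : Subgroup G) ≤ M) (hT : IsPGroup 2 ↥T) (hTM : T ≤ M) :
    ∃ m ∈ M, T ≤ (S : Subgroup G).map (MulAut.conj m).toMonoidHom := by
  have : Fact (Nat.Prime 2) := ⟨Nat.prime_two⟩
  have hTp : IsPGroup 2 ↥(T.subgroupOf M) := hT.comap_subtype
  obtain ⟨Q, hQ⟩ := hTp.exists_le_sylow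
  obtain ⟨m, hm⟩ := MulAction.exists_smul_eq ↥M (S.subtype hSM) Q
  refine ⟨(m : G), m.2, ?_⟩
  intro t ht
  have h1 : (⟨t, hTM ht⟩ : ↥M) ∈ (Q : Subgroup ↥M) := hQ (Subgroup.mem_subgroupOf.mpr ht)
  rw [← hm, Sylow.coe_subgroup_smul, Subgroup.mem_pointwise_smul_iff_inv_smul_mem,
    Sylow.coe_subtype, Subgroup.mem_subgroupOf] at h1
  refine ⟨(m : G)⁻¹ * t * (m : G), ?_, ?_⟩
  · have e : (((MulAut.conj m)⁻¹ • (⟨t, hTM ht⟩ : ↥M) : ↥M) : G) = (m : G)⁻¹ * t * (m : G) := by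
      simp [MulAut.smul_def]
    rw [e] at h1
    exact h1
  · show (m : G) * ((m : G)⁻¹ * t * (m : G)) * (m : G)⁻¹ = t
    group

/-- the order of a largest elementary abelian 2-subgroup -/
theorem jea1_maxOrder {G : Type u} [Group G] [Finite G] (T A : Subgroup G) (hA : IsMaxEA T A) :
    Cfsg.maxElemAbelianOrder T = Nat.card ↥A := by
  unfold Cfsg.maxElemAbelianOrder
  have hset : (fun B : Subgroup ↥T => Nat.card ↥B) '' Cfsg.maxElementaryAbelianSubgroups 2 ↥T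
      = {Nat.card ↥A} := by
    have hAm := th_mem_of T A hA
    have hcard : Nat.card ↥(A.subgroupOf T) = Nat.card ↥A :=
      (th_ea_of T A hA.1 hA.2.1 hA.2.2.1).2
    ext n
    simp only [Set.mem_image, Set.mem_singleton_iff]
    constructor
    · rintro ⟨B, hB, rfl⟩
      rw [← hcard]
      exact le_antisymm (hAm.2 B hB.1) (hB.2 _ hAm.1)
    · rintro rfl
      exact ⟨A.subgroupOf T, hAm, hcard⟩
  rw [hset, csSup_singleton]

/-- the Thompson subgroup of a nontrivial 2-group is nontrivial -/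
theorem jea1_th_ne_bot {G : Type u} [Group G] [Finite G] (T : Subgroup G) (hT : IsPGroup 2 ↥T)
    (hne : T ≠ ⊥) : Cfsg.thompsonSubgroupOf 2 T ≠ ⊥ := by
  have : Fact (Nat.Prime 2) := ⟨Nat.prime_two⟩
  intro hbot
  obtain ⟨A, hA⟩ := th_exists T
  have hAbot : A = ⊥ := le_bot_iff.mp (hbot ▸ th_le T A hA)
  have h2 : 2 ∣ Nat.card ↥T := by
    obtain ⟨n, hn⟩ := IsPGroup.iff_card.mp hT
    rcases Nat.eq_zero_or_pos n with h0 | h0
    · exfalso
      rw [h0, pow_zero] at hn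
      exact hne (Subgroup.card_eq_one.mp hn)
    · rw [hn]
      exact dvd_pow_self 2 h0.ne'
  obtain ⟨z, hz⟩ := exists_prime_orderOf_dvd_card' 2 h2
  have hz2 : (z : G) * (z : G) = 1 := by
    have h3 : z ^ 2 = 1 := by rw [← hz]; exact pow_orderOf_eq_one z
    have h4 : ((z ^ 2 : ↥T) : G) = 1 := by rw [h3]; rfl
    rw [← sq]
    exact_mod_cast h4
  have hB := hA.2.2.2 (Subgroup.zpowers (z : G)) (Subgroup.zpowers_le.mpr z.2)
    (by
      rintro _ ⟨i, rfl⟩ _ ⟨j, rfl⟩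
      exact zpow_mul_comm (z : G) i j)
    (by
      rintro _ ⟨i, rfl⟩
      show (z : G) ^ i * (z : G) ^ i = 1
      have e : (z : G) ^ i * (z : G) ^ i = ((z : G) * (z : G)) ^ i := by
        rw [← zpow_add, ← two_mul, zpow_mul]
        congr 1
        exact zpow_two _
      rw [e, hz2, one_zpow])
  rw [Nat.card_zpowers, Subgroup.orderOf_coe, hz, hAbot, Subgroup.card_bot] at hB
  omega

/-- the normalizer of `T` normalizes `J(T)` -/
theorem jea1_norm_le {G : Type u} [Group G] [Finite G] (T : Subgroup G) :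
    Subgroup.normalizer (T : Set G) ≤
      Subgroup.normalizer (Cfsg.thompsonSubgroupOf 2 T : Set G) := by
  intro x hx
  have hmapT : T.map (MulAut.conj x).toMonoidHom = T :=
    Subgroup.mem_normalizer_iff_map_conj_eq.mp hx
  have h := Cfsg.Agent.Lib.Helper66.JN.thc G T x
  rw [hmapT] at h
  exact Subgroup.mem_normalizer_iff_map_conj_eq.mpr h.symm

theorem a1 : A1Stmt.{u} := by
  intro G _ _ S M T hN hT
  have : Fact (Nat.Prime 2) := ⟨Nat.prime_two⟩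
  obtain ⟨⟨hT2, hTne, hTM, L, hL, hTL, hLM⟩, hmax⟩ := hT
  by_contra hcon
  have hSM : (S : Subgroup G) ≤ M := (th_normal (S : Subgroup G)).trans hN
  obtain ⟨m, hmM, hTS'⟩ := jea1_exists_conj S M T hSM hT2 hTM
  have hNS' : Subgroup.normalizer (Cfsg.thompsonSubgroupOf 2
      ((S : Subgroup G).map (MulAut.conj m).toMonoidHom) : Set G) ≤ M := by
    rw [Cfsg.Agent.Lib.Helper66.JN.thc G (S : Subgroup G) m, ← Subgroup.map_equiv_normalizer_eq]
    rintro _ ⟨n, hn, rfl⟩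
    exact M.mul_mem (M.mul_mem hmM (hN hn)) (M.inv_mem hmM)
  generalize hS' : (S : Subgroup G).map (MulAut.conj m).toMonoidHom = S' at hTS' hNS'
  have hS'2 : IsPGroup 2 ↥S' := by
    rw [← hS']
    exact S.isPGroup'.map _
  have hS'M : S' ≤ M := (th_normal S').trans hNS'
  have hTT₂ : T ≤ S' ⊓ Subgroup.normalizer (T : Set G) := le_inf hTS' Subgroup.le_normalizer
  generalize hT₂ : S' ⊓ Subgroup.normalizer (T : Set G) = T₂ at hTT₂
  have hT₂S' : T₂ ≤ S' := hT₂ ▸ inf_le_left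
  have hT₂NT : T₂ ≤ Subgroup.normalizer (T : Set G) := hT₂ ▸ inf_le_right
  have hT₂2 : IsPGroup 2 ↥T₂ := hS'2.to_le hT₂S'
  have hT₂ne : T₂ ≠ ⊥ := fun h => hTne (le_bot_iff.mp (h ▸ hTT₂))
  have hT₂M : T₂ ≤ M := hT₂S'.trans hS'M
  have hT₂N : T₂ ≤ Subgroup.normalizer (Cfsg.thompsonSubgroupOf 2 T : Set G) :=
    hT₂NT.trans (jea1_norm_le T)
  have hloc : Cfsg.IsTwoLocal (Subgroup.normalizer (Cfsg.thompsonSubgroupOf 2 T : Set G)) :=
    ⟨Cfsg.thompsonSubgroupOf 2 T, hT2.to_le (th_le_self T), jea1_th_ne_bot T hT2 hTne, rfl⟩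
  have hT₂str : T₂ ∈ Cfsg.straddlingTwoSubgroups M := ⟨hT₂2, hT₂ne, hT₂M, _, hloc, hT₂N, hcon⟩
  obtain ⟨h1, h2⟩ := hmax T₂ hT₂str
  obtain ⟨A, hA⟩ := th_exists T
  obtain ⟨A₂, hA₂⟩ := th_exists T₂
  rw [jea1_maxOrder T A hA, jea1_maxOrder T₂ A₂ hA₂] at h1 h2
  have h3 : Nat.card ↥A ≤ Nat.card ↥A₂ := hA₂.2.2.2 A (hA.1.trans hTT₂) hA.2.1 hA.2.2.1
  have heq : Nat.card ↥A₂ = Nat.card ↥A := le_antisymm h1 h3
  obtain ⟨h4, h5⟩ := h2 heq
  have hJle : Cfsg.thompsonSubgroupOf 2 T ≤ Cfsg.thompsonSubgroupOf 2 T₂ := by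
    apply th_le_of_forall
    intro B hB
    apply th_le
    refine ⟨hB.1.trans hTT₂, hB.2.1, hB.2.2.1, ?_⟩
    intro B' hB'T₂ hB'c hB'2
    calc Nat.card ↥B' ≤ Nat.card ↥A₂ := hA₂.2.2.2 B' hB'T₂ hB'c hB'2
      _ = Nat.card ↥A := heq
      _ ≤ Nat.card ↥B := hB.2.2.2 A hA.1 hA.2.1 hA.2.2.1
  have hJeq : Cfsg.thompsonSubgroupOf 2 T = Cfsg.thompsonSubgroupOf 2 T₂ :=
    Subgroup.eq_of_le_of_card_ge hJle h4
  have h6 : Nat.card ↥T₂ ≤ Nat.card ↥T := h5 (by rw [← hJeq])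
  have hTeq : T = T₂ := Subgroup.eq_of_le_of_card_ge hTT₂ h6
  by_cases hTS : T = S'
  · apply hcon
    rw [hTS]
    exact hNS'
  · have : Group.IsNilpotent ↥S' := hS'2.isNilpotent
    have hlt : T.subgroupOf S' < ⊤ := by
      rw [lt_top_iff_ne_top]
      intro h
      apply hTS
      exact le_antisymm hTS' (Subgroup.subgroupOf_eq_top.mp h)
    have hnc := Group.normalizerCondition_of_isNilpotent (G := ↥S') _ hlt
    rw [← Subgroup.subgroupOf_normalizer_eq hTS'] at hnc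
    obtain ⟨x, hx, hxT⟩ := SetLike.exists_of_lt hnc
    apply hxT
    rw [Subgroup.mem_subgroupOf] at hx ⊢
    rw [hTeq, ← hT₂]
    exact ⟨x.2, hx⟩

end Cfsg.Agent.Lib.Helper6.JE
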