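import Mathlib

/-!
S2716 piece MF-ROOT (poster helper53): roots of quadratics in quadratic extensions of finite
fields (any characteristic, no irreducibility hypothesis).
-/

set_option autoImplicit false

namespace Cfsg.Agent.Lib.Helper6.MFROOT

open Polynomial

theorem exists_root_quadratic_ext {F : Type*} [Field F] [Fintype F] (a b : F)
    (K : Type*) [Field K] [Algebra F K] (hK2 : Module.finrank F K = 2) :
    ∃ r : K, r ^ 2 + algebraMap F K a * r + algebraMap F K b = 0 := by
  classical
  by_cases hroot : ∃ z : F, z ^ 2 + a * z + b = 0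
  · obtain ⟨z, hz⟩ := hroot
    refine ⟨algebraMap F K z, ?_⟩
    rw [← map_pow, ← map_mul, ← map_add, ← map_add, hz, map_zero]
  · have hdeg : (C (1 : F) * X ^ 2 + C a * X + C b).natDegree = 2 :=
      natDegree_quadratic one_ne_zero
    have hirr : Irreducible (C (1 : F) * X ^ 2 + C a * X + C b) := by
      apply irreducible_of_degree_le_three_of_not_isRoot
      · rw [hdeg]; decide
      · intro z hz
        rw [IsRoot] at hz
        simp only [eval_add, eval_mul, eval_C, eval_pow, eval_X, one_mul] at hz
        exact hroot ⟨z, hz⟩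
    have hevalK : ∀ x : K, eval x ((C (1 : F) * X ^ 2 + C a * X + C b).map (algebraMap F K))
        = x ^ 2 + algebraMap F K a * x + algebraMap F K b := by
      intro x
      simp
    generalize C (1 : F) * X ^ 2 + C a * X + C b = p at hdeg hirr hevalK
    haveI : Fact (Irreducible p) := ⟨hirr⟩
    have hfinK : Module.Finite F K := Module.finite_of_finrank_pos (by rw [hK2]; norm_num)
    haveI : Finite K := Module.finite_of_finite F
    letI : Fintype K := Fintype.ofFinite K
    have hcardK : Fintype.card K = Fintype.card F ^ 2 := by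
      rw [Module.card_eq_pow_finrank (K := F) (V := K), hK2]
    have hL2 : Module.finrank F (AdjoinRoot p) = 2 := by
      rw [(AdjoinRoot.powerBasis hirr.ne_zero).finrank, AdjoinRoot.powerBasis_dim, hdeg]
    haveI : Module.Finite F (AdjoinRoot p) :=
      Module.finite_of_finrank_pos (by rw [hL2]; norm_num)
    haveI : Finite (AdjoinRoot p) := Module.finite_of_finite F
    letI : Fintype (AdjoinRoot p) := Fintype.ofFinite _
    have hcardL : Fintype.card (AdjoinRoot p) = Fintype.card F ^ 2 := by
      rw [Module.card_eq_pow_finrank (K := F) (V := AdjoinRoot p), hL2]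
    have hdvd : p ∣ X ^ (Fintype.card F ^ 2) - X := by
      rw [← AdjoinRoot.mk_eq_zero]
      rw [map_sub, map_pow, AdjoinRoot.mk_X, ← hcardL, FiniteField.pow_card, sub_self]
    have hdvdK : p.map (algebraMap F K) ∣ X ^ (Fintype.card K) - X := by
      have := Polynomial.map_dvd (algebraMap F K) hdvd
      rwa [Polynomial.map_sub, Polynomial.map_pow, Polynomial.map_X, ← hcardK] at this
    obtain ⟨h, hh⟩ := hdvdK
    by_contra hno
    push Not at hno
    have hne : (X ^ (Fintype.card K) - X : K[X]) ≠ 0 :=
      FiniteField.X_pow_card_sub_X_ne_zero K Fintype.one_lt_card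
    have hmap0 : p.map (algebraMap F K) ≠ 0 := by
      intro h0
      rw [h0, zero_mul] at hh
      exact hne hh
    have hh0 : h = 0 := by
      by_contra hh0
      apply hh0
      apply Polynomial.eq_zero_of_natDegree_lt_card_of_eval_eq_zero h (f := id)
        Function.injective_id
      · intro x
        have h1 : eval x (X ^ (Fintype.card K) - X : K[X]) = 0 := by
          rw [eval_sub, eval_pow, eval_X, FiniteField.pow_card, sub_self]
        rw [hh, eval_mul] at h1
        rcases mul_eq_zero.mp h1 with h2 | h2
        · exfalso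
          apply hno x
          rw [← hevalK]
          exact h2
        · exact h2
      · have h3 : (X ^ (Fintype.card K) - X : K[X]).natDegree = Fintype.card K :=
          FiniteField.X_pow_card_sub_X_natDegree_eq K Fintype.one_lt_card
        have h4 := congrArg natDegree hh
        rw [h3, natDegree_mul hmap0 hh0, natDegree_map, hdeg] at h4
        omega
    rw [hh0, mul_zero] at hh
    exact hne hh

theorem finite_ringAut' {F : Type*} [Field F] [Fintype F] : Finite (F ≃+* F) :=
  Finite.of_injective (fun e : F ≃+* F => (e : F → F)) DFunLike.coe_injective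

theorem mem_fixed_iff' {F : Type*} [Field F] (σ : F ≃+* F) (a : F) :
    a ∈ FixedPoints.subfield (Subgroup.zpowers σ) F ↔ σ a = a := by
  constructor
  · intro h
    exact h ⟨σ, Subgroup.mem_zpowers σ⟩
  · intro h τ
    have h1 : Subgroup.zpowers σ ≤ MulAction.stabilizer (F ≃+* F) a := by
      rw [Subgroup.zpowers_le]
      exact h
    exact h1 τ.2

theorem exists_root_of_order_two {F : Type*} [Field F] [Fintype F] (σ : F ≃+* F)
    (hσ : orderOf σ = 2) (a b : F) (ha : σ a = a) (hb : σ b = b) :
    ∃ t : F, t ^ 2 + a * t + b = 0 := by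
  classical
  haveI := finite_ringAut' (F := F)
  letI : Fintype (Subgroup.zpowers σ) := Fintype.ofFinite _
  letI : Fintype (FixedPoints.subfield (Subgroup.zpowers σ) F) := Fintype.ofFinite _
  have h1 : Module.finrank (FixedPoints.subfield (Subgroup.zpowers σ) F) F = 2 := by
    rw [FixedPoints.finrank_eq_card (Subgroup.zpowers σ) F, ← Nat.card_eq_fintype_card,
      Nat.card_zpowers, hσ]
  have ha' : a ∈ FixedPoints.subfield (Subgroup.zpowers σ) F := (mem_fixed_iff' σ a).2 ha
  have hb' : b ∈ FixedPoints.subfield (Subgroup.zpowers σ) F := (mem_fixed_iff' σ b).2 hb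
  obtain ⟨r, hr⟩ := exists_root_quadratic_ext
    (⟨a, ha'⟩ : FixedPoints.subfield (Subgroup.zpowers σ) F) ⟨b, hb'⟩ F h1
  exact ⟨r, hr⟩

end Cfsg.Agent.Lib.Helper6.MFROOT
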