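import Cfsg.Agent.Lib.Helper6.Count

set_option autoImplicit false

namespace Cfsg.Agent.Lib.Helper6

variable {G : Type*} [Group G]

omit [Group G] in
theorem sum_indicator [Fintype G] (p : G → Prop) [DecidablePred p] (a : ℕ) :
    ∑ g : G, (if p g then a else 0) = (Finset.univ.filter p).card * a := by
  rw [← Finset.sum_filter, Finset.sum_const, smul_eq_mul]

theorem numInv_eq_card_filter [Fintype G] [DecidableEq G] :
    numInv G = (Finset.univ.filter (fun g : G => orderOf g = 2)).card := by
  unfold numInv
  rw [Nat.card_eq_fintype_card, Fintype.card_subtype]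

theorem centralizer_ne_top_of_involution [Finite G] (hZ : Odd (Nat.card (Subgroup.center G)))
    (g : G) (hg : orderOf g = 2) : Subgroup.centralizer ({g} : Set G) ≠ ⊤ := by
  intro h
  have hgc : g ∈ Subgroup.center G := by
    rw [Subgroup.mem_center_iff]
    intro a
    have h1 : a ∈ Subgroup.centralizer ({g} : Set G) := h ▸ Subgroup.mem_top a
    rw [Subgroup.mem_centralizer_singleton_iff] at h1
    exact h1
  have h4 : orderOf (⟨g, hgc⟩ : Subgroup.center G) = orderOf g := Subgroup.orderOf_mk _ _
  have h5 : 2 ∣ Nat.card (Subgroup.center G) := by
    rw [← hg, ← h4]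
    exact orderOf_dvd_natCard _
  rw [← even_iff_two_dvd] at h5
  exact (Nat.not_even_iff_odd.mpr hZ) h5

/-- The Brauer–Fowler index bound. -/
theorem brauer_fowler_index [Finite G] (heven : Even (Nat.card G))
    (hZ : Odd (Nat.card (Subgroup.center G))) :
    ∃ H : Subgroup G, H ≠ ⊤ ∧ (H.index = 2 ∨
      2 * H.index * (numInv G) ^ 2 < Nat.card G * (Nat.card G + numInv G)) := by
  classical
  have := Fintype.ofFinite G
  by_contra hcon
  push Not at hcon
  have hm1 : 1 ≤ numInv G := numInv_pos heven
  have hN : 0 < Nat.card G := Nat.card_pos
  generalize hm : numInv G = m at *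
  generalize hS : Nat.card G + m = S at *
  have hpt : ∀ g : G, beta g * S + (if orderOf g = 2 then 2 * S else 0) ≤
      (if g = 1 then m * S else 0) + (if orderOf g = 2 then 2 * m ^ 2 else 0) +
        (if g ≠ 1 ∧ orderOf g ≠ 2 then m ^ 2 else 0) := by
    intro g
    by_cases hg1 : g = 1
    · subst hg1
      rw [beta_one, hm]
      simp [orderOf_one]
    · by_cases hg2 : orderOf g = 2
      · rw [if_pos hg2, if_neg hg1, if_pos hg2, if_neg (by tauto)]
        have hC := centralizer_ne_top_of_involution hZ g hg2
        have h1 := (hcon _ hC).2
        have h2 := beta_add_two_le g hg2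
        have h3 := Subgroup.card_mul_index (Subgroup.centralizer ({g} : Set G))
        have hidx : 0 < (Subgroup.centralizer ({g} : Set G)).index :=
          Nat.pos_of_ne_zero Subgroup.index_ne_zero_of_finite
        rw [← h3] at h1
        have h4 : (Subgroup.centralizer ({g} : Set G)).index *
            (Nat.card (Subgroup.centralizer ({g} : Set G)) * S) ≤
            (Subgroup.centralizer ({g} : Set G)).index * (2 * m ^ 2) := by
          calc _ = Nat.card (Subgroup.centralizer ({g} : Set G)) *
                (Subgroup.centralizer ({g} : Set G)).index * S := by ring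
            _ ≤ 2 * (Subgroup.centralizer ({g} : Set G)).index * m ^ 2 := h1
            _ = _ := by ring
        have h5 := Nat.le_of_mul_le_mul_left h4 hidx
        have h6 : (beta g + 2) * S ≤ Nat.card (Subgroup.centralizer ({g} : Set G)) * S :=
          Nat.mul_le_mul_right S h2
        linarith
      · rw [if_neg hg2, if_neg hg1, if_neg hg2, if_pos ⟨hg1, hg2⟩]
        by_cases hb : beta g = 0
        · rw [hb]
          simp
        · have hgg : g * g ≠ 1 := fun h => hg2 (orderOf_two_of_mul_self h hg1)
          obtain ⟨K, hCK, hK⟩ := exists_double_centralizer g hgg hb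
          have hcpos : 0 < Nat.card (Subgroup.centralizer ({g} : Set G)) := Nat.card_pos
          have h3 := Subgroup.card_mul_index (Subgroup.centralizer ({g} : Set G))
          have hKtop : K ≠ ⊤ := by
            intro h
            rw [h, Subgroup.card_top] at hK
            rw [hK] at h3
            have hidx2 : (Subgroup.centralizer ({g} : Set G)).index = 2 := by
              have h4 : Nat.card (Subgroup.centralizer ({g} : Set G)) *
                  (Subgroup.centralizer ({g} : Set G)).index =
                  Nat.card (Subgroup.centralizer ({g} : Set G)) * 2 := by rw [h3]; ring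
              exact Nat.eq_of_mul_eq_mul_left hcpos h4
            have hCtop : Subgroup.centralizer ({g} : Set G) ≠ ⊤ := by
              intro h5
              rw [h5, Subgroup.index_top] at hidx2
              omega
            exact (hcon _ hCtop).1 hidx2
          have h1 := (hcon _ hKtop).2
          have h7 := Subgroup.card_mul_index K
          have hidx : 0 < K.index := Nat.pos_of_ne_zero Subgroup.index_ne_zero_of_finite
          rw [← h7, hK] at h1
          have h4 : K.index * (Nat.card (Subgroup.centralizer ({g} : Set G)) * S) ≤
              K.index * (m ^ 2) := by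
            have h8 : 2 * (K.index * (Nat.card (Subgroup.centralizer ({g} : Set G)) * S)) ≤
                2 * (K.index * (m ^ 2)) := by
              calc _ = 2 * Nat.card (Subgroup.centralizer ({g} : Set G)) * K.index * S := by ring
                _ ≤ 2 * K.index * m ^ 2 := h1
                _ = _ := by ring
            omega
          have h5 := Nat.le_of_mul_le_mul_left h4 hidx
          have h6 : beta g * S ≤ Nat.card (Subgroup.centralizer ({g} : Set G)) * S :=
            Nat.mul_le_mul_right S (beta_le g)
          linarith
  have hsum := Finset.sum_le_sum (fun g (_ : g ∈ (Finset.univ : Finset G)) => hpt g)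
  rw [Finset.sum_add_distrib, Finset.sum_add_distrib, Finset.sum_add_distrib, ← Finset.sum_mul,
    sum_beta, hm, sum_indicator, sum_indicator, sum_indicator, sum_indicator,
    ← numInv_eq_card_filter, hm] at hsum
  have hcount : Nat.card G = 1 + m +
      (Finset.univ.filter (fun g : G => g ≠ 1 ∧ orderOf g ≠ 2)).card := by
    have h1 : ∑ g : G, 1 = ∑ g : G, ((if g = 1 then 1 else 0) + (if orderOf g = 2 then 1 else 0) +
        (if g ≠ 1 ∧ orderOf g ≠ 2 then 1 else 0)) := by
      apply Finset.sum_congr rfl
      intro g _
      by_cases hg1 : g = 1
      · subst hg1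
        simp [orderOf_one]
      · by_cases hg2 : orderOf g = 2
        · simp [hg1, hg2]
        · simp [hg1, hg2]
    rw [Finset.sum_add_distrib, Finset.sum_add_distrib, sum_indicator, sum_indicator,
      sum_indicator, ← numInv_eq_card_filter, hm] at h1
    simp only [Finset.sum_const, Finset.card_univ, smul_eq_mul, mul_one] at h1
    rw [Nat.card_eq_fintype_card, h1]
    congr 2
    exact Finset.card_eq_one.mpr ⟨1, by ext g; simp⟩
  generalize (Finset.univ.filter (fun g : G => g ≠ 1 ∧ orderOf g ≠ 2)).card = k at *
  have hfin : (Finset.univ.filter (fun g : G => g = 1)).card = 1 :=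
    Finset.card_eq_one.mpr ⟨1, by ext g; simp⟩
  rw [hfin] at hsum
  subst hS
  rw [hcount] at hsum
  nlinarith [Nat.zero_le (k * m), Nat.zero_le (m * m), hm1]

end Cfsg.Agent.Lib.Helper6
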