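import Cfsg.Agent.Lib.Helper6.Dih

set_option autoImplicit false

namespace Cfsg.Agent.Lib.Helper6

variable {G : Type*} [Group G]

/-- The number of ordered pairs of involutions with product `g`. -/
noncomputable def beta (g : G) : ℕ :=
  Nat.card {p : G × G // orderOf p.1 = 2 ∧ orderOf p.2 = 2 ∧ p.1 * p.2 = g}

/-- The number of involutions. -/
noncomputable def numInv (G : Type*) [Group G] : ℕ := Nat.card {t : G // orderOf t = 2}

theorem pair_semiconj {u v : G} (hu : orderOf u = 2) (hv : orderOf v = 2) :
    SemiconjBy u (u * v) (u * v)⁻¹ := semiconj_mul hu hv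

theorem pair_ne {u v : G} (hv : orderOf v = 2) : u ≠ u * v := by
  intro h
  have h1 : v = 1 := by
    have := congrArg (fun z => u⁻¹ * z) h
    simpa using this.symm
  exact ne_one_of_orderOf_two hv h1

theorem sum_beta [Fintype G] : ∑ g : G, beta g = numInv G ^ 2 := by
  classical
  unfold beta numInv
  rw [← Nat.card_sigma, pow_two, ← Nat.card_prod]
  refine Nat.card_congr ?_
  exact
  { toFun := fun s => (⟨s.2.1.1, s.2.2.1⟩, ⟨s.2.1.2, s.2.2.2.1⟩)
    invFun := fun ab => ⟨ab.1.1 * ab.2.1, ⟨(ab.1.1, ab.2.1), ab.1.2, ab.2.2, rfl⟩⟩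
    left_inv := by
      rintro ⟨g, ⟨⟨u, v⟩, hu, hv, rfl⟩⟩
      rfl
    right_inv := by
      rintro ⟨⟨u, hu⟩, ⟨v, hv⟩⟩
      rfl }

theorem beta_one : beta (1 : G) = numInv G := by
  unfold beta numInv
  refine Nat.card_congr ?_
  exact
  { toFun := fun p => ⟨p.1.1, p.2.1⟩
    invFun := fun t => ⟨(t.1, t.1), t.2, t.2, mul_self_of_orderOf_two t.2⟩
    left_inv := by
      rintro ⟨⟨u, v⟩, hu, hv, huv⟩
      simp only at hu hv huv ⊢
      have : v = u := by
        have h1 := eq_inv_of_mul_eq_one_right huv
        rw [h1, inv_of_orderOf_two hu]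
      subst this
      rfl
    right_inv := by
      rintro ⟨t, ht⟩
      rfl }

theorem beta_inj (g : G)
    (p q : {p : G × G // orderOf p.1 = 2 ∧ orderOf p.2 = 2 ∧ p.1 * p.2 = g})
    (h : p.1.1 = q.1.1) : p = q := by
  obtain ⟨⟨u, v⟩, hu, hv, huv⟩ := p
  obtain ⟨⟨u', v'⟩, hu', hv', huv'⟩ := q
  simp only at h hu hv huv hu' hv' huv'
  subst h
  have : v = v' := by
    rw [← huv'] at huv
    exact mul_left_cancel huv
  subst this
  rfl

theorem beta_sc (g : G)
    (p : {p : G × G // orderOf p.1 = 2 ∧ orderOf p.2 = 2 ∧ p.1 * p.2 = g}) :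
    SemiconjBy p.1.1 g g⁻¹ := by
  have h := semiconj_mul p.2.1 p.2.2.1
  rwa [p.2.2.2] at h

theorem beta_le [Finite G] (g : G) : beta g ≤ Nat.card (Subgroup.centralizer ({g} : Set G)) := by
  unfold beta
  by_cases hne : Nonempty {p : G × G // orderOf p.1 = 2 ∧ orderOf p.2 = 2 ∧ p.1 * p.2 = g}
  · obtain ⟨p₀⟩ := hne
    let f : {p : G × G // orderOf p.1 = 2 ∧ orderOf p.2 = 2 ∧ p.1 * p.2 = g} →
        Subgroup.centralizer ({g} : Set G) := fun p => ⟨p₀.1.1⁻¹ * p.1.1, by
      rw [Subgroup.mem_centralizer_singleton_iff]
      exact ((beta_sc g p₀).inv_symm_left.mul_left (beta_sc g p)).eq⟩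
    refine Nat.card_le_card_of_injective f ?_
    intro p q hpq
    apply beta_inj
    have := congrArg Subtype.val hpq
    simp only [f] at this
    exact mul_left_cancel this
  · rw [not_nonempty_iff] at hne
    simp

theorem beta_add_two_le [Finite G] (g : G) (hg : orderOf g = 2) :
    beta g + 2 ≤ Nat.card (Subgroup.centralizer ({g} : Set G)) := by
  classical
  unfold beta
  let f : Option (Option {p : G × G // orderOf p.1 = 2 ∧ orderOf p.2 = 2 ∧ p.1 * p.2 = g}) →
      Subgroup.centralizer ({g} : Set G) := fun o => match o with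
    | none => 1
    | some none => ⟨g, Subgroup.mem_centralizer_singleton_iff.mpr rfl⟩
    | some (some p) => ⟨p.1.1, by
        rw [Subgroup.mem_centralizer_singleton_iff]
        have h := beta_sc g p
        rw [inv_of_orderOf_two hg] at h
        exact h.eq⟩
  have hf : Function.Injective f := by
    rintro (_ | _ | p) (_ | _ | q) h
    · rfl
    · exfalso
      have := congrArg Subtype.val h
      simp only [f] at this
      exact ne_one_of_orderOf_two hg this.symm
    · exfalso
      have := congrArg Subtype.val h
      simp only [f] at this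
      exact ne_one_of_orderOf_two q.2.1 this.symm
    · exfalso
      have := congrArg Subtype.val h
      simp only [f] at this
      exact ne_one_of_orderOf_two hg this
    · rfl
    · exfalso
      have := congrArg Subtype.val h
      simp only [f] at this
      have h2 : q.1.1 ≠ q.1.1 * q.1.2 := pair_ne q.2.2.1
      rw [q.2.2.2] at h2
      exact h2 this.symm
    · exfalso
      have := congrArg Subtype.val h
      simp only [f] at this
      exact ne_one_of_orderOf_two p.2.1 this
    · exfalso
      have := congrArg Subtype.val h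
      simp only [f] at this
      have h2 : p.1.1 ≠ p.1.1 * p.1.2 := pair_ne p.2.2.1
      rw [p.2.2.2] at h2
      exact h2 this
    · have := congrArg Subtype.val h
      simp only [f] at this
      rw [beta_inj g p q this]
  have := Nat.card_le_card_of_injective f hf
  rwa [Finite.card_option, Finite.card_option] at this

/-- The extended centralizer of `g`: elements conjugating `g` to `g` or `g⁻¹`. -/
def extCentralizer (g : G) : Subgroup G where
  carrier := {h | SemiconjBy h g g ∨ SemiconjBy h g g⁻¹}
  one_mem' := Or.inl (SemiconjBy.one_left g)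
  mul_mem' := by
    rintro a b (ha | ha) (hb | hb)
    · exact Or.inl (ha.mul_left hb)
    · exact Or.inr (ha.inv_right.mul_left hb)
    · exact Or.inr (ha.mul_left hb)
    · refine Or.inl ?_
      have h1 : SemiconjBy a g⁻¹ g := by simpa using ha.inv_right
      exact h1.mul_left hb
  inv_mem' := by
    rintro a (ha | ha)
    · exact Or.inl ha.inv_symm_left
    · refine Or.inr ?_
      have h1 : SemiconjBy a g⁻¹ g := by simpa using ha.inv_right
      exact h1.inv_symm_left

theorem centralizer_le_extCentralizer (g : G) :
    Subgroup.centralizer ({g} : Set G) ≤ extCentralizer g := by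
  intro h hh
  rw [Subgroup.mem_centralizer_singleton_iff] at hh
  exact Or.inl hh

theorem card_extCentralizer [Finite G] (g : G) (hg : g⁻¹ ≠ g) (u : G) (hu : SemiconjBy u g g⁻¹) :
    Nat.card (extCentralizer g) = 2 * Nat.card (Subgroup.centralizer ({g} : Set G)) := by
  classical
  rw [two_mul, ← Nat.card_sum]
  refine Nat.card_congr ?_
  have hdisj : ∀ h : G, SemiconjBy h g g → ¬ SemiconjBy h g g⁻¹ := by
    intro h h1 h2
    apply hg
    have := h1.eq.symm.trans h2.eq
    exact (mul_right_cancel this).symm
  exact
  { toFun := fun h =>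
      if hc : SemiconjBy h.1 g g then Sum.inl ⟨h.1, Subgroup.mem_centralizer_singleton_iff.mpr hc.eq⟩
      else Sum.inr ⟨u⁻¹ * h.1, by
        rw [Subgroup.mem_centralizer_singleton_iff]
        have h2 : SemiconjBy h.1 g g⁻¹ := h.2.resolve_left hc
        exact (hu.inv_symm_left.mul_left h2).eq⟩
    invFun := fun s => match s with
      | Sum.inl c => ⟨c.1, Or.inl (Subgroup.mem_centralizer_singleton_iff.mp c.2)⟩
      | Sum.inr c => ⟨u * c.1, Or.inr (hu.mul_left (Subgroup.mem_centralizer_singleton_iff.mp c.2))⟩
    left_inv := by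
      rintro ⟨h, hh⟩
      by_cases hc : SemiconjBy h g g
      · simp [hc]
      · simp [hc]
    right_inv := by
      rintro (⟨c, hc⟩ | ⟨c, hc⟩)
      · have hc' : SemiconjBy c g g := Subgroup.mem_centralizer_singleton_iff.mp hc
        simp [hc']
      · have hc' : SemiconjBy c g g := Subgroup.mem_centralizer_singleton_iff.mp hc
        have h2 : ¬ SemiconjBy (u * c) g g := fun h => hdisj _ h (hu.mul_left hc')
        simp [h2] }

/-- If `g` is not an involution or the identity and some pair of involutions has product `g`,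
the centralizer of `g` has index 2 in a subgroup. -/
theorem exists_double_centralizer [Finite G] (g : G) (hg : g * g ≠ 1) (hb : beta g ≠ 0) :
    ∃ K : Subgroup G, Subgroup.centralizer ({g} : Set G) ≤ K ∧
      Nat.card K = 2 * Nat.card (Subgroup.centralizer ({g} : Set G)) := by
  have hne : Nonempty {p : G × G // orderOf p.1 = 2 ∧ orderOf p.2 = 2 ∧ p.1 * p.2 = g} := by
    by_contra h
    rw [not_nonempty_iff] at h
    apply hb
    unfold beta
    simp
  obtain ⟨p⟩ := hne
  have hg' : g⁻¹ ≠ g := by
    intro h
    apply hg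
    nth_rewrite 1 [← h]
    exact inv_mul_cancel g
  exact ⟨extCentralizer g, centralizer_le_extCentralizer g,
    card_extCentralizer g hg' p.1.1 (beta_sc g p)⟩

/-- The class of an involution injects into the set of involutions. -/
theorem index_centralizer_le_numInv [Finite G] (t : G) (ht : orderOf t = 2) :
    (Subgroup.centralizer ({t} : Set G)).index ≤ numInv G := by
  unfold numInv
  rw [Subgroup.index_eq_card]
  let f : G ⧸ Subgroup.centralizer ({t} : Set G) → {s : G // orderOf s = 2} := fun q =>
    Quotient.liftOn' q (fun g => (⟨g * t * g⁻¹, by rw [orderOf_conj_eq]; exact ht⟩ :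
      {s : G // orderOf s = 2})) (by
        intro a b hab
        rw [QuotientGroup.leftRel_apply, Subgroup.mem_centralizer_singleton_iff] at hab
        apply Subtype.ext
        simp only
        have h2 : b * t * b⁻¹ = a * (a⁻¹ * b * t) * b⁻¹ := by group
        rw [h2, hab]
        group)
  refine Nat.card_le_card_of_injective f ?_
  intro q₁ q₂ h
  induction q₁ using QuotientGroup.induction_on with
  | H a =>
    induction q₂ using QuotientGroup.induction_on with
    | H b =>
      have h' : a * t * a⁻¹ = b * t * b⁻¹ := congrArg Subtype.val h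
      rw [QuotientGroup.eq, Subgroup.mem_centralizer_singleton_iff]
      have h2 : t = a⁻¹ * (b * t * b⁻¹) * a := by rw [← h']; group
      nth_rewrite 2 [h2]
      group

theorem numInv_pos [Finite G] (h : Even (Nat.card G)) : 0 < numInv G := by
  unfold numInv
  obtain ⟨t, ht⟩ := exists_prime_orderOf_dvd_card' 2 (even_iff_two_dvd.mp h)
  exact Nat.card_pos_iff.mpr ⟨⟨⟨t, ht⟩⟩, inferInstance⟩

theorem numInv_add_one_le [Finite G] : numInv G + 1 ≤ Nat.card G := by
  classical
  unfold numInv
  rw [← Finite.card_option]
  let f : Option {t : G // orderOf t = 2} → G := fun o => match o with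
    | none => 1
    | some t => t.1
  refine Nat.card_le_card_of_injective f ?_
  rintro (_ | a) (_ | b) h
  · rfl
  · exact absurd h.symm (ne_one_of_orderOf_two b.2)
  · exact absurd h (ne_one_of_orderOf_two a.2)
  · simp only [f] at h
    rw [Subtype.ext h]

end Cfsg.Agent.Lib.Helper6
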