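import Cfsg.Agent.Lib.Helper70.D11Defs
import Mathlib

set_option autoImplicit false

namespace Cfsg.Agent.Lib.Helper6.D11

open Equiv Cfsg.Agent.Lib.Helper70.D11
open Fin.NatCast Fin.CommRing

theorem nsg_c0_pow_apply (j : ℕ) (x : Fin 11) : (c0 ^ j) x = x + (j : Fin 11) := by
  induction j generalizing x with
  | zero => simp
  | succ k ih =>
    rw [pow_succ, Perm.mul_apply, ih]
    have h1 : c0 x = x + 1 := rfl
    rw [h1]
    push_cast
    ring

theorem nsg_card_dvd_fact (G : Subgroup P11) : Nat.card G ∣ 39916800 := by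
  have h := Subgroup.card_subgroup_dvd_card G
  have h2 : Nat.card P11 = 39916800 := by
    rw [Nat.card_eq_fintype_card, Fintype.card_perm, Fintype.card_fin]
    rfl
  rwa [h2] at h

theorem c0_mem_of_normal (G H : Subgroup P11) (hHG : H ≤ G)
    (hnorm : ∀ g ∈ G, ∀ h ∈ H, g * h * g⁻¹ ∈ H) (hc : c0 ∈ G) (hne : ∃ h ∈ H, h ≠ 1) : c0 ∈ H := by
  classical
  -- G is transitive
  have htr : MulAction.IsPretransitive G (Fin 11) := by
    refine ⟨fun x y => ?_⟩
    refine ⟨⟨c0 ^ ((y - x : Fin 11) : ℕ), G.pow_mem hc _⟩, ?_⟩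
    show (c0 ^ ((y - x : Fin 11) : ℕ)) x = y
    rw [nsg_c0_pow_apply]
    simp
  have hprim : MulAction.IsPreprimitive G (Fin 11) := by
    apply MulAction.IsPreprimitive.of_prime_card
    rw [Nat.card_eq_fintype_card, Fintype.card_fin]
    norm_num
  let N : Subgroup G := H.subgroupOf G
  have hNn : N.Normal := by
    refine ⟨fun n hn g => ?_⟩
    rw [Subgroup.mem_subgroupOf] at hn ⊢
    exact hnorm g g.2 n hn
  have hfix : MulAction.fixedPoints N (Fin 11) ≠ Set.univ := by
    obtain ⟨h, hh, hh1⟩ := hne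
    intro hall
    apply hh1
    ext x
    have hx : x ∈ MulAction.fixedPoints N (Fin 11) := by rw [hall]; trivial
    have := hx ⟨⟨h, hHG hh⟩, by rw [Subgroup.mem_subgroupOf]; exact hh⟩
    simpa using congrArg Fin.val this
  have hNtr : MulAction.IsPretransitive N (Fin 11) :=
    MulAction.IsQuasiPreprimitive.isPretransitive_of_normal hfix
  -- 11 divides |N|
  have h11N : 11 ∣ Nat.card N := by
    have h1 := MulAction.card_orbit_mul_card_stabilizer_eq_card_group N (0 : Fin 11)
    have h2 : MulAction.orbit N (0 : Fin 11) = Set.univ := MulAction.orbit_eq_univ N 0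
    have h3 : Nat.card (MulAction.orbit N (0 : Fin 11)) = 11 := by
      rw [h2, Nat.card_coe_set_eq, Set.ncard_univ, Nat.card_eq_fintype_card, Fintype.card_fin]
    rw [Nat.card_eq_fintype_card] at h3
    rw [h3] at h1
    rw [Nat.card_eq_fintype_card]
    exact Dvd.intro _ h1
  have : Fact (Nat.Prime 11) := ⟨by norm_num⟩
  obtain ⟨y, hy⟩ := exists_prime_orderOf_dvd_card' (G := N) 11 h11N
  -- Sylow subgroups of G
  have hGd := nsg_card_dvd_fact G
  have h11G : 11 ∣ Nat.card G := h11N.trans (Subgroup.card_subgroup_dvd_card N)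
  have h121 : ¬ 121 ∣ Nat.card G := fun h => by
    have := h.trans hGd
    norm_num at this
  have hfac : (Nat.card G).factorization 11 = 1 := by
    have hpos : Nat.card G ≠ 0 := Nat.card_pos.ne'
    have h1 : 1 ≤ (Nat.card G).factorization 11 :=
      (Nat.Prime.dvd_iff_one_le_factorization (by norm_num) hpos).mp h11G
    have h2 : ¬ 2 ≤ (Nat.card G).factorization 11 := fun h => by
      apply h121
      have := (Nat.Prime.pow_dvd_iff_le_factorization (by norm_num : Nat.Prime 11) hpos (k := 2)).mpr h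
      simpa using this
    omega
  have hcy : Nat.card (Subgroup.zpowers (y : G)) = 11 := by
    rw [Nat.card_zpowers, Subgroup.orderOf_coe, hy]
  have hc0ord : orderOf (⟨c0, hc⟩ : G) = 11 := by
    rw [← Subgroup.orderOf_coe]
    show orderOf c0 = 11
    apply orderOf_eq_prime
    · ext x
      rw [nsg_c0_pow_apply]
      simp
    · intro h
      have := congrArg (fun f : P11 => f 0) h
      revert this
      decide
  have hcc : Nat.card (Subgroup.zpowers (⟨c0, hc⟩ : G)) = 11 := by
    rw [Nat.card_zpowers, hc0ord]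
  let P1 : Sylow 11 G := Sylow.ofCard (Subgroup.zpowers (y : G)) (by rw [hcy, hfac, pow_one])
  let P2 : Sylow 11 G := Sylow.ofCard (Subgroup.zpowers (⟨c0, hc⟩ : G)) (by rw [hcc, hfac, pow_one])
  obtain ⟨g, hg⟩ := MulAction.exists_smul_eq G P1 P2
  have hmem : (⟨c0, hc⟩ : G) ∈ (P2 : Subgroup G) := by
    show (⟨c0, hc⟩ : G) ∈ Subgroup.zpowers (⟨c0, hc⟩ : G)
    exact Subgroup.mem_zpowers _
  rw [← hg, Sylow.coe_subgroup_smul, Subgroup.mem_pointwise_smul_iff_inv_smul_mem] at hmem
  have hmem2 : g⁻¹ * (⟨c0, hc⟩ : G) * g ∈ Subgroup.zpowers (y : G) := by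
    have h0 : (MulAut.conj g)⁻¹ • (⟨c0, hc⟩ : G) = g⁻¹ * (⟨c0, hc⟩ : G) * g := by
      rw [← map_inv, MulAut.smul_def, MulAut.conj_apply, inv_inv]
    rw [← h0]
    exact hmem
  have hzN : Subgroup.zpowers (y : G) ≤ N := by
    rw [Subgroup.zpowers_le]
    exact y.2
  have h3 := hzN hmem2
  have h4 := hNn.conj_mem _ h3 g
  have h5 : g * (g⁻¹ * (⟨c0, hc⟩ : G) * g) * g⁻¹ = ⟨c0, hc⟩ := by
    group
  rw [h5, Subgroup.mem_subgroupOf] at h4
  exact h4

end Cfsg.Agent.Lib.Helper6.D11
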