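import Mathlib
import Cfsg.Agent.Lib.Helper11.F15Def

/-!
S1615 piece CNT (poster helper11): the commuting graph on a primitive class of 3-transpositions
with `λ = 0` is regular, triangle-free, with constant `μ`.
-/

set_option autoImplicit false

namespace Cfsg.Agent.Lib.Helper6.F15

open Cfsg Cfsg.Agent.Lib.Helper11

variable {G : Type*} [Group G] {D : Set G}

theorem ttNb_ncard_conj (hD : IsThreeTranspositionClass D) {u x : G} (hu : u ∈ D) (hx : x ∈ D) :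
    (ttNb D u).ncard = (ttNb D x).ncard := by
  obtain ⟨g, hg⟩ := tt_exists_conj hD hu hx
  have hg' : ttcj g u = x := hg
  apply ttcj_ncard g
  · rintro y ⟨hy, hyu, hc⟩
    refine ⟨ttcj_mem hD hy g, ?_, ?_⟩
    · intro h
      apply hyu
      rw [← hg'] at h
      exact ttcj_inj h
    · rw [← hg']
      exact (ttcj_commute_iff g u y).mpr hc
  · rintro y ⟨hy, hyx, hc⟩
    refine ⟨ttcj_mem hD hy g⁻¹, ?_, ?_⟩
    · intro h
      apply hyx
      rw [← hg', ← h, ttcj_cancel_inv]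
    · have h1 := (ttcj_commute_iff g⁻¹ x y).mpr hc
      rwa [← hg', ttcj_inv_cancel] at h1

theorem nb_image (u : D) :
    Subtype.val '' {v : D | u ≠ v ∧ Commute (u : G) (v : G)} = ttNb D (u : G) := by
  ext y
  constructor
  · rintro ⟨v, ⟨hne, hc⟩, rfl⟩
    exact ⟨v.2, fun h => hne (Subtype.ext h.symm), hc⟩
  · rintro ⟨hy, hne, hc⟩
    exact ⟨⟨y, hy⟩, ⟨fun h => hne (congrArg Subtype.val h).symm, hc⟩, rfl⟩

theorem common_image (u v : D) (huv : ¬ Commute (u : G) (v : G)) :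
    Subtype.val '' {w : D | (u ≠ w ∧ Commute (u : G) (w : G)) ∧
      (v ≠ w ∧ Commute (v : G) (w : G))} = ttM D (u : G) (v : G) := by
  ext y
  constructor
  · rintro ⟨w, ⟨⟨-, hc1⟩, ⟨-, hc2⟩⟩, rfl⟩
    exact ⟨w.2, hc1.symm, hc2.symm⟩
  · rintro ⟨hy, hc1, hc2⟩
    refine ⟨⟨y, hy⟩, ⟨⟨?_, hc1.symm⟩, ⟨?_, hc2.symm⟩⟩, rfl⟩
    · intro h
      apply huv
      have h1 : (u : G) = y := congrArg Subtype.val h
      rw [h1]
      exact hc2
    · intro h
      apply huv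
      have h1 : (v : G) = y := congrArg Subtype.val h
      rw [h1]
      exact hc1.symm

theorem f15_cnt {G : Type*} [Group G] [Finite G] {D : Set G} (h : TTPrim D)
    (hlam : ∀ d ∈ D, ∀ a ∈ ttNb D d, ∀ b ∈ ttNb D d, Commute a b → a = b)
    {x p q : G} (hx : x ∈ D) (hp : p ∈ D) (hq : q ∈ D) (hpq : ¬ Commute p q) :
    (∀ u : D, {v : D | u ≠ v ∧ Commute (u : G) (v : G)}.ncard = (ttNb D x).ncard) ∧
    (∀ u v w : D, (u ≠ v ∧ Commute (u : G) (v : G)) → (u ≠ w ∧ Commute (u : G) (w : G)) →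
      ¬ (v ≠ w ∧ Commute (v : G) (w : G))) ∧
    (∀ u v : D, u ≠ v → ¬ (u ≠ v ∧ Commute (u : G) (v : G)) →
      {w : D | (u ≠ w ∧ Commute (u : G) (w : G)) ∧ (v ≠ w ∧ Commute (v : G) (w : G))}.ncard =
        (ttM D p q).ncard) ∧
    1 ≤ (ttM D p q).ncard ∧ (ttM D p q).ncard ≤ (ttNb D x).ncard := by
  have hD := h.1
  refine ⟨?_, ?_, ?_, ?_, ?_⟩
  · intro u
    rw [← Set.ncard_image_of_injective _ Subtype.val_injective, nb_image,
      ttNb_ncard_conj hD u.2 hx]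
  · rintro u v w ⟨huv, hcuv⟩ ⟨huw, hcuw⟩ ⟨hvw, hcvw⟩
    apply hvw
    apply Subtype.ext
    exact hlam u.1 u.2 v.1 ⟨v.2, fun e => huv (Subtype.ext e.symm), hcuv⟩ w.1
      ⟨w.2, fun e => huw (Subtype.ext e.symm), hcuw⟩ hcvw
  · intro u v huv hnot
    have hnc : ¬ Commute (u : G) (v : G) := fun hc => hnot ⟨huv, hc⟩
    rw [← Set.ncard_image_of_injective _ Subtype.val_injective, common_image u v hnc]
    exact ttM_ncard hD (tt_C h u.2 v.2 hp hq hnc hpq)
  · obtain ⟨y, hy, hyp, hyq⟩ := tt_Y h hp hq hpq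
    have hne : (ttM D p q).Nonempty := ⟨y, hy, hyp, hyq⟩
    exact (Set.ncard_pos (Set.toFinite _)).mpr hne
  · rw [← ttNb_ncard_conj hD hp hx]
    apply Set.ncard_le_ncard _ (Set.toFinite _)
    rintro y ⟨hy, hyp, hyq⟩
    refine ⟨hy, ?_, hyp.symm⟩
    intro e
    apply hpq
    rw [← e]
    exact hyq

end Cfsg.Agent.Lib.Helper6.F15
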