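import Mathlib
import Cfsg.Agent.Lib.Helper96.HyDefs
import Cfsg.Agent.Lib.Helper51.HypPairs
import Cfsg.Agent.Lib.Helper54.OrthSpin
import Cfsg.Agent.Lib.Helper54.EobQ
import Cfsg.Prelude.Def_GeometricClasses
import Cfsg.Prelude.Def_Classical

/-!
Project HY (S5992, helper96), piece OMEGA: an isometry of `quadFormOdd` of odd order lies in
`omegaGL`.
-/

set_option autoImplicit false
set_option linter.unusedSectionVars false
set_option linter.unusedVariables false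

namespace Cfsg.Agent.Lib.Helper6.Hy

open Module Polynomial Cfsg.Agent.Lib.Helper96.Sp Cfsg.Agent.Lib.Helper96.Hy
  Cfsg.Agent.Lib.Helper47

universe u

open Matrix
open scoped MatrixGroups

variable {F : Type u} [Field F] [Fintype F]

-- PIECE OMEGA
theorem mem_omegaGL_of_odd (h2 : (2 : F) ≠ 0) (d : ℕ) (x : GL (Unit ⊕ (Fin d ⊕ Fin d)) F)
    (hx : ∀ v, Cfsg.quadFormOdd d F ((x : Matrix (Unit ⊕ (Fin d ⊕ Fin d))
      (Unit ⊕ (Fin d ⊕ Fin d)) F) *ᵥ v) = Cfsg.quadFormOdd d F v)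
    (r : ℕ) (hr : Odd r) (hxr : x ^ r = 1) :
    x ∈ Cfsg.Geo.omegaGL (Cfsg.quadFormOdd d F) := by
  classical
  rw [← Cfsg.Agent.Lib.Helper51.coe_QOdd] at hx ⊢
  have hF : ringChar F ≠ 2 := by
    intro h
    apply h2
    have h3 : ((ringChar F : ℕ) : F) = 0 := ringChar.Nat.cast_ringChar
    rw [h] at h3
    exact_mod_cast h3
  have hQ := Cfsg.Agent.Lib.Helper54.EobQ.polarSep_odd (F := F) (m := d) h2
  have hxmem : x ∈ Cfsg.isometryGroup F ⇑(Cfsg.Agent.Lib.Helper51.QOdd d F) := by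
    intro u v
    exact hx u
  obtain ⟨k, hk⟩ := hr
  set g : ↥(Cfsg.isometryGroup F ⇑(Cfsg.Agent.Lib.Helper51.QOdd d F)) := ⟨x, hxmem⟩ with hg
  have hgr : g ^ r = 1 := by
    apply Subtype.ext
    rw [SubgroupClass.coe_pow]
    exact hxr
  have hsq : g = (g ^ (k + 1)) ^ 2 := by
    rw [← pow_mul]
    have : (k + 1) * 2 = r + 1 := by omega
    rw [this, pow_succ, hgr, one_mul]
  have hdet : Cfsg.Agent.Lib.Helper54.detO (Cfsg.Agent.Lib.Helper51.QOdd d F) g = 1 := by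
    rw [hsq, map_pow]
    obtain ⟨vs, hvs, e⟩ := Cfsg.Agent.Lib.Helper54.exists_reflList
      (Cfsg.Agent.Lib.Helper51.QOdd d F) h2 hQ (g ^ (k + 1))
    rw [e, Cfsg.Agent.Lib.Helper54.detO_reflList, ← pow_mul, mul_comm, pow_mul]
    simp
  have hχ : Cfsg.Agent.Lib.Helper51.spinChar (Cfsg.Agent.Lib.Helper51.QOdd d F) 1 g = 1 := by
    rw [hsq, map_pow]
    exact Int.units_sq _
  have hmem := Cfsg.Agent.Lib.Helper54.mem_commutator_of_det_spin
    (Cfsg.Agent.Lib.Helper51.QOdd d F) hF hQ g hdet hχ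
  exact ⟨g, hmem, rfl⟩

end Cfsg.Agent.Lib.Helper6.Hy
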