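import Mathlib
import Cfsg.Agent.Lib.Helper72.JLDefs
import Cfsg.Agent.Lib.Helper82.JcOCPC

/-! Project JL (helper72, S2942), piece VAB: the normal closure `V` of `Ω₁(Z(T))` lies in
`Ω₁(Z(O₂(X)))`. -/

set_option autoImplicit false

namespace Cfsg.Agent.Lib.Helper6.JL

open Cfsg.Agent.Lib.Helper72.JL Cfsg.Agent.Lib.Helper72.SC Cfsg.Agent.Lib.Helper78.Jc

universe u

/-- the central involutions of a normal subgroup form a normal subgroup -/
theorem vab_ocSub_normal {X : Type*} [Group X] (Q : Subgroup X) [hQ : Q.Normal] :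
    (Cfsg.Agent.Lib.Helper82.Jc.ocSub Q).Normal := by
  constructor
  intro z hz g
  rw [Cfsg.Agent.Lib.Helper82.Jc.mem_ocSub] at hz ⊢
  obtain ⟨hzQ, hzc, hz2⟩ := hz
  refine ⟨hQ.conj_mem z hzQ g, ?_, ?_⟩
  · intro x hx
    have h1 : g⁻¹ * x * g ∈ Q := by
      have := hQ.conj_mem x hx g⁻¹
      simpa using this
    have h2 := hzc _ h1
    calc g * z * g⁻¹ * x = g * (z * (g⁻¹ * x * g)) * g⁻¹ := by group
      _ = g * ((g⁻¹ * x * g) * z) * g⁻¹ := by rw [h2]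
      _ = x * (g * z * g⁻¹) := by group
  · calc g * z * g⁻¹ * (g * z * g⁻¹) = g * (z * z) * g⁻¹ := by group
      _ = 1 := by rw [hz2]; group

/-- a `2`-subgroup of odd index contains `O₂` -/
theorem vab_pCore_le {X : Type*} [Group X] [Finite X] (T : Subgroup X) (hT2 : IsPGroup 2 ↥T)
    (hTodd : Odd T.index) : Cfsg.pCore 2 X ≤ T := by
  have hQn : (Cfsg.pCore 2 X).Normal := Cfsg.Agent.Lib.Helper82.Jc.pCore_normal_aux 2 X
  have hQ2 : IsPGroup 2 (Cfsg.pCore 2 X) := Cfsg.Agent.Lib.Helper82.Jc.pCore_isPGroup_aux 2 X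
  have hsup : IsPGroup 2 (T ⊔ Cfsg.pCore 2 X : Subgroup X) := hT2.to_sup_of_normal_right hQ2
  have h1 : T.relIndex (T ⊔ Cfsg.pCore 2 X) ∣ T.index :=
    Subgroup.relIndex_dvd_index_of_le le_sup_left
  obtain ⟨k, hk⟩ := IsPGroup.iff_card.mp hsup
  have h2 : T.relIndex (T ⊔ Cfsg.pCore 2 X) ∣ 2 ^ k := by
    rw [← hk]
    exact Subgroup.relIndex_dvd_card _ _
  obtain ⟨j, -, hj⟩ := (Nat.dvd_prime_pow Nat.prime_two).mp h2
  have h3 : T.relIndex (T ⊔ Cfsg.pCore 2 X) = 1 := by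
    rcases Nat.eq_zero_or_pos j with h0 | hpos
    · rw [hj, h0, pow_zero]
    · exfalso
      have h4 : 2 ∣ T.index := by
        refine dvd_trans ?_ h1
        rw [hj]
        exact dvd_pow_self 2 (by omega)
      rcases hTodd with ⟨c, hc⟩
      omega
  have h5 := Subgroup.relIndex_eq_one.mp h3
  exact le_trans le_sup_right h5

theorem vab : VabStmt.{u} := by
  intro X _ _ T hS
  have hQn : (Cfsg.pCore 2 X).Normal := Cfsg.Agent.Lib.Helper82.Jc.pCore_normal_aux 2 X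
  have hQT : Cfsg.pCore 2 X ≤ T := vab_pCore_le T hS.hT2 hS.hTodd
  have hEn : (Cfsg.Agent.Lib.Helper82.Jc.ocSub (Cfsg.pCore 2 X)).Normal :=
    vab_ocSub_normal (Cfsg.pCore 2 X)
  have hZE : (Cfsg.omegaCenterOf T : Set X) ⊆
      (Cfsg.Agent.Lib.Helper82.Jc.ocSub (Cfsg.pCore 2 X) : Set X) := by
    intro z hz
    have hz' : z ∈ Cfsg.omegaCenterOf T := hz
    have hc : ∀ q ∈ Cfsg.pCore 2 X, z * q = q * z := fun q hq =>
      Cfsg.Agent.Lib.Helper82.Jc.oc_comm T z hz' q (hQT hq)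
    have hzC : z ∈ Subgroup.centralizer (Cfsg.pCore 2 X : Set X) := by
      rw [Subgroup.mem_centralizer_iff]
      intro q hq
      exact (hc q hq).symm
    show z ∈ Cfsg.Agent.Lib.Helper82.Jc.ocSub (Cfsg.pCore 2 X)
    rw [Cfsg.Agent.Lib.Helper82.Jc.mem_ocSub]
    exact ⟨hS.hchar hzC, hc, Cfsg.Agent.Lib.Helper82.Jc.oc_sq T z hz'⟩
  have hVE : VT T ≤ Cfsg.Agent.Lib.Helper82.Jc.ocSub (Cfsg.pCore 2 X) :=
    Subgroup.normalClosure_le_normal hZE
  have hmem : ∀ v ∈ VT T, v ∈ Cfsg.pCore 2 X ∧ (∀ x ∈ Cfsg.pCore 2 X, v * x = x * v) ∧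
      v * v = 1 := fun v hv =>
    (Cfsg.Agent.Lib.Helper82.Jc.mem_ocSub (Cfsg.pCore 2 X) v).mp (hVE hv)
  refine ⟨fun v hv => (hmem v hv).1, ?_, fun a ha => (hmem a ha).2.2, hQT, ?_⟩
  · intro a ha b hb
    exact (hmem a ha).2.1 b (hmem b hb).1
  · intro q hq v hv
    exact ((hmem v hv).2.1 q hq).symm

end Cfsg.Agent.Lib.Helper6.JL
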