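import Mathlib
import Cfsg.Agent.S0016
import Cfsg.Agent.Lib.Helper12.NormAbCyc
import Cfsg.Agent.Lib.Helper59.DStar
import Cfsg.Agent.Lib.Helper66.PAct

/-!
# Normal four-groups in 2-groups of rank at least 3 (helper6)

* `exists_normal_noncyclic` : a finite 2-group containing an elementary abelian subgroup of
  order 8 has a non-cyclic normal abelian subgroup.
* `exists_normal_four` : such a group has a normal four-group, given by a central involution `z`
  and an involution `w ∉ {1, z}` all of whose conjugates are `w` or `w * z`.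
* generic helpers on subgroups of exponent 2.
-/

set_option autoImplicit false

namespace Cfsg.Agent.Lib.Helper6

/-- involutions whose product is an involution commute -/
theorem comm_of_sq {G : Type*} [Group G] {a b : G} (ha : a ^ 2 = 1) (hb : b ^ 2 = 1)
    (hab : (a * b) ^ 2 = 1) : a * b = b * a := by
  have h1 : a * b * (a * b) = 1 := by rw [← sq]; exact hab
  have ha' : a * a = 1 := by rw [← sq]; exact ha
  have hb' : b * b = 1 := by rw [← sq]; exact hb
  have h2 : b * a = b * a * (a * b * (a * b)) := by rw [h1, mul_one]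
  rw [h2]
  calc a * b = (b * b) * (a * b) := by rw [hb', one_mul]
    _ = b * (a * a) * b * (a * b) := by rw [ha', mul_one]
    _ = b * a * (a * b * (a * b)) := by simp only [mul_assoc]

/-- the closure of a set of pairwise commuting involutions has exponent 2 -/
theorem sq_eq_one_of_mem_closure {G : Type*} [Group G] (s : Set G)
    (hc : ∀ a ∈ s, ∀ b ∈ s, a * b = b * a) (h2 : ∀ a ∈ s, a ^ 2 = 1) :
    ∀ g ∈ Subgroup.closure s, g ^ 2 = 1 := by
  have h1 : Subgroup.closure s ≤ Subgroup.centralizer s := by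
    rw [Subgroup.closure_le]
    intro a ha
    rw [SetLike.mem_coe, Subgroup.mem_centralizer_iff]
    intro b hb
    exact hc b hb a ha
  have h3 : Subgroup.closure s ≤ Subgroup.centralizer (Subgroup.closure s : Set G) := by
    rw [Subgroup.closure_le]
    intro a ha
    rw [SetLike.mem_coe, Subgroup.mem_centralizer_iff]
    intro b hb
    exact ((Subgroup.mem_centralizer_iff.mp (h1 hb)) a ha).symm
  intro g hg
  induction hg using Subgroup.closure_induction with
  | mem x hx => exact h2 x hx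
  | one => exact one_pow 2
  | mul x y hx hy ihx ihy =>
    have hxy : x * y = y * x := ((Subgroup.mem_centralizer_iff.mp (h3 hy)) x hx)
    rw [(show Commute x y from hxy).mul_pow, ihx, ihy, one_mul]
  | inv x hx ih => rw [inv_pow, ih, inv_one]

theorem isPGroup_two_of_sq {G : Type*} [Group G] (H : Subgroup G) (h : ∀ x ∈ H, x ^ 2 = 1) :
    IsPGroup 2 H := by
  intro g
  refine ⟨1, ?_⟩
  apply Subtype.ext
  rw [pow_one, Subgroup.coe_pow, Subgroup.coe_one]
  exact h g g.2

/-- a subgroup of exponent 2 with more than `2 ^ j` elements has at least `2 ^ (j+1)` -/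
theorem pow_succ_le_card_of_sq {G : Type*} [Group G] [Finite G] (H : Subgroup G)
    (h : ∀ x ∈ H, x ^ 2 = 1) (j : ℕ) (hj : 2 ^ j < Nat.card H) : 2 ^ (j + 1) ≤ Nat.card H := by
  obtain ⟨k, hk⟩ := (IsPGroup.iff_card).mp (isPGroup_two_of_sq H h)
  rw [hk] at hj ⊢
  have hjk : j < k := (Nat.pow_lt_pow_iff_right (by norm_num)).mp hj
  exact Nat.pow_le_pow_right (by norm_num) hjk

/-- a subgroup of exponent 2 with more than 4 elements contains a subgroup of order 8 -/
theorem exists_card_eight {G : Type*} [Group G] [Finite G] (B : Subgroup G)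
    (h : ∀ x ∈ B, x ^ 2 = 1) (h4 : 4 < Nat.card B) :
    ∃ K : Subgroup G, K ≤ B ∧ Nat.card K = 8 := by
  obtain ⟨k, hk⟩ := (IsPGroup.iff_card).mp (isPGroup_two_of_sq B h)
  have hk3 : 3 ≤ k := by
    by_contra hlt
    have h2 : k ≤ 2 := by omega
    have h3 : 2 ^ k ≤ 2 ^ 2 := Nat.pow_le_pow_right (by norm_num) h2
    omega
  have hdvd : 2 ^ 3 ∣ Nat.card B := by rw [hk]; exact pow_dvd_pow 2 hk3
  obtain ⟨K, hK⟩ := Sylow.exists_subgroup_card_pow_prime 2 hdvd
  refine ⟨K.map B.subtype, Subgroup.map_subtype_le K, ?_⟩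
  rw [Subgroup.card_subtype, hK]
  norm_num

theorem card_lt_of_lt' {G : Type*} [Group G] [Finite G] {H K : Subgroup G} (h : H < K) :
    Nat.card H < Nat.card K := by
  by_contra hcon
  exact h.ne (Subgroup.eq_of_le_of_card_ge h.le (not_lt.1 hcon))

/-- a subgroup of order 2 is generated by an involution -/
theorem exists_gen_of_card_two {A : Type*} [Group A] [Finite A] (H : Subgroup A)
    (hH : Nat.card H = 2) : ∃ h : A, h ≠ 1 ∧ h ^ 2 = 1 ∧ H = Subgroup.zpowers h := by
  have hne : H ≠ ⊥ := by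
    intro h
    rw [h, Subgroup.card_bot] at hH
    omega
  obtain ⟨h, hh, hh1⟩ : ∃ h ∈ H, h ≠ 1 := by
    by_contra hcon
    push Not at hcon
    exact hne ((Subgroup.eq_bot_iff_forall _).mpr hcon)
  have hh2 : h ^ 2 = 1 := by
    have h1 : orderOf h ∣ 2 := hH ▸ Subgroup.orderOf_dvd_natCard H hh
    exact orderOf_dvd_iff_pow_eq_one.mp h1
  refine ⟨h, hh1, hh2, ?_⟩
  symm
  apply Subgroup.eq_of_le_of_card_ge
  · rw [Subgroup.zpowers_le]; exact hh
  · rw [Nat.card_zpowers, orderOf_eq_prime hh2 hh1, hH]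

/-- the cyclic group generated by an involution -/
theorem mem_zpowers_of_sq {G : Type*} [Group G] {z : G} (hz2 : z ^ 2 = 1) {g : G}
    (hg : g ∈ Subgroup.zpowers z) : g = 1 ∨ g = z := by
  obtain ⟨k, rfl⟩ := Subgroup.mem_zpowers_iff.mp hg
  rcases Int.even_or_odd k with hk | hk
  · left; exact Helper12.zpow_eq_one_of_sq_of_even hz2 hk
  · right; exact Helper12.zpow_eq_self_of_sq_of_odd hz2 hk

/-- A finite 2-group containing an elementary abelian subgroup of order 8 has a non-cyclic
normal abelian subgroup. -/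
theorem exists_normal_noncyclic {S : Type*} [Group S] [Finite S] (hS : IsPGroup 2 S)
    (E : Subgroup S) (hE : Nat.card E = 8) (hE2 : ∀ e ∈ E, e ^ 2 = 1) :
    ∃ W : Subgroup S, W.Normal ∧ IsMulCommutative W ∧ ¬ IsCyclic W := by
  by_contra hcon
  have hnc : ∀ A : Subgroup S, A.Normal → IsMulCommutative A → IsCyclic A := by
    intro A hA hAc
    by_contra h
    exact hcon ⟨A, hA, hAc, h⟩
  obtain ⟨A, hAn, hAc, hmax⟩ := Helper59.exists_maximal_normal_abelian S
  have : Group.IsNilpotent S := hS.isNilpotent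
  have hC1 : Subgroup.centralizer (A : Set S) ≤ A :=
    Helper59.centralizer_le_of_maximal A hAn hAc hmax
  have hAcyc : IsCyclic A := hnc A hAn hAc
  obtain ⟨g, hg⟩ := hAcyc.exists_generator
  obtain ⟨a, ha_def⟩ : ∃ a : S, a = (g : S) := ⟨_, rfl⟩
  have hAz : Subgroup.zpowers a = A := by
    apply le_antisymm
    · rw [Subgroup.zpowers_le, ha_def]; exact g.2
    · intro x hx
      obtain ⟨k, hk⟩ := Subgroup.mem_zpowers_iff.mp (hg ⟨x, hx⟩)
      refine Subgroup.mem_zpowers_iff.mpr ⟨k, ?_⟩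
      have h := congrArg Subtype.val hk
      rw [ha_def]
      simpa using h
  have hC2 : A ≤ Subgroup.centralizer (A : Set S) :=
    Subgroup.le_centralizer_iff_isMulCommutative.mpr hAc
  have hC : Subgroup.centralizer (Subgroup.zpowers a : Set S) = Subgroup.zpowers a := by
    rw [hAz]; exact le_antisymm hC1 hC2
  obtain ⟨n, hn⟩ := (IsPGroup.iff_card).mp (hS.to_subgroup A)
  have hord : orderOf a = 2 ^ n := by rw [← Nat.card_zpowers, hAz, hn]
  have hE_le : 8 ≤ Nat.card S := by rw [← hE]; exact Subgroup.card_le_card_group E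
  have hn2 : 2 ≤ n := by
    by_contra hlt
    have hn1 : n ≤ 1 := by omega
    have hAcen : A ≤ Subgroup.center S := by
      rcases Nat.eq_zero_or_pos n with h0 | h0
      · have h1 : Nat.card A = 1 := by rw [hn, h0, pow_zero]
        rw [Subgroup.card_eq_one.mp h1]
        exact bot_le
      · have h1 : Nat.card A = 2 := by
          have h2 : n = 1 := by omega
          rw [hn, h2, pow_one]
        exact Helper66.normal_card_prime_le_center hS h1
    have htop : Subgroup.centralizer (A : Set S) = ⊤ := by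
      rw [Subgroup.centralizer_eq_top_iff_subset]; exact hAcen
    have h3 : (⊤ : Subgroup S) ≤ A := by rw [← htop]; exact hC1
    have hcard : Nat.card S ≤ Nat.card A := by
      rw [← Subgroup.card_top (G := S)]; exact Subgroup.card_le_of_le h3
    rw [hn] at hcard
    have h4 : 2 ^ n ≤ 2 ^ 1 := Nat.pow_le_pow_right (by norm_num) hn1
    omega
  have hidx : A.index ≤ 2 := by
    rw [← hAz]
    by_cases htop : Subgroup.zpowers a = ⊤
    · rw [htop, Subgroup.index_top]; norm_num
    · exact le_of_eq (Helper12.index_zpowers_eq_two_of_normal_abelian_cyclic hS hnc a n hn2 hord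
        (by rw [hAz]; exact hAn) hC htop)
  have hcyc : IsCyclic ↥(A ⊓ E : Subgroup S) :=
    isCyclic_of_injective (Subgroup.inclusion (inf_le_left : A ⊓ E ≤ A))
      (Subgroup.inclusion_injective _)
  have hexp : Monoid.exponent ↥(A ⊓ E : Subgroup S) ∣ 2 :=
    Monoid.exponent_dvd_of_forall_pow_eq_one (fun x => Subtype.ext (by
      rw [Subgroup.coe_pow, Subgroup.coe_one]; exact hE2 x x.2.2))
  have hcard2 : Nat.card ↥(A ⊓ E : Subgroup S) ≤ 2 := by
    rw [← IsCyclic.exponent_eq_card]; exact Nat.le_of_dvd (by norm_num) hexp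
  have h1 : (⊥ : Subgroup S).relIndex (A ⊓ E) * (A ⊓ E).relIndex E = (⊥ : Subgroup S).relIndex E :=
    Subgroup.relIndex_mul_relIndex _ _ _ bot_le inf_le_right
  rw [Subgroup.relIndex_bot_left, Subgroup.relIndex_bot_left, Subgroup.inf_relIndex_right, hE] at h1
  have h2 : A.relIndex E ≤ 2 := by
    have h3 : A.relIndex E ≤ A.relIndex ⊤ :=
      Subgroup.relIndex_le_of_le_right le_top (by
        rw [Subgroup.relIndex_top_right]; exact Subgroup.index_ne_zero_of_finite)
    rw [Subgroup.relIndex_top_right] at h3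
    exact h3.trans hidx
  nlinarith

/-- A finite 2-group containing an elementary abelian subgroup of order 8 has a normal
four-group `{1, z, w, w * z}` with `z` central. -/
theorem exists_normal_four {S : Type*} [Group S] [Finite S] (hS : IsPGroup 2 S)
    (E : Subgroup S) (hE : Nat.card E = 8) (hE2 : ∀ e ∈ E, e ^ 2 = 1) :
    ∃ z w : S, z ≠ 1 ∧ w ≠ 1 ∧ w ≠ z ∧ z ^ 2 = 1 ∧ w ^ 2 = 1 ∧ (∀ s : S, s * z = z * s) ∧
      ∀ s : S, s * w * s⁻¹ = w ∨ s * w * s⁻¹ = w * z := by
  obtain ⟨W, hWn, hWc, hWnc⟩ := exists_normal_noncyclic hS E hE hE2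
  have hcomm : ∀ a ∈ W, ∀ b ∈ W, a * b = b * a := fun a ha b hb =>
    setLike_mul_comm ha hb
  obtain ⟨u, v, huW, hvW, hu1, hv1, huv, hu2, hv2⟩ : ∃ u v : S, u ∈ W ∧ v ∈ W ∧ u ≠ 1 ∧ v ≠ 1 ∧
      u ≠ v ∧ u ^ 2 = 1 ∧ v ^ 2 = 1 := by
    by_contra hcon
    apply hWnc
    apply Cfsg.Agent.S0016.isCyclic_of_comm_of_unique 2 (hS.to_subgroup W)
      (fun a b => Subtype.ext (hcomm a a.2 b b.2))
    intro H K hH hK
    obtain ⟨h, hh1, hh2, rfl⟩ := exists_gen_of_card_two H hH
    obtain ⟨k, hk1, hk2, rfl⟩ := exists_gen_of_card_two K hK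
    by_cases hhk : h = k
    · rw [hhk]
    · exfalso
      apply hcon
      refine ⟨h, k, h.2, k.2, fun e => hh1 (Subtype.ext e), fun e => hk1 (Subtype.ext e),
        fun e => hhk (Subtype.ext e), ?_, ?_⟩
      · have h3 := congrArg Subtype.val hh2
        rwa [Subgroup.coe_pow] at h3
      · have h3 := congrArg Subtype.val hk2
        rwa [Subgroup.coe_pow] at h3
  let V : Subgroup S :=
    { carrier := {g | g ∈ W ∧ g ^ 2 = 1}
      mul_mem' := by
        rintro a b ⟨ha, ha2⟩ ⟨hb, hb2⟩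
        exact ⟨W.mul_mem ha hb, by
          rw [(show Commute a b from hcomm a ha b hb).mul_pow, ha2, hb2, one_mul]⟩
      one_mem' := ⟨W.one_mem, one_pow 2⟩
      inv_mem' := by
        rintro a ⟨ha, ha2⟩
        exact ⟨W.inv_mem ha, by rw [inv_pow, ha2, inv_one]⟩ }
  have hVn : V.Normal := ⟨fun g hg s => ⟨hWn.conj_mem g hg.1 s, by
    rw [conj_pow, hg.2, mul_one, mul_inv_cancel]⟩⟩
  have huV : u ∈ V := ⟨huW, hu2⟩
  have hvV : v ∈ V := ⟨hvW, hv2⟩
  have hVne : V ≠ ⊥ := by
    intro h
    rw [h, Subgroup.mem_bot] at huV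
    exact hu1 huV
  have hinf := Helper66.normal_inf_center_ne_bot hS hVne
  obtain ⟨z, hzmem, hz1⟩ : ∃ z ∈ V ⊓ Subgroup.center S, z ≠ 1 := by
    by_contra hcon
    push Not at hcon
    exact hinf ((Subgroup.eq_bot_iff_forall _).mpr hcon)
  have hzV : z ∈ V := hzmem.1
  have hzc : ∀ s : S, s * z = z * s := fun s => Subgroup.mem_center_iff.mp hzmem.2 s
  have hz2 : z ^ 2 = 1 := hzV.2
  have hZn : (Subgroup.zpowers z).Normal := ⟨fun g hg s => by
    rcases mem_zpowers_of_sq hz2 hg with rfl | rfl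
    · rw [mul_one, mul_inv_cancel]; exact Subgroup.one_mem _
    · rw [hzc s, mul_inv_cancel_right]; exact Subgroup.mem_zpowers g⟩
  obtain ⟨t, htV, htZ⟩ : ∃ t ∈ V, t ∉ Subgroup.zpowers z := by
    by_cases huz : u = z
    · refine ⟨v, hvV, fun h => ?_⟩
      rcases mem_zpowers_of_sq hz2 h with h' | h'
      · exact hv1 h'
      · exact huv (huz.trans h'.symm)
    · refine ⟨u, huV, fun h => ?_⟩
      rcases mem_zpowers_of_sq hz2 h with h' | h'
      · exact hu1 h'
      · exact huz h'
  have hπs : Function.Surjective (QuotientGroup.mk' (Subgroup.zpowers z)) :=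
    QuotientGroup.mk'_surjective _
  have hVbar : (V.map (QuotientGroup.mk' (Subgroup.zpowers z))).Normal := hVn.map _ hπs
  have hVbar_ne : V.map (QuotientGroup.mk' (Subgroup.zpowers z)) ≠ ⊥ := by
    intro h
    have h1 : (QuotientGroup.mk' (Subgroup.zpowers z)) t ∈
        V.map (QuotientGroup.mk' (Subgroup.zpowers z)) := Subgroup.mem_map_of_mem _ htV
    rw [h, Subgroup.mem_bot] at h1
    exact htZ ((QuotientGroup.eq_one_iff t).mp h1)
  have hQ : IsPGroup 2 (S ⧸ Subgroup.zpowers z) := hS.to_quotient _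
  have hinf2 := Helper66.normal_inf_center_ne_bot hQ hVbar_ne
  obtain ⟨q, hqmem, hq1⟩ : ∃ q ∈ V.map (QuotientGroup.mk' (Subgroup.zpowers z)) ⊓
      Subgroup.center (S ⧸ Subgroup.zpowers z), q ≠ 1 := by
    by_contra hcon
    push Not at hcon
    exact hinf2 ((Subgroup.eq_bot_iff_forall _).mpr hcon)
  obtain ⟨w, hwV, hwq⟩ := Subgroup.mem_map.mp hqmem.1
  have hwZ : w ∉ Subgroup.zpowers z := by
    intro h
    apply hq1
    rw [← hwq]
    exact (QuotientGroup.eq_one_iff w).mpr h
  refine ⟨z, w, hz1, fun h => hwZ (h ▸ Subgroup.one_mem _),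
    fun h => hwZ (h ▸ Subgroup.mem_zpowers z), hz2, hwV.2, hzc, ?_⟩
  intro s
  have hcen := Subgroup.mem_center_iff.mp hqmem.2 ((QuotientGroup.mk' (Subgroup.zpowers z)) s)
  have hmem : s * w * s⁻¹ * w⁻¹ ∈ Subgroup.zpowers z := by
    rw [← QuotientGroup.eq_one_iff]
    change (QuotientGroup.mk' (Subgroup.zpowers z)) (s * w * s⁻¹ * w⁻¹) = 1
    rw [map_mul, map_mul, map_mul, map_inv, map_inv, hwq, hcen, mul_inv_cancel_right,
      mul_inv_cancel]
  rcases mem_zpowers_of_sq hz2 hmem with h | h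
  · left; exact mul_inv_eq_one.mp h
  · right
    rw [mul_inv_eq_iff_eq_mul] at h
    rw [h]
    exact (hzc w).symm

end Cfsg.Agent.Lib.Helper6
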