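import Mathlib
import Cfsg.Prelude.Def_LocalEven
import Cfsg.Agent.Lib.Helper2.NPC
import Cfsg.Agent.Lib.Helper2.S4Sec
import Cfsg.Agent.Lib.Helper14.Coprime
import Cfsg.Agent.Lib.Helper72.Frattini
import Cfsg.Agent.Lib.Helper75.FrattiniAct

/-!
If `S₃` is involved in `N_G(T)/C_G(T)` for a `2`-subgroup `T`, then `S₄` is involved in `G`
(helper6, for S2759).
-/

set_option autoImplicit false

namespace Cfsg.Agent.Lib.Helper6

open Cfsg Equiv

section Four
variable {G : Type*} [Group G]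

theorem s4_four_mul (a b : G) (ha : a * a = 1) (hb : b * b = 1) (hab : a * b = b * a) :
    ∀ v w : G, (v = 1 ∨ v = a ∨ v = b ∨ v = a * b) → (w = 1 ∨ w = a ∨ w = b ∨ w = a * b) →
      (v * w = 1 ∨ v * w = a ∨ v * w = b ∨ v * w = a * b) := by
  have ha' : ∀ z : G, a * (a * z) = z := fun z => by rw [← mul_assoc, ha, one_mul]
  have hb' : ∀ z : G, b * (b * z) = z := fun z => by rw [← mul_assoc, hb, one_mul]
  have hba : b * a = a * b := hab.symm
  have hba' : ∀ z : G, b * (a * z) = a * (b * z) := fun z => by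
    rw [← mul_assoc, hba, mul_assoc]
  rintro v w (rfl | rfl | rfl | rfl) (rfl | rfl | rfl | rfl) <;>
    simp only [mul_assoc, ha, hb, ha', hb', hba, hba', mul_one, one_mul] <;> simp

theorem s4_four_sq (a b : G) (ha : a * a = 1) (hb : b * b = 1) (hab : a * b = b * a) :
    ∀ v : G, (v = 1 ∨ v = a ∨ v = b ∨ v = a * b) → v * v = 1 := by
  have ha' : ∀ z : G, a * (a * z) = z := fun z => by rw [← mul_assoc, ha, one_mul]
  have hb' : ∀ z : G, b * (b * z) = z := fun z => by rw [← mul_assoc, hb, one_mul]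
  have hba : b * a = a * b := hab.symm
  have hba' : ∀ z : G, b * (a * z) = a * (b * z) := fun z => by
    rw [← mul_assoc, hba, mul_assoc]
  rintro v (rfl | rfl | rfl | rfl) <;>
    simp only [mul_assoc, ha, hb, ha', hb', hba, hba', mul_one, one_mul]

/-- The four-group spanned by two commuting involutions. -/
def s4W (a b : G) (ha : a * a = 1) (hb : b * b = 1) (hab : a * b = b * a) : Subgroup G where
  carrier := {w | w = 1 ∨ w = a ∨ w = b ∨ w = a * b}
  mul_mem' := fun {v w} hv hw => s4_four_mul a b ha hb hab v w hv hw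
  one_mem' := Or.inl rfl
  inv_mem' := fun {v} hv => by
    have h : v⁻¹ = v := inv_eq_of_mul_eq_one_left (s4_four_sq a b ha hb hab v hv)
    show v⁻¹ = 1 ∨ v⁻¹ = a ∨ v⁻¹ = b ∨ v⁻¹ = a * b
    rw [h]; exact hv

theorem s4W_card (a b : G) (ha : a * a = 1) (hb : b * b = 1) (hab : a * b = b * a)
    (ha1 : a ≠ 1) (hb1 : b ≠ 1) (hne : a ≠ b) : Nat.card (s4W a b ha hb hab) = 4 := by
  have hainv : a⁻¹ = a := inv_eq_of_mul_eq_one_left ha
  have h1 : b ≠ a * b := by
    intro h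
    apply ha1
    have : 1 * b = a * b := by rw [one_mul]; exact h
    exact (mul_right_cancel this).symm
  have h2 : a ∉ ({b, a * b} : Set G) := by
    simp only [Set.mem_insert_iff, Set.mem_singleton_iff, not_or]
    refine ⟨hne, ?_⟩
    intro h
    apply hb1
    have : a * 1 = a * b := by rw [mul_one]; exact h
    exact (mul_left_cancel this).symm
  have h3 : (1 : G) ∉ ({a, b, a * b} : Set G) := by
    simp only [Set.mem_insert_iff, Set.mem_singleton_iff, not_or]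
    refine ⟨fun h => ha1 h.symm, fun h => hb1 h.symm, ?_⟩
    intro h
    apply hne
    have : b = a⁻¹ := (inv_eq_of_mul_eq_one_right h.symm).symm
    rw [this, hainv]
  have hcard' : ({1, a, b, a * b} : Set G).ncard = 4 := by
    rw [Set.ncard_insert_of_notMem h3, Set.ncard_insert_of_notMem h2, Set.ncard_pair h1]
  have hset : ((s4W a b ha hb hab : Subgroup G) : Set G) = {1, a, b, a * b} := by
    ext w
    simp only [Set.mem_insert_iff, Set.mem_singleton_iff]
    rfl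
  have : Nat.card (s4W a b ha hb hab) = Nat.card ((s4W a b ha hb hab : Subgroup G) : Set G) :=
    rfl
  rw [this, hset, Nat.card_coe_set_eq, hcard']

end Four

/-- Final step: an elementary abelian `2`-subgroup `V`, a `3`-element `x` normalizing `V` with
`x³ ∈ C(V)`, `x ∉ C(V)`, and a `2`-element `t` normalizing `V` and inverting `x`. -/
theorem s4_final {G : Type*} [Group G] [Finite G] (V : Subgroup G) (hV : ∀ v ∈ V, v * v = 1)
    (x t : G) (hxV : x ∈ Subgroup.normalizer (V : Set G))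
    (htV : t ∈ Subgroup.normalizer (V : Set G))
    (k m : ℕ) (hxk : x ^ 3 ^ k = 1) (htm : t ^ 2 ^ m = 1)
    (hx3 : x ^ 3 ∈ Subgroup.centralizer (V : Set G))
    (hxc : x ∉ Subgroup.centralizer (V : Set G))
    (htx : t * x * t⁻¹ = x⁻¹) : Involves (Equiv.Perm (Fin 4)) G := by
  have hVinv : ∀ v ∈ V, v⁻¹ = v := fun v hv => inv_eq_of_mul_eq_one_left (hV v hv)
  have hVcomm : ∀ a ∈ V, ∀ b ∈ V, a * b = b * a := by
    intro a ha b hb
    have h1 := hVinv (a * b) (mul_mem ha hb)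
    rw [mul_inv_rev, hVinv a ha, hVinv b hb] at h1
    exact h1.symm
  have hxcj : ∀ v ∈ V, x * v * x⁻¹ ∈ V := fun v hv =>
    (Subgroup.mem_normalizer_iff.mp hxV v).mp hv
  have htcj : ∀ v ∈ V, t * v * t⁻¹ ∈ V := fun v hv =>
    (Subgroup.mem_normalizer_iff.mp htV v).mp hv
  have hxinvcj : ∀ v ∈ V, x⁻¹ * v * x ∈ V := fun v hv =>
    (Subgroup.mem_normalizer_iff''.mp hxV v).mp hv
  have hx3c : ∀ v ∈ V, x * (x * (x * v * x⁻¹) * x⁻¹) * x⁻¹ = v := by
    intro v hv
    have h1 := Subgroup.mem_centralizer_iff.mp hx3 v hv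
    have e3 : x ^ 3 = x * x * x := by rw [pow_succ, pow_succ, pow_one]
    rw [e3] at h1
    calc x * (x * (x * v * x⁻¹) * x⁻¹) * x⁻¹ = ((x * x * x) * v) * (x * x * x)⁻¹ := by group
      _ = (v * (x * x * x)) * (x * x * x)⁻¹ := by rw [h1]
      _ = v := by group
  -- the image of `v ↦ v · v^x`
  let Pd : G → Prop := fun u => ∃ v ∈ V, u = v * (x * v * x⁻¹)
  have hPdV : ∀ u, Pd u → u ∈ V := by
    rintro u ⟨v, hv, rfl⟩
    exact mul_mem hv (hxcj v hv)
  have hPdmul : ∀ u u', Pd u → Pd u' → Pd (u * u') := by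
    rintro u u' ⟨v, hv, rfl⟩ ⟨v', hv', rfl⟩
    refine ⟨v * v', mul_mem hv hv', ?_⟩
    have h1 := hVcomm _ (hxcj v hv) _ hv'
    calc v * (x * v * x⁻¹) * (v' * (x * v' * x⁻¹))
        = v * ((x * v * x⁻¹) * v') * (x * v' * x⁻¹) := by group
      _ = v * (v' * (x * v * x⁻¹)) * (x * v' * x⁻¹) := by rw [h1]
      _ = v * v' * (x * (v * v') * x⁻¹) := by group
  have htx' : t * x = x⁻¹ * t := by
    calc t * x = (t * x * t⁻¹) * t := by group
      _ = x⁻¹ * t := by rw [htx]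
  have hPdt : ∀ u, Pd u → Pd (t * u * t⁻¹) := by
    rintro u ⟨v, hv, rfl⟩
    have hv' := htcj v hv
    have hw := hxinvcj _ hv'
    refine ⟨x⁻¹ * (t * v * t⁻¹) * x, hw, ?_⟩
    have h1 : t * (v * (x * v * x⁻¹)) * t⁻¹ =
        (t * v * t⁻¹) * (x⁻¹ * (t * v * t⁻¹) * x) := by
      calc t * (v * (x * v * x⁻¹)) * t⁻¹
          = (t * v * t⁻¹) * ((t * x) * v * (t * x)⁻¹) := by group
        _ = (t * v * t⁻¹) * ((x⁻¹ * t) * v * (x⁻¹ * t)⁻¹) := by rw [htx']
        _ = _ := by group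
    rw [h1, hVcomm _ hv' _ hw]
    group
  have hPdpow : ∀ n : ℕ, ∀ u, Pd u → Pd (t ^ n * u * (t ^ n)⁻¹) := by
    intro n
    induction n with
    | zero =>
      intro u hu
      have : t ^ 0 * u * (t ^ 0)⁻¹ = u := by group
      rw [this]; exact hu
    | succ n ih =>
      intro u hu
      have : t ^ (n + 1) * u * (t ^ (n + 1))⁻¹ = t ^ n * (t * u * t⁻¹) * (t ^ n)⁻¹ := by
        rw [pow_succ]; group
      rw [this]; exact ih _ (hPdt u hu)
  have hPdN : ∀ u, Pd u → u * (x * u * x⁻¹) * (x * (x * u * x⁻¹) * x⁻¹) = 1 := by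
    rintro u ⟨v, hv, rfl⟩
    have hb := hV _ (hxcj v hv)
    have hc := hV _ (hxcj _ (hxcj v hv))
    have hd := hx3c v hv
    calc v * (x * v * x⁻¹) * (x * (v * (x * v * x⁻¹)) * x⁻¹) *
          (x * (x * (v * (x * v * x⁻¹)) * x⁻¹) * x⁻¹)
        = v * ((x * v * x⁻¹) * (x * v * x⁻¹)) *
          ((x * (x * v * x⁻¹) * x⁻¹) * (x * (x * v * x⁻¹) * x⁻¹)) *
          (x * (x * (x * v * x⁻¹) * x⁻¹) * x⁻¹) := by group
      _ = v * v := by rw [hb, hc, hd, mul_one, mul_one]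
      _ = 1 := hV v hv
  -- a nontrivial element of the image
  obtain ⟨u₀, hu₀, hu₀1⟩ : ∃ u, Pd u ∧ u ≠ 1 := by
    have h0 : ¬ ∀ h ∈ V, h * x = x * h := fun h => hxc (Subgroup.mem_centralizer_iff.mpr h)
    push Not at h0
    obtain ⟨v₀, hv₀, hne⟩ := h0
    refine ⟨v₀ * (x * v₀ * x⁻¹), ⟨v₀, hv₀, rfl⟩, ?_⟩
    intro h1
    apply hne
    have h2 : x * v₀ * x⁻¹ = v₀ := by
      have := eq_inv_of_mul_eq_one_right h1
      rw [this, hVinv v₀ hv₀]
    calc v₀ * x = (x * v₀ * x⁻¹) * x := by rw [h2]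
      _ = x * v₀ := by group
  -- a nontrivial element of the image fixed by `t`
  have hstep : ∀ n : ℕ, (∃ u, Pd u ∧ u ≠ 1 ∧ (t ^ n * t ^ n) * u * (t ^ n * t ^ n)⁻¹ = u) →
      ∃ u, Pd u ∧ u ≠ 1 ∧ t ^ n * u * (t ^ n)⁻¹ = u := by
    rintro n ⟨u, hu, hu1, hfix⟩
    by_cases hg : t ^ n * u * (t ^ n)⁻¹ = u
    · exact ⟨u, hu, hu1, hg⟩
    · have hu' := hPdpow n u hu
      refine ⟨u * (t ^ n * u * (t ^ n)⁻¹), hPdmul _ _ hu hu', ?_, ?_⟩
      · intro h1
        apply hg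
        have := eq_inv_of_mul_eq_one_right h1
        rw [this, hVinv u (hPdV u hu)]
      · have hc := hVcomm _ (hPdV _ hu) _ (hPdV _ hu')
        calc t ^ n * (u * (t ^ n * u * (t ^ n)⁻¹)) * (t ^ n)⁻¹
            = (t ^ n * u * (t ^ n)⁻¹) * ((t ^ n * t ^ n) * u * (t ^ n * t ^ n)⁻¹) := by group
          _ = (t ^ n * u * (t ^ n)⁻¹) * u := by rw [hfix]
          _ = u * (t ^ n * u * (t ^ n)⁻¹) := hc.symm
  have hfixed : ∀ d : ℕ, ∃ u, Pd u ∧ u ≠ 1 ∧
      t ^ 2 ^ (m - d) * u * (t ^ 2 ^ (m - d))⁻¹ = u := by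
    intro d
    induction d with
    | zero =>
      refine ⟨u₀, hu₀, hu₀1, ?_⟩
      rw [Nat.sub_zero, htm]; group
    | succ d ih =>
      by_cases hd : m - d = 0
      · have e : m - (d + 1) = m - d := by omega
        rw [e]; exact ih
      · have e : m - d = (m - (d + 1)) + 1 := by omega
        rw [e] at ih
        apply hstep
        obtain ⟨u, hu, hu1, hf⟩ := ih
        refine ⟨u, hu, hu1, ?_⟩
        have e2 : t ^ 2 ^ (m - (d + 1)) * t ^ 2 ^ (m - (d + 1)) =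
            t ^ 2 ^ (m - (d + 1) + 1) := by
          rw [← pow_add, pow_succ, mul_two]
        rw [e2]; exact hf
  obtain ⟨u, hu, hu1, hut⟩ := hfixed m
  rw [Nat.sub_self, pow_zero, pow_one] at hut
  -- the four-group
  obtain ⟨u₁, hu₁def⟩ : ∃ u₁, u₁ = x * u * x⁻¹ := ⟨_, rfl⟩
  have huV := hPdV u hu
  have hu₁V : u₁ ∈ V := by rw [hu₁def]; exact hxcj u huV
  have huu := hV u huV
  have hu₁u₁ := hV u₁ hu₁V
  have hcomm := hVcomm u huV u₁ hu₁V
  have hN := hPdN u hu
  rw [← hu₁def] at hN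
  have hx2 : x * u₁ * x⁻¹ = u * u₁ := by
    have := eq_inv_of_mul_eq_one_right hN
    rw [this, hVinv _ (mul_mem huV hu₁V)]
  have hu₁1 : u₁ ≠ 1 := by
    intro h
    apply hu1
    rw [hu₁def] at h
    calc u = x⁻¹ * (x * u * x⁻¹) * x := by group
      _ = 1 := by rw [h]; group
  have hne : u ≠ u₁ := by
    intro h
    apply hu₁1
    have h1 : x * u₁ * x⁻¹ = u₁ := by
      conv_lhs => rw [← h]
      exact hu₁def.symm
    rw [hx2, ← h, huu] at h1
    rw [← h]; exact h1.symm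
  have hx3' : x * (u * u₁) * x⁻¹ = u := by
    calc x * (u * u₁) * x⁻¹ = (x * u * x⁻¹) * (x * u₁ * x⁻¹) := by group
      _ = u₁ * (u * u₁) := by rw [← hu₁def, hx2]
      _ = u := by rw [hcomm, ← mul_assoc, hu₁u₁, one_mul]
  have hxinvu : x⁻¹ * u * x = u * u₁ := by
    calc x⁻¹ * u * x = x⁻¹ * (x * (u * u₁) * x⁻¹) * x := by rw [hx3']
      _ = u * u₁ := by group
  have htu₁ : t * u₁ * t⁻¹ = u * u₁ := by
    calc t * u₁ * t⁻¹ = (t * x * t⁻¹) * (t * u * t⁻¹) * (t * x * t⁻¹)⁻¹ := by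
          rw [hu₁def]; group
      _ = x⁻¹ * u * x := by rw [htx, hut, inv_inv]
      _ = u * u₁ := hxinvu
  have htuu₁ : t * (u * u₁) * t⁻¹ = u₁ := by
    calc t * (u * u₁) * t⁻¹ = (t * u * t⁻¹) * (t * u₁ * t⁻¹) := by group
      _ = u * (u * u₁) := by rw [hut, htu₁]
      _ = u₁ := by rw [← mul_assoc, huu, one_mul]
  obtain ⟨W, hWdef⟩ : ∃ W : Subgroup G, W = s4W u u₁ huu hu₁u₁ hcomm := ⟨_, rfl⟩
  have hWmem : ∀ w, w ∈ W ↔ (w = 1 ∨ w = u ∨ w = u₁ ∨ w = u * u₁) := by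
    intro w; rw [hWdef]; rfl
  have hWcard : Nat.card W = 4 := by
    rw [hWdef]; exact s4W_card u u₁ huu hu₁u₁ hcomm hu1 hu₁1 hne
  have hxW : x ∈ Subgroup.normalizer (W : Set G) := by
    apply Cfsg.Agent.Lib.Helper14.mem_normalizer_of_conj_mem
    intro w hw
    rw [hWmem] at hw ⊢
    rcases hw with rfl | rfl | rfl | rfl
    · left; group
    · right; right; left; exact hu₁def.symm
    · right; right; right; exact hx2
    · right; left; exact hx3'
  have htW : t ∈ Subgroup.normalizer (W : Set G) := by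
    apply Cfsg.Agent.Lib.Helper14.mem_normalizer_of_conj_mem
    intro w hw
    rw [hWmem] at hw ⊢
    rcases hw with rfl | rfl | rfl | rfl
    · left; group
    · right; left; exact hut
    · right; right; right; exact htu₁
    · right; right; left; exact htuu₁
  have hty : t ∈ Subgroup.normalizer (Subgroup.zpowers x : Set G) := by
    apply Cfsg.Agent.Lib.Helper14.mem_normalizer_of_conj_mem
    intro y hy
    obtain ⟨n, rfl⟩ := Subgroup.mem_zpowers_iff.mp hy
    have h1 : t * x ^ n * t⁻¹ = (x⁻¹) ^ n := by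
      rw [← htx, conj_zpow]
    rw [h1]
    exact Subgroup.zpow_mem _ (Subgroup.inv_mem _ (Subgroup.mem_zpowers x)) n
  have hodd : (orderOf x).Coprime 2 := by
    have h1 : orderOf x ∣ 3 ^ k := orderOf_dvd_of_pow_eq_one hxk
    exact Nat.Coprime.coprime_dvd_left h1 (Nat.Coprime.pow_left k (by norm_num))
  have hfix : ∀ w ∈ W, w * x = x * w → w = 1 := by
    intro w hw hwx
    have hcj : x * w * x⁻¹ = w := by rw [← hwx]; group
    rw [hWmem] at hw
    rcases hw with rfl | rfl | rfl | rfl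
    · rfl
    · exact absurd (hu₁def.trans hcj).symm hne
    · exfalso
      rw [hx2] at hcj
      exact hu1 (mul_eq_right.mp hcj)
    · exfalso
      rw [hx3'] at hcj
      exact hu₁1 (mul_eq_left.mp hcj.symm)
  have hc2 : ∀ w w', t * w * t⁻¹ = w' → t * w' * t⁻¹ = w → w * t ^ 2 = t ^ 2 * w := by
    intro w w' h1 h2
    rw [pow_two]
    have h3 : (t * t) * w * (t * t)⁻¹ = w := by
      calc (t * t) * w * (t * t)⁻¹ = t * (t * w * t⁻¹) * t⁻¹ := by group
        _ = w := by rw [h1, h2]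
    calc w * (t * t) = ((t * t) * w * (t * t)⁻¹) * (t * t) := by rw [h3]
      _ = (t * t) * w := by group
  have ht2 : t ^ 2 ∈ Subgroup.centralizer (W : Set G) := by
    rw [Subgroup.mem_centralizer_iff]
    intro w hw
    have hw' := (hWmem w).mp hw
    rcases hw' with h | h | h | h
    · rw [h, one_mul, mul_one]
    · rw [h]; exact hc2 u u hut hut
    · rw [h]; exact hc2 u₁ (u * u₁) htu₁ htuu₁
    · rw [h]; exact hc2 (u * u₁) u₁ htuu₁ htu₁
  have htn : t ∉ Subgroup.centralizer (W : Set G) := by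
    intro h
    have h1 := Subgroup.mem_centralizer_iff.mp h u₁
      ((hWmem u₁).mpr (Or.inr (Or.inr (Or.inl rfl))))
    apply hu1
    have h2 : t * u₁ * t⁻¹ = u₁ := by rw [← h1]; group
    rw [htu₁] at h2
    exact mul_eq_right.mp h2
  exact Cfsg.Agent.Lib.Helper2.involves_S4 W x t hWcard hxW htW hty hodd hfix ht2 htn

/-- Middle step: a normal `2`-subgroup `P`, a `3`-element `x` not centralizing `P` and a
`2`-element `t` inverting `x`. -/
theorem s4_middle {X : Type*} [Group X] [Finite X] (P : Subgroup X) [P.Normal]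
    (hP : IsPGroup 2 P) (k : ℕ) : ∀ (x t : X) (m : ℕ), x ^ 3 ^ k = 1 → t ^ 2 ^ m = 1 →
      t * x * t⁻¹ = x⁻¹ → x ∉ Subgroup.centralizer (P : Set X) →
      Involves (Equiv.Perm (Fin 4)) X := by
  induction k with
  | zero =>
    intro x t m hx _ _ hxc
    exfalso
    apply hxc
    rw [pow_zero, pow_one] at hx
    rw [hx]; exact one_mem _
  | succ k ih =>
    intro x t m hx ht htx hxc
    by_cases h3 : x ^ 3 ∈ Subgroup.centralizer (P : Set X)
    · haveI : Fact (Nat.Prime 2) := ⟨Nat.prime_two⟩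
      haveI : Fact (Nat.Prime 3) := ⟨Nat.prime_three⟩
      obtain ⟨Φ, hΦ⟩ : ∃ Φ : Subgroup X, Φ = (frattini ↥P).map P.subtype := ⟨_, rfl⟩
      haveI hΦn : Φ.Normal := by rw [hΦ]; infer_instance
      apply Cfsg.Agent.Lib.Helper2.involves_of_quotient Φ
      have hPn : (P.map (QuotientGroup.mk' Φ)).Normal :=
        Subgroup.Normal.map inferInstance _ (QuotientGroup.mk'_surjective Φ)
      apply s4_final (P.map (QuotientGroup.mk' Φ)) ?_ (QuotientGroup.mk' Φ x)
        (QuotientGroup.mk' Φ t) ?_ ?_ (k + 1) m ?_ ?_ ?_ ?_ ?_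
      · rintro _ ⟨p, hp, rfl⟩
        rw [← map_mul]
        apply (QuotientGroup.eq_one_iff _).mpr
        have h1 := Cfsg.Agent.Lib.Helper72.pow_mem_frattini hP (⟨p, hp⟩ : ↥P)
        rw [hΦ]
        refine ⟨(⟨p, hp⟩ : ↥P) ^ 2, h1, ?_⟩
        show p ^ 2 = p * p
        exact pow_two p
      · apply Cfsg.Agent.Lib.Helper14.mem_normalizer_of_conj_mem
        intro v hv
        exact hPn.conj_mem v hv _
      · apply Cfsg.Agent.Lib.Helper14.mem_normalizer_of_conj_mem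
        intro v hv
        exact hPn.conj_mem v hv _
      · rw [← map_pow, hx, map_one]
      · rw [← map_pow, ht, map_one]
      · rw [Subgroup.mem_centralizer_iff]
        rintro _ ⟨p, hp, rfl⟩
        rw [← map_pow, ← map_mul, ← map_mul, Subgroup.mem_centralizer_iff.mp h3 p hp]
      · intro hc
        apply hxc
        apply Cfsg.Agent.Lib.Helper75.Fratt.mem_centralizer_of_frattini (p := 2) (q := 3) (by norm_num)
          P hP x (k + 1) hx
        intro p hp
        rw [← hΦ]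
        apply (QuotientGroup.eq_one_iff _).mp
        have h1 := Subgroup.mem_centralizer_iff.mp hc _ (Subgroup.mem_map_of_mem _ hp)
        have h2 : QuotientGroup.mk' Φ (x * p * x⁻¹ * p⁻¹) =
            (QuotientGroup.mk' Φ x * QuotientGroup.mk' Φ p) * (QuotientGroup.mk' Φ x)⁻¹ *
              (QuotientGroup.mk' Φ p)⁻¹ := by
          rw [map_mul, map_mul, map_mul, map_inv, map_inv]
        show QuotientGroup.mk' Φ (x * p * x⁻¹ * p⁻¹) = 1
        rw [h2, ← h1]
        group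
      · rw [← map_inv, ← map_mul, ← map_mul, htx, map_inv]
    · apply ih (x ^ 3) t m _ ht _ h3
      · rw [← pow_mul, ← pow_succ']; exact hx
      · rw [← conj_pow, htx, inv_pow]

theorem s3_sq : ∀ τ : Perm (Fin 3), Perm.sign τ = -1 → τ * τ = 1 := by decide

theorem s3_ne : ∀ σ τ : Perm (Fin 3), Perm.sign τ = -1 → Perm.sign σ = 1 → σ ≠ 1 →
    σ⁻¹ * (τ * σ * τ⁻¹) ≠ 1 := by decide

theorem s3_sign_swap : Perm.sign (swap (0 : Fin 3) 1) = -1 := by decide

/-- First step: from a subgroup `K` mapping onto `S₃` with kernel containing `K ∩ C`, produce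
a `3`-element `x ∉ C` inverted by a `2`-element `t`. -/
theorem s4_first {X : Type*} [Group X] [Finite X] (C : Subgroup X) (K : Subgroup X)
    (ρ : K →* Perm (Fin 3)) (hρ : Function.Surjective ρ)
    (hker : ∀ k : K, (k : X) ∈ C → ρ k = 1) :
    ∃ (x t : X) (k m : ℕ), x ^ 3 ^ k = 1 ∧ t ^ 2 ^ m = 1 ∧ t * x * t⁻¹ = x⁻¹ ∧ x ∉ C := by
  classical
  haveI : Fact (Nat.Prime 3) := ⟨Nat.prime_three⟩
  haveI : Fact (Nat.Prime 2) := ⟨Nat.prime_two⟩
  obtain ⟨S⟩ : Nonempty (Sylow 3 K) := inferInstance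
  obtain ⟨sg, hsg⟩ : ∃ sg : K →* ℤˣ, sg = Perm.sign.comp ρ := ⟨_, rfl⟩
  have hsgapp : ∀ z : K, sg z = Perm.sign (ρ z) := fun z => by rw [hsg]; rfl
  have hSE : (S : Subgroup K) ≤ sg.ker := by
    intro z hz
    obtain ⟨n, hn⟩ := S.isPGroup' ⟨z, hz⟩
    have hz' : z ^ 3 ^ n = 1 := by
      have := congrArg Subtype.val hn
      simpa using this
    rw [MonoidHom.mem_ker]
    have h1 : (sg z) ^ 3 ^ n = 1 := by rw [← map_pow, hz', map_one]
    rcases Int.units_eq_one_or (sg z) with h | h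
    · exact h
    · rw [h] at h1
      have hodd : Odd (3 ^ n) := Odd.pow (by decide)
      rw [Odd.neg_one_pow hodd] at h1
      exact absurd h1 (by decide)
  have hfr : Subgroup.normalizer ((S : Subgroup K) : Set K) ⊔ sg.ker = ⊤ :=
    Sylow.normalizer_sup_eq_top' S hSE
  obtain ⟨k₀, hk₀⟩ := hρ (swap 0 1)
  have hk₀' : k₀ ∈ Subgroup.normalizer ((S : Subgroup K) : Set K) ⊔ sg.ker := by
    rw [hfr]; trivial
  obtain ⟨n, hn, e, he, rfl⟩ := Subgroup.mem_sup_of_normal_right.mp hk₀'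
  have hsn : sg n = -1 := by
    have h1 : sg (n * e) = -1 := by rw [hsgapp, hk₀]; exact s3_sign_swap
    rw [map_mul, MonoidHom.mem_ker.mp he, mul_one] at h1
    exact h1
  obtain ⟨a, m', hm'odd, hord⟩ := Nat.exists_eq_two_pow_mul_odd (orderOf_pos n).ne'
  obtain ⟨y, hydef⟩ : ∃ y : K, y = n ^ m' := ⟨_, rfl⟩
  have hy2 : y ^ 2 ^ a = 1 := by
    rw [hydef, ← pow_mul, mul_comm, ← hord, pow_orderOf_eq_one]
  have hsy : Perm.sign (ρ y) = -1 := by
    rw [← hsgapp, hydef, map_pow, hsn, Odd.neg_one_pow hm'odd]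
  have hyN : y ∈ Subgroup.normalizer ((S : Subgroup K) : Set K) := by
    rw [hydef]; exact pow_mem hn _
  obtain ⟨g, hgdef⟩ : ∃ g : K, g = y * y := ⟨_, rfl⟩
  have hρyy : ρ g = 1 := by rw [hgdef, map_mul]; exact s3_sq (ρ y) hsy
  have hyyN : g ∈ Subgroup.normalizer ((S : Subgroup K) : Set K) := by
    rw [hgdef]; exact mul_mem hyN hyN
  have hg2 : g ^ 2 ^ a = 1 := by rw [hgdef, (Commute.refl y).mul_pow, hy2, one_mul]
  obtain ⟨z₀, hz₀S, hz₀⟩ : ∃ z₀ ∈ (S : Subgroup K), ρ z₀ ≠ 1 := by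
    have h3 : 3 ∣ Nat.card (Perm (Fin 3)) := by
      rw [Nat.card_eq_fintype_card, Fintype.card_perm, Fintype.card_fin]; decide
    have hne := (S.mapSurjective hρ).ne_bot_of_dvd_card h3
    rw [Sylow.coe_mapSurjective] at hne
    by_contra hcon
    push Not at hcon
    apply hne
    rw [eq_bot_iff]
    rintro _ ⟨z, hz, rfl⟩
    exact Subgroup.mem_bot.mpr (hcon z hz)
  obtain ⟨σ, hσ⟩ : ∃ σ, σ = ρ z₀ := ⟨_, rfl⟩
  have hσ1 : σ ≠ 1 := by rw [hσ]; exact hz₀
  have hσs : Perm.sign σ = 1 := by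
    rw [hσ, ← hsgapp]; exact MonoidHom.mem_ker.mp (hSE hz₀S)
  -- conjugation by `y²` on the fibre of `σ` in `S`
  have hconj : ∀ z : K, z ∈ (S : Subgroup K) ∧ ρ z = σ →
      g * z * g⁻¹ ∈ (S : Subgroup K) ∧ ρ (g * z * g⁻¹) = σ := by
    rintro z ⟨hz, hzσ⟩
    refine ⟨(Subgroup.mem_normalizer_iff.mp hyyN z).mp hz, ?_⟩
    rw [map_mul, map_mul, map_inv, hρyy, hzσ, one_mul, inv_one, mul_one]
  have hconj' : ∀ z : K, z ∈ (S : Subgroup K) ∧ ρ z = σ →
      g⁻¹ * z * g ∈ (S : Subgroup K) ∧ ρ (g⁻¹ * z * g) = σ := by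
    rintro z ⟨hz, hzσ⟩
    refine ⟨(Subgroup.mem_normalizer_iff''.mp hyyN z).mp hz, ?_⟩
    rw [map_mul, map_mul, map_inv, hρyy, hzσ, inv_one, one_mul, mul_one]
  let π : Perm {z : K // z ∈ (S : Subgroup K) ∧ ρ z = σ} :=
    { toFun := fun z => ⟨g * z.1 * g⁻¹, hconj z.1 z.2⟩
      invFun := fun z => ⟨g⁻¹ * z.1 * g, hconj' z.1 z.2⟩
      left_inv := fun z => Subtype.ext
        (show g⁻¹ * (g * z.1 * g⁻¹) * g = z.1 by group)
      right_inv := fun z => Subtype.ext
        (show g * (g⁻¹ * z.1 * g) * g⁻¹ = z.1 by group) }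
  have hπpow : ∀ j : ℕ, ∀ z : {z : K // z ∈ (S : Subgroup K) ∧ ρ z = σ},
      (((π ^ j) z : {z : K // z ∈ (S : Subgroup K) ∧ ρ z = σ}) : K) =
        g ^ j * z.1 * (g ^ j)⁻¹ := by
    intro j
    induction j with
    | zero => intro z; simp
    | succ j ih =>
      intro z
      rw [pow_succ', Perm.mul_apply]
      show g * (((π ^ j) z : {z : K // z ∈ (S : Subgroup K) ∧ ρ z = σ}) : K) * g⁻¹ = _
      rw [ih z, pow_succ']
      group
  have hπ : π ^ 2 ^ a = 1 := by
    apply Equiv.ext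
    intro z
    apply Subtype.ext
    rw [hπpow, hg2]
    simp
  haveI : Fintype {z : K // z ∈ (S : Subgroup K) ∧ ρ z = σ} := Fintype.ofFinite _
  have hcard : ¬ 2 ∣ Fintype.card {z : K // z ∈ (S : Subgroup K) ∧ ρ z = σ} := by
    let eqv : {z : K // z ∈ (S : Subgroup K) ∧ ρ z = σ} ≃ ↥((S : Subgroup K) ⊓ ρ.ker) :=
      { toFun := fun z => ⟨z₀⁻¹ * z.1, Subgroup.mem_inf.mpr ⟨mul_mem (inv_mem hz₀S) z.2.1, by
          rw [MonoidHom.mem_ker, map_mul, map_inv, z.2.2, hσ]; exact inv_mul_cancel _⟩⟩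
        invFun := fun u => ⟨z₀ * u.1, ⟨mul_mem hz₀S (Subgroup.mem_inf.mp u.2).1, by
          rw [map_mul, MonoidHom.mem_ker.mp (Subgroup.mem_inf.mp u.2).2, mul_one, hσ]⟩⟩
        left_inv := fun z => Subtype.ext (show z₀ * (z₀⁻¹ * z.1) = z.1 by group)
        right_inv := fun u => Subtype.ext (show z₀⁻¹ * (z₀ * u.1) = u.1 by group) }
    have hpg : IsPGroup 3 ↥((S : Subgroup K) ⊓ ρ.ker) := S.isPGroup'.to_le inf_le_left
    obtain ⟨j, hj⟩ := IsPGroup.iff_card.mp hpg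
    rw [← Nat.card_eq_fintype_card, Nat.card_congr eqv, hj]
    intro h2
    have := Nat.Prime.dvd_of_dvd_pow Nat.prime_two h2
    omega
  obtain ⟨⟨z, hzS, hzσ⟩, hzfix⟩ := Perm.exists_fixed_point_of_prime (p := 2) (n := a) hcard hπ
  have hzfix' : (y * y) * z * (y * y)⁻¹ = z := by
    rw [← hgdef]; exact congrArg Subtype.val hzfix
  obtain ⟨x, hxdef⟩ : ∃ x : K, x = z⁻¹ * (y * z * y⁻¹) := ⟨_, rfl⟩
  have hxS : x ∈ (S : Subgroup K) := by
    rw [hxdef]
    exact mul_mem (inv_mem hzS) ((Subgroup.mem_normalizer_iff.mp hyN z).mp hzS)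
  have hyx : y * x * y⁻¹ = x⁻¹ := by
    rw [hxdef]
    calc y * (z⁻¹ * (y * z * y⁻¹)) * y⁻¹
        = (y * z * y⁻¹)⁻¹ * ((y * y) * z * (y * y)⁻¹) := by group
      _ = (y * z * y⁻¹)⁻¹ * z := by rw [hzfix']
      _ = (z⁻¹ * (y * z * y⁻¹))⁻¹ := by group
  have hρx : ρ x ≠ 1 := by
    rw [hxdef, map_mul, map_inv, map_mul, map_mul, map_inv, hzσ]
    exact s3_ne σ (ρ y) hsy hσs hσ1
  obtain ⟨kx, hkx⟩ := S.isPGroup' ⟨x, hxS⟩
  have hkx' : x ^ 3 ^ kx = 1 := by
    have := congrArg Subtype.val hkx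
    simpa using this
  refine ⟨(x : X), (y : X), kx, a, ?_, ?_, ?_, ?_⟩
  · have := congrArg Subtype.val hkx'
    simpa using this
  · have := congrArg Subtype.val hy2
    simpa using this
  · have := congrArg Subtype.val hyx
    simpa using this
  · exact fun hc => hρx (hker x hc)

/-- If `S₃` is involved in `N_G(T)/C_G(T)` for a `2`-subgroup `T`, then `S₄` is involved in
`G`. -/
theorem s4_backward {G : Type*} [Group G] [Finite G] (T : Subgroup G) (hT : IsPGroup 2 ↥T)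
    (h : Involves (Perm (Fin 3)) (↥(Subgroup.normalizer (T : Set G)) ⧸
      (Subgroup.centralizer (T : Set G)).subgroupOf (Subgroup.normalizer (T : Set G)))) :
    Involves (Perm (Fin 4)) G := by
  rw [Cfsg.Agent.Lib.Helper2.involves_iff_exists_surj] at h
  obtain ⟨K', ρ', hρ'⟩ := h
  obtain ⟨K, hK⟩ : ∃ K : Subgroup ↥(Subgroup.normalizer (T : Set G)),
      K = K'.comap (QuotientGroup.mk' ((Subgroup.centralizer (T : Set G)).subgroupOf
        (Subgroup.normalizer (T : Set G)))) := ⟨_, rfl⟩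
  subst hK
  let ρ := ρ'.comp ((QuotientGroup.mk' ((Subgroup.centralizer (T : Set G)).subgroupOf
        (Subgroup.normalizer (T : Set G)))).subgroupComap K')
  have hρ : Function.Surjective ρ :=
    hρ'.comp (MonoidHom.subgroupComap_surjective_of_surjective _ K'
      (QuotientGroup.mk'_surjective _))
  obtain ⟨P, hPdef⟩ : ∃ P : Subgroup ↥(Subgroup.normalizer (T : Set G)),
      P = T.subgroupOf (Subgroup.normalizer (T : Set G)) := ⟨_, rfl⟩
  haveI hPn : P.Normal := by rw [hPdef]; infer_instance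
  have hP : IsPGroup 2 ↥P := by
    rw [hPdef]
    exact hT.comap_of_injective _ (Subgroup.subtype_injective _)
  have hker : ∀ k : ↥(K'.comap (QuotientGroup.mk' ((Subgroup.centralizer (T : Set G)).subgroupOf
        (Subgroup.normalizer (T : Set G))))),
      (k : ↥(Subgroup.normalizer (T : Set G))) ∈ Subgroup.centralizer (P : Set _) → ρ k = 1 := by
    intro k hk
    have h1 : ((k : ↥(Subgroup.normalizer (T : Set G))) : G) ∈
        Subgroup.centralizer (T : Set G) := by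
      rw [Subgroup.mem_centralizer_iff]
      intro t ht
      have htM : t ∈ Subgroup.normalizer (T : Set G) := Subgroup.le_normalizer ht
      have htP : (⟨t, htM⟩ : ↥(Subgroup.normalizer (T : Set G))) ∈ P := by
        rw [hPdef]; exact ht
      have := Subgroup.mem_centralizer_iff.mp hk ⟨t, htM⟩ htP
      exact congrArg Subtype.val this
    have h2 : (QuotientGroup.mk' ((Subgroup.centralizer (T : Set G)).subgroupOf
        (Subgroup.normalizer (T : Set G)))) (k : ↥(Subgroup.normalizer (T : Set G))) = 1 :=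
      (QuotientGroup.eq_one_iff _).mpr h1
    show ρ' _ = 1
    have h3 : ((QuotientGroup.mk' ((Subgroup.centralizer (T : Set G)).subgroupOf
        (Subgroup.normalizer (T : Set G)))).subgroupComap K') k = 1 := Subtype.ext h2
    rw [h3, map_one]
  obtain ⟨x, t, kx, m, hx, ht, htx, hxc⟩ := s4_first (Subgroup.centralizer (P : Set _)) _ ρ hρ hker
  exact Cfsg.Agent.Lib.Helper2.involves_of_subgroup _ (s4_middle P hP kx x t m hx ht htx hxc)

end Cfsg.Agent.Lib.Helper6
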