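import Mathlib
import Cfsg.Prelude.Def_LocalEven
import Cfsg.Agent.Lib.Helper2.NPC
import Cfsg.Agent.Lib.Helper14.Bender1

/-!
If `S₄` is involved in `G` then `S₃` is involved in `N_G(T)/C_G(T)` for some `2`-subgroup `T`
(helper6, for S2759): Frattini argument on a Sylow `2`-subgroup of the preimage of the Klein
four-group.
-/

set_option autoImplicit false

namespace Cfsg.Agent.Lib.Helper6

open Cfsg Equiv

/-- The three double transpositions of `S₄`. -/
def s4a : Perm (Fin 4) := swap 0 1 * swap 2 3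
/-- The three double transpositions of `S₄`. -/
def s4b : Perm (Fin 4) := swap 0 2 * swap 1 3
/-- The three double transpositions of `S₄`. -/
def s4c : Perm (Fin 4) := swap 0 3 * swap 1 2

theorem s4_conj : ∀ g : Perm (Fin 4), ∀ v : Perm (Fin 4),
    (v = 1 ∨ v = s4a ∨ v = s4b ∨ v = s4c) →
    (g * v * g⁻¹ = 1 ∨ g * v * g⁻¹ = s4a ∨ g * v * g⁻¹ = s4b ∨ g * v * g⁻¹ = s4c) := by
  decide

theorem s4_mul : ∀ v w : Perm (Fin 4), (v = 1 ∨ v = s4a ∨ v = s4b ∨ v = s4c) →
    (w = 1 ∨ w = s4a ∨ w = s4b ∨ w = s4c) →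
    (v * w = 1 ∨ v * w = s4a ∨ v * w = s4b ∨ v * w = s4c) := by
  decide

theorem s4_sq : ∀ v : Perm (Fin 4), (v = 1 ∨ v = s4a ∨ v = s4b ∨ v = s4c) → v * v = 1 := by
  decide

theorem s4_cent : ∀ s : Perm (Fin 4), s 3 = 3 → s * s4a = s4a * s → s * s4b = s4b * s →
    s = 1 := by
  decide

theorem s4_t1 : (swap 0 1 : Perm (Fin 4)) ≠ 1 := by decide
theorem s4_t2 : (swap 0 1 : Perm (Fin 4)) ^ 2 = 1 := by decide
theorem s4_t3 : (swap 0 1 * swap 1 2 : Perm (Fin 4)) ^ 3 = 1 := by decide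
theorem s4_t4 : (swap 0 1 * swap 1 2 : Perm (Fin 4)) ≠ 1 := by decide
theorem s4_t5 : (swap 0 1 : Perm (Fin 4)) * (swap 0 1 * swap 1 2) * (swap 0 1)⁻¹ =
    (swap 0 1 * swap 1 2)⁻¹ := by decide
theorem s4_t6 : (swap 0 1 : Perm (Fin 4)) 3 = 3 := by decide
theorem s4_t7 : (swap 0 1 * swap 1 2 : Perm (Fin 4)) 3 = 3 := by decide

/-- The Klein four-group in `S₄`. -/
def s4V : Subgroup (Perm (Fin 4)) where
  carrier := {v | v = 1 ∨ v = s4a ∨ v = s4b ∨ v = s4c}
  mul_mem' := fun {v w} hv hw => s4_mul v w hv hw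
  one_mem' := Or.inl rfl
  inv_mem' := fun {v} hv => by
    have h : v⁻¹ = v := inv_eq_of_mul_eq_one_left (s4_sq v hv)
    show v⁻¹ = 1 ∨ v⁻¹ = s4a ∨ v⁻¹ = s4b ∨ v⁻¹ = s4c
    rw [h]; exact hv

instance s4V_normal : s4V.Normal := ⟨fun v hv g => s4_conj g v hv⟩

theorem s4V_isPGroup : IsPGroup 2 ↥s4V := by
  rintro ⟨v, hv⟩
  refine ⟨1, ?_⟩
  apply Subtype.ext
  show v ^ 2 ^ 1 = 1
  rw [pow_one, pow_two]; exact s4_sq v hv

/-- A surjection from a group `A` mapping to `G`, killing everything that lands in `N`, shows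
that the target is involved in `G ⧸ N`. -/
theorem involves_quot_of_hom {G H A : Type*} [Group G] [Group H] [Group A] (N : Subgroup G)
    [N.Normal] (j : A →* G) (g : A →* H) (hg : Function.Surjective g)
    (hker : ∀ x : A, j x ∈ N → g x = 1) : Involves H (G ⧸ N) := by
  rw [Cfsg.Agent.Lib.Helper2.involves_iff_exists_surj]
  let φ : A →* G ⧸ N := (QuotientGroup.mk' N).comp j
  have hφ : Function.Surjective φ.rangeRestrict := φ.rangeRestrict_surjective
  have hk : φ.rangeRestrict.ker ≤ g.ker := by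
    intro x hx
    rw [MonoidHom.mem_ker] at hx ⊢
    apply hker
    have h1 : φ x = 1 := by
      have := congrArg Subtype.val hx
      simpa using this
    exact (QuotientGroup.eq_one_iff _).mp h1
  refine ⟨φ.range, φ.rangeRestrict.liftOfSurjective hφ ⟨g, hk⟩, ?_⟩
  intro h
  obtain ⟨x, rfl⟩ := hg h
  exact ⟨φ.rangeRestrict x, MonoidHom.liftOfRightInverse_comp_apply _ _ _ _ x⟩

/-- If `S₄` is involved in `G`, some `2`-subgroup `T` has `S₃` involved in `N_G(T)/C_G(T)`. -/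
theorem s4_forward {G : Type*} [Group G] [Finite G] (h : Involves (Perm (Fin 4)) G) :
    ∃ T : Subgroup G, IsPGroup 2 ↥T ∧ Involves (Perm (Fin 3))
      (↥(Subgroup.normalizer (T : Set G)) ⧸
        (Subgroup.centralizer (T : Set G)).subgroupOf (Subgroup.normalizer (T : Set G))) := by
  rw [Cfsg.Agent.Lib.Helper2.involves_iff_exists_surj] at h
  obtain ⟨K, f, hf⟩ := h
  haveI : Fact (Nat.Prime 2) := ⟨Nat.prime_two⟩
  obtain ⟨W, hW⟩ : ∃ W : Subgroup K, W = s4V.comap f := ⟨_, rfl⟩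
  haveI hWn : W.Normal := by rw [hW]; exact Subgroup.Normal.comap inferInstance f
  obtain ⟨P⟩ : Nonempty (Sylow 2 W) := inferInstance
  obtain ⟨P', hP'⟩ : ∃ P' : Subgroup K, P' = (P : Subgroup W).map W.subtype := ⟨_, rfl⟩
  obtain ⟨T, hTdef⟩ : ∃ T : Subgroup G, T = P'.map K.subtype := ⟨_, rfl⟩
  have hT : IsPGroup 2 T := by
    rw [hTdef, hP']
    exact (P.isPGroup'.map _).map _
  -- `f` maps `P'` onto the four-group
  have hfP : ∀ v ∈ s4V, ∃ p ∈ P', f p = v := by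
    intro v hv
    have hfW : Function.Surjective (f.subgroupComap s4V) :=
      MonoidHom.subgroupComap_surjective_of_surjective f s4V hf
    subst hW
    have hpg : IsPGroup 2 (⊤ : Subgroup s4V) := s4V_isPGroup.to_subgroup _
    have htop : ((P.mapSurjective hfW : Sylow 2 s4V) : Subgroup s4V) = ⊤ :=
      ((P.mapSurjective hfW).is_maximal' hpg le_top).symm
    have hv' : (⟨v, hv⟩ : s4V) ∈ ((P.mapSurjective hfW : Sylow 2 s4V) : Subgroup s4V) := by
      rw [htop]; trivial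
    rw [Sylow.coe_mapSurjective] at hv'
    obtain ⟨p, hp, hpv⟩ := hv'
    refine ⟨(p : K), ?_, congrArg Subtype.val hpv⟩
    rw [hP']
    exact ⟨p, hp, rfl⟩
  -- Frattini
  have hfr : Subgroup.normalizer (P' : Set K) ⊔ W = ⊤ := by
    rw [hP']; exact Sylow.normalizer_sup_eq_top P
  -- the complement `S₃`
  obtain ⟨S, hS⟩ : ∃ S : Subgroup (Perm (Fin 4)),
      S = Subgroup.zpowers (swap 0 1) ⊔ Subgroup.zpowers (swap 0 1 * swap 1 2) := ⟨_, rfl⟩
  obtain ⟨h3, hh3⟩ : ∃ h3 : ↥S →* Perm (Fin 3), Function.Surjective h3 := by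
    rw [hS]
    exact Cfsg.Agent.Lib.Helper14.exists_surj_perm3 (swap 0 1 : Perm (Fin 4))
      (swap 0 1 * swap 1 2) s4_t1 s4_t2 (orderOf_eq_prime s4_t3 s4_t4) s4_t5
  have hS3 : ∀ s ∈ S, s 3 = 3 := by
    intro s hs
    have hle : S ≤ MulAction.stabilizer (Perm (Fin 4)) (3 : Fin 4) := by
      rw [hS]
      apply sup_le
      · rw [Subgroup.zpowers_le, MulAction.mem_stabilizer_iff]; exact s4_t6
      · rw [Subgroup.zpowers_le, MulAction.mem_stabilizer_iff]; exact s4_t7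
    exact MulAction.mem_stabilizer_iff.mp (hle hs)
  obtain ⟨L₀, hL₀⟩ : ∃ L₀ : Subgroup K, L₀ = Subgroup.normalizer (P' : Set K) ⊓ S.comap f :=
    ⟨_, rfl⟩
  have hL₀n : ∀ x : L₀, (x : K) ∈ Subgroup.normalizer (P' : Set K) := by
    intro x
    have hle : L₀ ≤ Subgroup.normalizer (P' : Set K) := by rw [hL₀]; exact inf_le_left
    exact hle x.2
  have hL₀S : L₀ ≤ S.comap f := by rw [hL₀]; exact inf_le_right
  have hjmem : ∀ x : L₀, (K.subtype.comp L₀.subtype) x ∈ Subgroup.normalizer (T : Set G) := by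
    intro x
    have h1 : ((x : K) : G) ∈ (Subgroup.normalizer (P' : Set K)).map K.subtype :=
      ⟨x, hL₀n x, rfl⟩
    have h2 := Subgroup.le_normalizer_map K.subtype (H := P') h1
    rw [hTdef]
    exact h2
  let j : L₀ →* ↥(Subgroup.normalizer (T : Set G)) :=
    (K.subtype.comp L₀.subtype).codRestrict (Subgroup.normalizer (T : Set G)) hjmem
  let g : L₀ →* Perm (Fin 3) := h3.comp ((f.subgroupComap S).comp (Subgroup.inclusion hL₀S))
  refine ⟨T, hT, involves_quot_of_hom _ j g ?_ ?_⟩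
  · intro π
    obtain ⟨⟨s, hs⟩, rfl⟩ := hh3 π
    obtain ⟨k, hk⟩ := hf s
    have hk' : k ∈ Subgroup.normalizer (P' : Set K) ⊔ W := by rw [hfr]; trivial
    obtain ⟨n, hn, w, hw, rfl⟩ := Subgroup.mem_sup_of_normal_right.mp hk'
    have hw' : f w ∈ s4V := by rw [hW] at hw; exact hw
    obtain ⟨p, hp, hpw⟩ := hfP (f w) hw'
    have hfnp : f (n * p) = s := by rw [map_mul, hpw, ← map_mul, hk]
    have hx : n * p ∈ L₀ := by
      rw [hL₀]
      refine ⟨mul_mem hn (Subgroup.le_normalizer hp), ?_⟩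
      show f (n * p) ∈ S
      rw [hfnp]; exact hs
    refine ⟨⟨n * p, hx⟩, ?_⟩
    show h3 _ = h3 _
    congr 1
    exact Subtype.ext hfnp
  · intro x hx
    have hxc : ((x : K) : G) ∈ Subgroup.centralizer (T : Set G) := hx
    have hcomm : ∀ p ∈ P', p * (x : K) = (x : K) * p := by
      intro p hp
      have hpT : (p : G) ∈ T := by rw [hTdef]; exact ⟨p, hp, rfl⟩
      exact Subtype.ext (Subgroup.mem_centralizer_iff.mp hxc _ hpT)
    have hfx : f (x : K) = 1 := by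
      apply s4_cent
      · exact hS3 _ (hL₀S x.2)
      · obtain ⟨p, hp, hpa⟩ := hfP s4a (Or.inr (Or.inl rfl))
        rw [← hpa, ← map_mul, ← map_mul, hcomm p hp]
      · obtain ⟨p, hp, hpb⟩ := hfP s4b (Or.inr (Or.inr (Or.inl rfl)))
        rw [← hpb, ← map_mul, ← map_mul, hcomm p hp]
    show h3 _ = 1
    have h1 : ((f.subgroupComap S).comp (Subgroup.inclusion hL₀S)) x = 1 := Subtype.ext hfx
    rw [h1, map_one]

end Cfsg.Agent.Lib.Helper6
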