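import Mathlib
import Cfsg.Prelude.Def_GeometricClasses
import Cfsg.Agent.Lib.Helper71.SLP0

/-!
# Project SLC, piece T2q2

Over the field with two elements, the tensor group `GL_2 ⊗ GL_k` normalises a quadratic field
subalgebra (`GL_2(2) = ΓL_1(4)`).
-/

set_option autoImplicit false

namespace Cfsg.Agent.Lib.Helper6.SLCT2q2

open Matrix Cfsg.Geo Cfsg.Agent.Lib.Helper71.SLP
open scoped Kronecker

variable {n : ℕ} {F : Type*} [Field F] [Fintype F]

theorem t2q2_zero_or_one (hq : Fintype.card F = 2) (x : F) : x = 0 ∨ x = 1 := by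
  classical
  by_contra h
  push Not at h
  have h3 : ({0, 1, x} : Finset F).card = 3 :=
    Finset.card_eq_three.mpr ⟨0, 1, x, zero_ne_one, fun h0 => h.1 h0.symm,
      fun h1 => h.2 h1.symm, rfl⟩
  have h4 := Finset.card_le_univ ({0, 1, x} : Finset F)
  omega

theorem t2q2_two (hq : Fintype.card F = 2) : (1 : F) + 1 = 0 := by
  rcases t2q2_zero_or_one hq ((1 : F) + 1) with h | h
  · exact h
  · exfalso
    have h1 : (1 : F) = 0 := by
      have h2 : (1 : F) + 1 = 0 + 1 := by rw [h, zero_add]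
      exact add_right_cancel h2
    exact one_ne_zero h1

/-- T2q2 -/
theorem T2q2 (hn : 0 < n) (hq : Fintype.card F = 2) (n₂ : ℕ) (e : Fin n ≃ Fin 2 × Fin n₂)
    (P : GL (Fin n) F) :
    ∃ K : Subalgebra F (Matrix (Fin n) (Fin n) F), IsFieldSubalgebra 2 K ∧
      tensorProductSubgroup 2 n₂ e P ≤ subalgebraNormalizer K := by
  classical
  have h01 := t2q2_zero_or_one hq
  have h2 : (1 : F) + 1 = 0 := t2q2_two hq
  have hsq : ∀ x : F, x * x = x := fun x => by rcases h01 x with rfl | rfl <;> simp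
  have hne : Nonempty (Fin n) := ⟨⟨0, hn⟩⟩
  have h10 : (1 : Matrix (Fin n) (Fin n) F) ≠ 0 := one_ne_zero
  have hM2 : ∀ X : Matrix (Fin n) (Fin n) F, X + X = 0 := by
    intro X
    have h : X + X = ((1 : F) + 1) • X := by rw [add_smul, one_smul]
    rw [h, h2, zero_smul]
  let ω₀ : Matrix (Fin 2) (Fin 2) F := !![0, 1; 1, 1]
  have hω : ω₀ * ω₀ = ω₀ + 1 := by
    ext i j
    fin_cases i <;> fin_cases j <;>
      simp [ω₀, Matrix.mul_apply, Fin.sum_univ_two, h2]
  let Φ : Matrix (Fin 2 × Fin n₂) (Fin 2 × Fin n₂) F ≃ₐ[F] Matrix (Fin n) (Fin n) F :=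
    Matrix.reindexAlgEquiv F F e.symm
  let Ψ : Matrix (Fin 2 × Fin n₂) (Fin 2 × Fin n₂) F → Matrix (Fin n) (Fin n) F :=
    fun X => (P : Matrix (Fin n) (Fin n) F) * Φ X *
      ((P⁻¹ : GL (Fin n) F) : Matrix (Fin n) (Fin n) F)
  have hΨmul : ∀ X Y, Ψ (X * Y) = Ψ X * Ψ Y := by
    intro X Y
    simp only [Ψ, map_mul, mul_assoc, Units.inv_mul_cancel_left]
  have hΨadd : ∀ X Y, Ψ (X + Y) = Ψ X + Ψ Y := by
    intro X Y
    simp only [Ψ, map_add, mul_add, add_mul]
  have hΨone : Ψ 1 = 1 := by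
    simp only [Ψ, map_one, mul_one, Units.mul_inv]
  let W : Matrix (Fin n) (Fin n) F := Ψ (ω₀ ⊗ₖ (1 : Matrix (Fin n₂) (Fin n₂) F))
  have hWW : W * W = W + 1 := by
    show Ψ _ * Ψ _ = Ψ _ + 1
    rw [← hΨmul, ← Matrix.mul_kronecker_mul, hω, mul_one, Matrix.add_kronecker, hΨadd,
      Matrix.one_kronecker_one, hΨone]
  have hW0 : W ≠ 0 := by
    intro h
    rw [h, mul_zero, zero_add] at hWW
    exact h10 hWW.symm
  have hW1 : W ≠ 1 := by
    intro h
    rw [h, mul_one, hM2] at hWW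
    exact h10 hWW
  have hmulform : ∀ c1 d1 c2 d2 : F,
      (c1 • (1 : Matrix (Fin n) (Fin n) F) + d1 • W) * (c2 • (1 : Matrix (Fin n) (Fin n) F) + d2 • W) =
        (c1 * c2 + d1 * d2) • (1 : Matrix (Fin n) (Fin n) F) +
          (c1 * d2 + d1 * c2 + d1 * d2) • W := by
    intro c1 d1 c2 d2
    simp only [add_mul, mul_add, smul_mul_assoc, mul_smul_comm, one_mul, mul_one, hWW]
    module
  -- the subalgebra `F + F W`
  let K : Subalgebra F (Matrix (Fin n) (Fin n) F) :=
    { carrier := {x | ∃ c d : F, x = c • (1 : Matrix (Fin n) (Fin n) F) + d • W}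
      mul_mem' := by
        rintro _ _ ⟨c1, d1, rfl⟩ ⟨c2, d2, rfl⟩
        exact ⟨c1 * c2 + d1 * d2, c1 * d2 + d1 * c2 + d1 * d2, hmulform c1 d1 c2 d2⟩
      one_mem' := ⟨1, 0, by simp⟩
      add_mem' := by
        rintro _ _ ⟨c1, d1, rfl⟩ ⟨c2, d2, rfl⟩
        refine ⟨c1 + c2, d1 + d2, ?_⟩
        simp only [add_smul]
        abel
      zero_mem' := ⟨0, 0, by simp⟩
      algebraMap_mem' := fun c => ⟨c, 0, by simp [Algebra.algebraMap_eq_smul_one]⟩ }
  have hK : ∀ x, x ∈ K ↔ ∃ c d : F, x = c • (1 : Matrix (Fin n) (Fin n) F) + d • W :=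
    fun x => Iff.rfl
  -- the key fact on `2 × 2` matrices
  have hkey : ∀ y : Matrix (Fin 2) (Fin 2) F, y * y = y + 1 → y = ω₀ ∨ y = ω₀ + 1 := by
    intro y hy
    have e00 := congrFun (congrFun hy 0) 0
    have e01 := congrFun (congrFun hy 0) 1
    have e10 := congrFun (congrFun hy 1) 0
    simp only [Matrix.mul_apply, Fin.sum_univ_two, Matrix.add_apply, Matrix.one_apply_eq] at e00
    simp only [Matrix.mul_apply, Fin.sum_univ_two, Matrix.add_apply] at e01 e10
    rw [Matrix.one_apply_ne (by decide : (0 : Fin 2) ≠ 1), add_zero] at e01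
    rw [Matrix.one_apply_ne (by decide : (1 : Fin 2) ≠ 0), add_zero] at e10
    rw [hsq] at e00
    have e00' : y 0 1 * y 1 0 = 1 := add_left_cancel e00
    have hq1 : y 0 1 = 1 := by
      rcases h01 (y 0 1) with h | h
      · rw [h, zero_mul] at e00'
        exact absurd e00' zero_ne_one
      · exact h
    have hr1 : y 1 0 = 1 := by
      rcases h01 (y 1 0) with h | h
      · rw [h, mul_zero] at e00'
        exact absurd e00' zero_ne_one
      · exact h
    rw [hq1, mul_one, one_mul] at e01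
    rcases h01 (y 0 0) with h | h
    · left
      rw [h, zero_add] at e01
      ext i j
      fin_cases i <;> fin_cases j <;> simp [ω₀, h, hq1, hr1, e01]
    · right
      rw [h] at e01
      have hs : y 1 1 = 0 := by
        have h3 : (1 : F) + y 1 1 = 1 + 0 := by rw [e01, add_zero]
        exact add_left_cancel h3
      ext i j
      fin_cases i <;> fin_cases j <;> simp [ω₀, h, hq1, hr1, hs, h2]
  -- conjugation by an element of the tensor group maps `K` into `K`
  have hL : ∀ g ∈ tensorProductSubgroup 2 n₂ e P, ∀ x ∈ K,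
      (g : Matrix (Fin n) (Fin n) F) * x *
        ((g⁻¹ : GL (Fin n) F) : Matrix (Fin n) (Fin n) F) ∈ K := by
    intro g hg x hx
    obtain ⟨g1, hg1, rfl⟩ := hg
    obtain ⟨k, hk, rfl⟩ := hg1
    obtain ⟨a, b, hab⟩ := hk
    obtain ⟨c, d, rfl⟩ := hx
    have hgval : (((MulAut.conj P).toMonoidHom ((glReindex e.symm).toMonoidHom k) :
        GL (Fin n) F) : Matrix (Fin n) (Fin n) F) =
        Ψ (k : Matrix (Fin 2 × Fin n₂) (Fin 2 × Fin n₂) F) := rfl
    have hginv : ((((MulAut.conj P).toMonoidHom ((glReindex e.symm).toMonoidHom k))⁻¹ :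
        GL (Fin n) F) : Matrix (Fin n) (Fin n) F) =
        Ψ ((k⁻¹ : GL (Fin 2 × Fin n₂) F) : Matrix (Fin 2 × Fin n₂) (Fin 2 × Fin n₂) F) := by
      rw [← map_inv, ← map_inv]
      rfl
    rw [hgval, hginv]
    set y : Matrix (Fin 2) (Fin 2) F := (a : Matrix (Fin 2) (Fin 2) F) * ω₀ *
      ((a⁻¹ : GL (Fin 2) F) : Matrix (Fin 2) (Fin 2) F) with hy
    have hyy : y * y = y + 1 := by
      have h1 : y * y = (a : Matrix (Fin 2) (Fin 2) F) * (ω₀ * ω₀) *
          ((a⁻¹ : GL (Fin 2) F) : Matrix (Fin 2) (Fin 2) F) := by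
        simp only [hy, mul_assoc, Units.inv_mul_cancel_left]
      rw [h1, hω, mul_add, add_mul, mul_one, Units.mul_inv]
    have hya : y * (a : Matrix (Fin 2) (Fin 2) F) = (a : Matrix (Fin 2) (Fin 2) F) * ω₀ := by
      simp only [hy, mul_assoc, Units.inv_mul, mul_one]
    have hconj : (k : Matrix (Fin 2 × Fin n₂) (Fin 2 × Fin n₂) F) *
        (ω₀ ⊗ₖ (1 : Matrix (Fin n₂) (Fin n₂) F)) *
        ((k⁻¹ : GL (Fin 2 × Fin n₂) F) : Matrix (Fin 2 × Fin n₂) (Fin 2 × Fin n₂) F) =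
        y ⊗ₖ (1 : Matrix (Fin n₂) (Fin n₂) F) := by
      have h1 : (k : Matrix (Fin 2 × Fin n₂) (Fin 2 × Fin n₂) F) *
          (ω₀ ⊗ₖ (1 : Matrix (Fin n₂) (Fin n₂) F)) =
          (y ⊗ₖ (1 : Matrix (Fin n₂) (Fin n₂) F)) *
            (k : Matrix (Fin 2 × Fin n₂) (Fin 2 × Fin n₂) F) := by
        rw [hab, ← Matrix.mul_kronecker_mul, ← Matrix.mul_kronecker_mul, hya, mul_one, one_mul]
      rw [h1, mul_assoc, Units.mul_inv, mul_one]
    have hWg : Ψ (k : Matrix (Fin 2 × Fin n₂) (Fin 2 × Fin n₂) F) * W *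
        Ψ ((k⁻¹ : GL (Fin 2 × Fin n₂) F) : Matrix (Fin 2 × Fin n₂) (Fin 2 × Fin n₂) F) =
        Ψ (y ⊗ₖ (1 : Matrix (Fin n₂) (Fin n₂) F)) := by
      show Ψ _ * Ψ _ * Ψ _ = Ψ _
      rw [← hΨmul, ← hΨmul, hconj]
    have hone : Ψ (k : Matrix (Fin 2 × Fin n₂) (Fin 2 × Fin n₂) F) *
        Ψ ((k⁻¹ : GL (Fin 2 × Fin n₂) F) : Matrix (Fin 2 × Fin n₂) (Fin 2 × Fin n₂) F) = 1 := by
      rw [← hΨmul, Units.mul_inv, hΨone]
    have hexp : Ψ (k : Matrix (Fin 2 × Fin n₂) (Fin 2 × Fin n₂) F) *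
        (c • (1 : Matrix (Fin n) (Fin n) F) + d • W) *
        Ψ ((k⁻¹ : GL (Fin 2 × Fin n₂) F) : Matrix (Fin 2 × Fin n₂) (Fin 2 × Fin n₂) F) =
        c • (1 : Matrix (Fin n) (Fin n) F) + d • Ψ (y ⊗ₖ (1 : Matrix (Fin n₂) (Fin n₂) F)) := by
      rw [mul_add, add_mul, mul_smul_comm, smul_mul_assoc, mul_one, hone, mul_smul_comm,
        smul_mul_assoc, hWg]
    rw [hexp]
    rcases hkey y hyy with h | h
    · rw [h]
      exact ⟨c, d, rfl⟩
    · rw [h, Matrix.add_kronecker, hΨadd, Matrix.one_kronecker_one, hΨone]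
      refine ⟨c + d, d, ?_⟩
      show c • (1 : Matrix (Fin n) (Fin n) F) + d • (W + 1) = _
      rw [smul_add, add_smul]
      abel
  refine ⟨K, ⟨?_, ?_, ?_⟩, ?_⟩
  · -- commutative
    rintro _ ⟨c1, d1, rfl⟩ _ ⟨c2, d2, rfl⟩
    rw [hmulform, hmulform]
    have e1 : c1 * c2 + d1 * d2 = c2 * c1 + d2 * d1 := by ring
    have e2 : c1 * d2 + d1 * c2 + d1 * d2 = c2 * d1 + d2 * c1 + d2 * d1 := by ring
    rw [e1, e2]
  · -- inverses
    rintro _ ⟨c, d, rfl⟩ hx
    rcases h01 c with rfl | rfl <;> rcases h01 d with rfl | rfl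
    · exfalso
      apply hx
      simp
    · refine ⟨(1 : F) • (1 : Matrix (Fin n) (Fin n) F) + (1 : F) • W, ⟨1, 1, rfl⟩, ?_⟩
      rw [hmulform]
      simp [h2]
    · refine ⟨(1 : F) • (1 : Matrix (Fin n) (Fin n) F) + (0 : F) • W, ⟨1, 0, rfl⟩, ?_⟩
      rw [hmulform]
      simp
    · refine ⟨(0 : F) • (1 : Matrix (Fin n) (Fin n) F) + (1 : F) • W, ⟨0, 1, rfl⟩, ?_⟩
      rw [hmulform]
      simp [h2]
  · -- dimension
    have hli : LinearIndependent F ![(1 : Matrix (Fin n) (Fin n) F), W] := by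
      rw [LinearIndependent.pair_iff]
      intro s t hst
      rcases h01 t with rfl | rfl
      · rw [zero_smul, add_zero] at hst
        rcases h01 s with rfl | rfl
        · exact ⟨rfl, rfl⟩
        · rw [one_smul] at hst
          exact absurd hst h10
      · exfalso
        rw [one_smul] at hst
        rcases h01 s with rfl | rfl
        · rw [zero_smul, zero_add] at hst
          exact hW0 hst
        · rw [one_smul] at hst
          have h3 : W = 1 := by
            have h4 : (1 : Matrix (Fin n) (Fin n) F) + (1 + W) = 1 + 0 := by rw [hst]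
            rw [← add_assoc, hM2, zero_add, add_zero] at h4
            exact h4
          exact hW1 h3
    have hspan : Subalgebra.toSubmodule K =
        Submodule.span F (Set.range ![(1 : Matrix (Fin n) (Fin n) F), W]) := by
      ext x
      rw [Subalgebra.mem_toSubmodule, hK]
      have hr : Set.range ![(1 : Matrix (Fin n) (Fin n) F), W] = {1, W} := by
        simp [Matrix.range_cons, Matrix.range_empty, Set.pair_comm]
      rw [hr, Submodule.mem_span_pair]
      constructor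
      · rintro ⟨c, d, rfl⟩
        exact ⟨c, d, rfl⟩
      · rintro ⟨c, d, rfl⟩
        exact ⟨c, d, rfl⟩
    have h3 := finrank_span_eq_card hli
    rw [← hspan] at h3
    rw [← Subalgebra.finrank_toSubmodule, h3]
    simp
  · -- normaliser
    intro g hg k
    constructor
    · exact hL g hg k
    · intro h
      have hg' : g⁻¹ ∈ tensorProductSubgroup 2 n₂ e P := inv_mem hg
      have h4 := hL g⁻¹ hg' _ h
      rw [inv_inv] at h4
      have h5 : ((g⁻¹ : GL (Fin n) F) : Matrix (Fin n) (Fin n) F) *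
          ((g : Matrix (Fin n) (Fin n) F) * k *
            ((g⁻¹ : GL (Fin n) F) : Matrix (Fin n) (Fin n) F)) *
          (g : Matrix (Fin n) (Fin n) F) = k := by
        simp only [mul_assoc, Units.inv_mul, mul_one, Units.inv_mul_cancel_left]
      rw [h5] at h4
      exact h4

end Cfsg.Agent.Lib.Helper6.SLCT2q2
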