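import Mathlib
import Cfsg.Prelude.Def_GeometricClasses
import Cfsg.Agent.Lib.Helper98.SympM2

set_option autoImplicit false

namespace Cfsg.Agent.Lib.Helper98.SM

open Matrix Polynomial

theorem goodM_of_parts {F : Type*} [Field F] (h2 : (2 : F) ≠ 0)
    (R : Subgroup (GL (Fin 2 ⊕ Fin 2) F)) (hRs : Cfsg.Geo.IsSymplecticTypeGroup 2 R)
    (hRi : Cfsg.Geo.ActsAbsolutelyIrreducibly (Cfsg.Geo.matrixSet R))
    (hR5 : Nat.card R = 2 ^ 5) (hRZ : Nat.card (Subgroup.center R) = 2) : GoodM R := by
  classical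
  have hRfin : Finite R := Nat.finite_of_card_ne_zero (by rw [hR5]; norm_num)
  have habs : ∀ M : Matrix (Fin 2 ⊕ Fin 2) (Fin 2 ⊕ Fin 2) F,
      (∀ g ∈ R, M * (g : Matrix (Fin 2 ⊕ Fin 2) (Fin 2 ⊕ Fin 2) F) =
        (g : Matrix (Fin 2 ⊕ Fin 2) (Fin 2 ⊕ Fin 2) F) * M) →
      ∃ l : F, M = l • (1 : Matrix (Fin 2 ⊕ Fin 2) (Fin 2 ⊕ Fin 2) F) := by
    intro M hM
    apply hRi.2 M
    rintro s ⟨g, hg, rfl⟩
    exact hM g hg
  have hexp : ∀ g : R, g ^ 4 = 1 := by
    intro g
    have h4 : Monoid.exponent R = 4 := by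
      rw [hRs.exponent_eq]
      rfl
    have h5 := Monoid.pow_exponent_eq_one g
    rwa [h4] at h5
  obtain ⟨z, hzc, hz2, hzsq⟩ :=
    Cfsg.Agent.Lib.Helper98.Symp.sq_central_of_symplectic hexp hRs.cyclic_of_characteristic
  obtain ⟨l, hl⟩ := habs (((z : R) : GL (Fin 2 ⊕ Fin 2) F) : Matrix (Fin 2 ⊕ Fin 2) (Fin 2 ⊕ Fin 2) F) (by
    intro g hg
    have h1 := hzc ⟨g, hg⟩
    have h2 := congrArg (fun a : R => ((a : GL (Fin 2 ⊕ Fin 2) F) : Matrix (Fin 2 ⊕ Fin 2) (Fin 2 ⊕ Fin 2) F)) h1
    simp only [Subgroup.coe_mul, Units.val_mul] at h2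
    exact h2.symm)
  have hl2 : l * l = 1 := by
    have h3 := congrArg (fun a : R => ((a : GL (Fin 2 ⊕ Fin 2) F) : Matrix (Fin 2 ⊕ Fin 2) (Fin 2 ⊕ Fin 2) F)) hz2
    simp only [Subgroup.coe_pow, Units.val_pow_eq_pow_val, Subgroup.coe_one, Units.val_one] at h3
    rw [hl, pow_two, Matrix.smul_mul, Matrix.one_mul, smul_smul] at h3
    have h00 := congrFun (congrFun h3 (Sum.inl 0)) (Sum.inl 0)
    simpa using h00
  have hlcases : l = 1 ∨ l = -1 := by
    have h' : (l - 1) * (l + 1) = 0 := by linear_combination hl2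
    rcases mul_eq_zero.mp h' with h'' | h''
    · left; exact sub_eq_zero.mp h''
    · right; exact eq_neg_of_add_eq_zero_left h''
  -- l = 1 is impossible
  have hlneg : l = -1 := by
    rcases hlcases with hl1 | hl1
    · exfalso
      have hz1 : z = 1 := by
        apply Subtype.ext
        apply Units.ext
        rw [hl, hl1, one_smul]
        rfl
      have hsq1 : ∀ g : R, g ^ 2 = 1 := by
        intro g
        rcases hzsq g with h | h
        · exact h
        · rw [h, hz1]
      have hcomm : ∀ a b : R, a * b = b * a := by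
        intro a b
        have ha := hsq1 a
        have hb := hsq1 b
        have hab := hsq1 (a * b)
        rw [pow_two] at ha hb hab
        calc a * b = a * b * ((b * a) * (b * a)) := by
                have : (b * a) * (b * a) = 1 := by
                  have := hsq1 (b * a)
                  rwa [pow_two] at this
                rw [this, mul_one]
          _ = a * (b * b) * a * (b * a) := by group
          _ = b * a := by rw [hb, mul_one, ha, one_mul]
      have htop : Subgroup.center R = ⊤ := by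
        rw [eq_top_iff]
        intro g _
        rw [Subgroup.mem_center_iff]
        intro h
        exact hcomm h g
      rw [htop, Subgroup.card_top, hR5] at hRZ
      norm_num at hRZ
    · exact hl1
  have hzneg : ((z : R) : GL (Fin 2 ⊕ Fin 2) F) = -1 := by
    apply Units.ext
    rw [hl, hlneg, neg_smul, one_smul, Units.val_neg, Units.val_one]
  have hsq : ∀ g ∈ R, g * g = 1 ∨ g * g = -1 := by
    intro g hg
    rcases hzsq ⟨g, hg⟩ with h | h
    · left
      have h1 := congrArg (fun a : R => (a : GL (Fin 2 ⊕ Fin 2) F)) h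
      simpa [pow_two] using h1
    · right
      have h1 : g * g = ((z : R) : GL (Fin 2 ⊕ Fin 2) F) := by
        rw [← h]
        simp [pow_two]
      rw [h1, hzneg]
  have hneg : (-1 : GL (Fin 2 ⊕ Fin 2) F) ∈ R := by
    rw [← hzneg]
    exact z.2
  have hcen : ∀ g ∈ R, (∀ s ∈ R, g * s = s * g) → g = 1 ∨ g = -1 := by
    intro g hg hgc
    by_contra hcon
    push Not at hcon
    have hzcen : z ∈ Subgroup.center R := by
      rw [Subgroup.mem_center_iff]
      intro h
      exact hzc h
    have hgcen : (⟨g, hg⟩ : R) ∈ Subgroup.center R := by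
      rw [Subgroup.mem_center_iff]
      intro h
      apply Subtype.ext
      exact (hgc h h.2).symm
    obtain ⟨y, _, hy⟩ := (Nat.card_eq_two_iff' (1 : Subgroup.center R)).mp hRZ
    have h1 : (⟨z, hzcen⟩ : Subgroup.center R) = y := by
      apply hy
      intro h
      have h' := congrArg (fun a : Subgroup.center R => ((a : R) : GL (Fin 2 ⊕ Fin 2) F)) h
      simp only [Subgroup.coe_one] at h'
      rw [hzneg] at h'
      exact neg_ne_self_gl h2 1 h'
    have h2' : (⟨⟨g, hg⟩, hgcen⟩ : Subgroup.center R) = y := by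
      apply hy
      intro h
      have h' := congrArg (fun a : Subgroup.center R => ((a : R) : GL (Fin 2 ⊕ Fin 2) F)) h
      simp only [Subgroup.coe_one] at h'
      exact hcon.1 h'
    have h3 := h2'.trans h1.symm
    have h4 := congrArg (fun a : Subgroup.center R => ((a : R) : GL (Fin 2 ⊕ Fin 2) F)) h3
    simp only at h4
    rw [hzneg] at h4
    exact hcon.2 h4
  exact ⟨h2, hsq, hneg, hcen, habs, by rw [hR5]; norm_num⟩

end Cfsg.Agent.Lib.Helper98.SM
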