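import Mathlib
import Cfsg.Prelude.Def_GeometricClasses
import Cfsg.Prelude.Def_LieClassical

/-!
# Project SPP (helper71), piece TS1

Transport of the subspace clauses (stabiliser, `≠ ⊥`, finrank, totally singular, non-degenerate)
back along `glReindex e`, `e : κ ≃ Fin n`.  (Adapted from `Cfsg.Agent.Lib.Helper46.OMPT1`.)
-/

set_option autoImplicit false

namespace Cfsg.Agent.Lib.Helper6.SPPTS1

open Matrix Cfsg.Geo

variable {n : ℕ} {F : Type*} [Field F] [Fintype F]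

section Transport

variable {κ : Type} [Fintype κ] [DecidableEq κ]

/-- transport of vectors: `v ↦ v ∘ e.symm` -/
def tv (e : κ ≃ Fin n) : (κ → F) ≃ₗ[F] (Fin n → F) := LinearEquiv.funCongrLeft F F e.symm

/-- the transported two-argument form on `Fin n → F` -/
def tf (e : κ ≃ Fin n) (f : (κ → F) → (κ → F) → F) : (Fin n → F) → (Fin n → F) → F :=
  fun u v => f (u ∘ e) (v ∘ e)

/-- the transported subspace -/
def tW (e : κ ≃ Fin n) (W' : Submodule F (Fin n → F)) : Submodule F (κ → F) :=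
  W'.comap (tv e).toLinearMap

omit [Fintype F] [Fintype κ] [DecidableEq κ] in
theorem TS1_tv_apply (e : κ ≃ Fin n) (v : κ → F) : tv e v = v ∘ e.symm := rfl

omit [Fintype F] [Fintype κ] [DecidableEq κ] in
theorem TS1_mem (e : κ ≃ Fin n) (W' : Submodule F (Fin n → F)) (v : κ → F) :
    v ∈ tW e W' ↔ v ∘ e.symm ∈ W' := Iff.rfl

omit [Fintype F] [Fintype κ] [DecidableEq κ] in
theorem TS1_comp (e : κ ≃ Fin n) (x : κ → F) : (x ∘ e.symm) ∘ e = x := by
  funext k
  simp

omit [Fintype F] [Fintype κ] [DecidableEq κ] in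
theorem TS1_comp' (e : κ ≃ Fin n) (x : Fin n → F) : (x ∘ e) ∘ e.symm = x := by
  funext k
  simp

omit [Fintype F] in
theorem TS1_key (e : κ ≃ Fin n) (g : GL κ F) (v : κ → F) :
    (glReindex e g : GL (Fin n) F).1 *ᵥ (v ∘ e.symm) = (g.1 *ᵥ v) ∘ e.symm := by
  have h : (glReindex e g : GL (Fin n) F).1 = g.1.submatrix e.symm e.symm := rfl
  rw [h, Matrix.submatrix_mulVec_equiv]
  congr 2
  funext k
  simp

/-- TS1 -/
theorem TS1 (e : κ ≃ Fin n) (f : (κ → F) → (κ → F) → F) (H : Subgroup (GL κ F))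
    (W' : Submodule F (Fin n → F)) :
    (H.map (glReindex e).toMonoidHom ≤ subspaceStabilizer W' → H ≤ subspaceStabilizer (tW e W')) ∧
    (W' ≠ ⊥ → tW e W' ≠ ⊥) ∧
    Module.finrank F (tW e W') = Module.finrank F W' ∧
    (IsTotallySingularFor (tf e f) W' → IsTotallySingularFor f (tW e W')) ∧
    (IsNondegenerateOn (tf e f) W' → IsNondegenerateOn f (tW e W')) := by
  have hfin : Module.finrank F (tW e W') = Module.finrank F W' := by
    unfold tW
    rw [Submodule.comap_equiv_eq_map_symm]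
    exact LinearEquiv.finrank_map_eq (tv e).symm W'
  refine ⟨?_, ?_, hfin, ?_, ?_⟩
  · -- stabiliser
    intro hs g hg
    have hΦ : glReindex e g ∈ subspaceStabilizer W' := hs ⟨g, hg, rfl⟩
    have hΦ' : ∀ w : Fin n → F, w ∈ W' ↔ (glReindex e g : GL (Fin n) F).1 *ᵥ w ∈ W' := hΦ
    show ∀ v : κ → F, v ∈ tW e W' ↔ g.1 *ᵥ v ∈ tW e W'
    intro v
    rw [TS1_mem, TS1_mem, ← TS1_key]
    exact hΦ' (v ∘ e.symm)
  · -- `≠ ⊥`
    intro hW hbot
    apply hW
    rw [eq_bot_iff]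
    intro w hw
    have h1 : w ∘ e ∈ tW e W' := by
      rw [TS1_mem, TS1_comp']
      exact hw
    rw [hbot, Submodule.mem_bot] at h1
    rw [Submodule.mem_bot]
    rw [← TS1_comp' e w, h1]
    rfl
  · -- totally singular
    intro hts u hu v hv
    have h1 := hts (u ∘ e.symm) ((TS1_mem e W' u).mp hu) (v ∘ e.symm) ((TS1_mem e W' v).mp hv)
    have h2 : tf e f (u ∘ e.symm) (v ∘ e.symm) = f u v := by
      show f ((u ∘ e.symm) ∘ e) ((v ∘ e.symm) ∘ e) = f u v
      rw [TS1_comp, TS1_comp]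
    rw [← h2]
    exact h1
  · -- non-degenerate
    intro hnd w hw hw0
    have hw' : w ∘ e.symm ∈ W' := (TS1_mem e W' w).mp hw
    have hw0' : w ∘ e.symm ≠ 0 := by
      intro h0
      apply hw0
      rw [← TS1_comp e w, h0]
      rfl
    obtain ⟨⟨x, hx, hx0⟩, ⟨y, hy, hy0⟩⟩ := hnd (w ∘ e.symm) hw' hw0'
    refine ⟨⟨x ∘ e, ?_, ?_⟩, ⟨y ∘ e, ?_, ?_⟩⟩
    · rw [TS1_mem, TS1_comp']
      exact hx
    · have h3 : tf e f x (w ∘ e.symm) = f (x ∘ e) w := by
        show f (x ∘ e) ((w ∘ e.symm) ∘ e) = f (x ∘ e) w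
        rw [TS1_comp]
      rw [h3] at hx0
      exact hx0
    · rw [TS1_mem, TS1_comp']
      exact hy
    · have h3 : tf e f (w ∘ e.symm) y = f w (y ∘ e) := by
        show f ((w ∘ e.symm) ∘ e) (y ∘ e) = f w (y ∘ e)
        rw [TS1_comp]
      rw [h3] at hy0
      exact hy0

end Transport

end Cfsg.Agent.Lib.Helper6.SPPTS1
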