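import Mathlib
import Cfsg.Prelude.Def_ClassicalGeometry

/-!
S5956 piece CH2-EL: an explicit symplectic involution of "a-type" in characteristic 2.
-/

set_option autoImplicit false
set_option linter.unusedSectionVars false

namespace Cfsg.Agent.Lib.Helper6.SpAtype

open Matrix

/-- a fixed-point-free involution of `Fin (k + k)` -/
noncomputable def flip (k : ℕ) : Fin (k + k) → Fin (k + k) := fun x =>
  finSumFinEquiv (Sum.swap (finSumFinEquiv.symm x))

theorem flip_flip (k : ℕ) (x : Fin (k + k)) : flip k (flip k x) = x := by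
  unfold flip
  rw [Equiv.symm_apply_apply, Sum.swap_swap, Equiv.apply_symm_apply]

theorem flip_ne (k : ℕ) (x : Fin (k + k)) : flip k x ≠ x := by
  unfold flip
  intro h
  have h1 : Sum.swap (finSumFinEquiv.symm x) = finSumFinEquiv.symm x := by
    conv_rhs => rw [← h]
    rw [Equiv.symm_apply_apply]
  cases hx : finSumFinEquiv.symm x with
  | inl a => rw [hx] at h1; simp at h1
  | inr a => rw [hx] at h1; simp at h1

/-- the symmetric permutation matrix of an involution -/
def SS {n : Type*} [DecidableEq n] (F : Type*) [Zero F] [One F] (σ : n → n) : Matrix n n F :=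
  Matrix.of fun i j => if σ i = j then 1 else 0

section

variable {n : Type*} [Fintype n] [DecidableEq n] {F : Type*} [Field F] (σ : n → n)

theorem SS_mulVec (v : n → F) : SS F σ *ᵥ v = fun i => v (σ i) := by
  funext i
  simp [SS, Matrix.mulVec, dotProduct]

theorem SS_transpose (hσ : ∀ x, σ (σ x) = x) : (SS F σ)ᵀ = SS F σ := by
  ext i j
  simp only [SS, Matrix.transpose_apply, Matrix.of_apply]
  by_cases h : σ j = i
  · have h' : σ i = j := by rw [← h, hσ]
    rw [if_pos h, if_pos h']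
  · have h' : σ i ≠ j := fun h2 => h (by rw [← h2, hσ])
    rw [if_neg h, if_neg h']

theorem SS_mul_self (hσ : ∀ x, σ (σ x) = x) : SS F σ * SS F σ = 1 := by
  ext i j
  rw [Matrix.mul_apply]
  simp only [SS, Matrix.of_apply]
  rw [Finset.sum_eq_single (σ i)]
  · rw [if_pos rfl, one_mul, hσ, Matrix.one_apply]
  · intro b _ hb
    rw [if_neg (Ne.symm hb), zero_mul]
  · intro h; exact absurd (Finset.mem_univ _) h

theorem SS_dot [CharP F 2] (hσ : ∀ x, σ (σ x) = x) (hne : ∀ x, σ x ≠ x) (v : n → F) :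
    v ⬝ᵥ SS F σ *ᵥ v = 0 := by
  rw [SS_mulVec]
  unfold dotProduct
  refine Finset.sum_involution (fun a _ => σ a) ?_ ?_ ?_ ?_
  · intro a _
    show v a * v (σ a) + v (σ a) * v (σ (σ a)) = 0
    rw [hσ, mul_comm (v (σ a))]
    exact CharTwo.add_self_eq_zero _
  · intro a _ _
    exact hne a
  · intro a _
    exact Finset.mem_univ _
  · intro a _
    exact hσ a

/-- the matrix `[[1, S], [0, 1]]` -/
def AA (F : Type*) [Field F] (σ : n → n) : Matrix (n ⊕ n) (n ⊕ n) F :=
  Matrix.fromBlocks 1 (SS F σ) 0 1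

theorem AA_mulVec (v : n ⊕ n → F) :
    AA F σ *ᵥ v = Sum.elim (fun i => v (Sum.inl i) + v (Sum.inr (σ i))) (fun i => v (Sum.inr i)) := by
  unfold AA
  rw [Matrix.fromBlocks_mulVec, SS_mulVec]
  funext x
  cases x with
  | inl i => simp
  | inr i => simp

theorem AA_mem (hσ : ∀ x, σ (σ x) = x) : AA F σ ∈ Matrix.symplecticGroup n F := by
  rw [SymplecticGroup.mem_iff]
  unfold AA Matrix.J
  rw [Matrix.fromBlocks_transpose, Matrix.fromBlocks_multiply, Matrix.fromBlocks_multiply,
    SS_transpose σ hσ]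
  simp

theorem AA_sq [CharP F 2] : AA F σ * AA F σ = 1 := by
  unfold AA
  rw [Matrix.fromBlocks_multiply]
  have h : (1 : Matrix n n F) * SS F σ + SS F σ * 1 = 0 := by
    rw [Matrix.one_mul, Matrix.mul_one]
    ext i j
    exact CharTwo.add_self_eq_zero _
  rw [h]
  simp

theorem AA_ne [Nonempty n] : AA F σ ≠ 1 := by
  intro h
  obtain ⟨i⟩ := ‹Nonempty n›
  have h1 := congrFun (congrFun h (Sum.inl i)) (Sum.inr (σ i))
  simp [AA, SS] at h1

theorem J_mulVec (w : n ⊕ n → F) :
    Matrix.J n F *ᵥ w = Sum.elim (fun i => - w (Sum.inr i)) (fun i => w (Sum.inl i)) := by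
  unfold Matrix.J
  rw [Matrix.fromBlocks_mulVec]
  funext x
  cases x with
  | inl i => simp [Matrix.neg_mulVec]
  | inr i => simp

theorem AA_form [CharP F 2] (hσ : ∀ x, σ (σ x) = x) (hne : ∀ x, σ x ≠ x) (v : n ⊕ n → F) :
    v ⬝ᵥ (Matrix.J n F *ᵥ (AA F σ *ᵥ v)) = 0 := by
  rw [AA_mulVec, J_mulVec]
  have h := SS_dot σ hσ hne (fun i => v (Sum.inr i))
  rw [SS_mulVec] at h
  unfold dotProduct at h ⊢
  rw [Fintype.sum_sum_type]
  simp only [Sum.elim_inl, Sum.elim_inr]
  rw [← Finset.sum_add_distrib]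
  rw [← h]
  refine Finset.sum_congr rfl fun i _ => ?_
  ring

theorem AA_ker_range (hσ : ∀ x, σ (σ x) = x) :
    LinearMap.ker (Matrix.toLin' (AA F σ) - 1) = LinearMap.range (Matrix.toLin' (AA F σ) - 1) := by
  have key : ∀ v : n ⊕ n → F, (Matrix.toLin' (AA F σ) - 1) v
      = Sum.elim (fun i => v (Sum.inr (σ i))) (fun _ => 0) := by
    intro v
    rw [LinearMap.sub_apply, Matrix.toLin'_apply, AA_mulVec]
    funext x
    cases x with
    | inl i => simp
    | inr i => simp
  ext w
  rw [LinearMap.mem_ker, LinearMap.mem_range, key]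
  constructor
  · intro h
    have h0 : ∀ i, w (Sum.inr i) = 0 := by
      intro i
      have := congrFun h (Sum.inl (σ i))
      simpa [hσ] using this
    refine ⟨Sum.elim (fun _ => 0) (fun i => w (Sum.inl (σ i))), ?_⟩
    rw [key]
    funext x
    cases x with
    | inl i => simp [hσ]
    | inr i => simp [h0]
  · rintro ⟨y, hy⟩
    rw [key] at hy
    have h0 : ∀ i, w (Sum.inr i) = 0 := by
      intro i
      rw [← hy]; rfl
    funext x
    cases x with
    | inl i => simp [h0]
    | inr i => simp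

end

theorem exists_atype_matrix {F : Type*} [Field F] [CharP F 2] (d : ℕ) (hd : Even d)
    (hd0 : 0 < d) :
    ∃ A : Matrix (Fin d ⊕ Fin d) (Fin d ⊕ Fin d) F, A ∈ Matrix.symplecticGroup (Fin d) F ∧
      A * A = 1 ∧ A ≠ 1 ∧ (∀ v, Cfsg.sympForm d F v (A.mulVec v) = 0) ∧
      LinearMap.ker (Matrix.toLin' A - 1) = LinearMap.range (Matrix.toLin' A - 1) := by
  obtain ⟨k, rfl⟩ := hd
  have : Nonempty (Fin (k + k)) := ⟨⟨0, hd0⟩⟩
  refine ⟨AA F (flip k), AA_mem _ (flip_flip k), AA_sq _, AA_ne _, ?_, AA_ker_range _ (flip_flip k)⟩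
  intro v
  exact AA_form _ (flip_flip k) (flip_ne k) v

end Cfsg.Agent.Lib.Helper6.SpAtype
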