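import Mathlib
import Cfsg.Agent.Lib.Helper91.SpU

set_option autoImplicit false

/-!
# Block facts for elements `[A B; 0 D]` of the symplectic group
-/

namespace Cfsg.Agent.Lib.Helper6.SpBlk

open Matrix Cfsg.Agent.Lib.Helper91.SpU

variable (m : ℕ) (K : Type*) [Field K]

theorem blk_eq (g : Matrix.symplecticGroup (Fin m) K) :
    g.1 = fromBlocks g.1.toBlocks₁₁ g.1.toBlocks₁₂ g.1.toBlocks₂₁ g.1.toBlocks₂₂ :=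
  (Matrix.fromBlocks_toBlocks g.1).symm

theorem blk_eq0 (g : Matrix.symplecticGroup (Fin m) K) (h21 : g.1.toBlocks₂₁ = 0) :
    g.1 = fromBlocks g.1.toBlocks₁₁ g.1.toBlocks₁₂ 0 g.1.toBlocks₂₂ := by
  conv_lhs => rw [blk_eq m K g]
  rw [h21]

/-- the relations between the blocks of `[A B; 0 D]` in the symplectic group -/
theorem blk_facts (g : Matrix.symplecticGroup (Fin m) K) (h21 : g.1.toBlocks₂₁ = 0) :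
    g.1.toBlocks₁₁ᵀ * g.1.toBlocks₂₂ = 1 ∧ g.1.toBlocks₂₂ * g.1.toBlocks₁₁ᵀ = 1 ∧
    g.1.toBlocks₁₁ * g.1.toBlocks₂₂ᵀ = 1 ∧ g.1.toBlocks₂₂ᵀ * g.1.toBlocks₁₁ = 1 ∧
    g.1.toBlocks₁₂ᵀ * g.1.toBlocks₂₂ = g.1.toBlocks₂₂ᵀ * g.1.toBlocks₁₂ ∧
    g.1.toBlocks₁₂ * g.1.toBlocks₁₁ᵀ = g.1.toBlocks₁₁ * g.1.toBlocks₁₂ᵀ := by
  have hmem := g.2
  rw [blk_eq0 m K g h21, SymplecticGroup.fromBlocks_mem_iff] at hmem
  obtain ⟨-, h2, h3⟩ := hmem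
  rw [Matrix.transpose_zero, Matrix.zero_mul, sub_zero] at h3
  have h4 : g.1.toBlocks₂₂ * g.1.toBlocks₁₁ᵀ = 1 := (_root_.mul_eq_one_comm).1 h3
  have h5 : g.1.toBlocks₁₁ * g.1.toBlocks₂₂ᵀ = 1 := by
    have := congrArg Matrix.transpose h4
    rwa [Matrix.transpose_mul, Matrix.transpose_transpose, Matrix.transpose_one] at this
  have h6 : g.1.toBlocks₂₂ᵀ * g.1.toBlocks₁₁ = 1 := (_root_.mul_eq_one_comm).1 h5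
  refine ⟨h3, h4, h5, h6, h2, ?_⟩
  calc g.1.toBlocks₁₂ * g.1.toBlocks₁₁ᵀ
      = (g.1.toBlocks₁₁ * g.1.toBlocks₂₂ᵀ) * g.1.toBlocks₁₂ * g.1.toBlocks₁₁ᵀ := by
        rw [h5, Matrix.one_mul]
    _ = g.1.toBlocks₁₁ * (g.1.toBlocks₂₂ᵀ * g.1.toBlocks₁₂) * g.1.toBlocks₁₁ᵀ := by
        simp only [Matrix.mul_assoc]
    _ = g.1.toBlocks₁₁ * (g.1.toBlocks₁₂ᵀ * g.1.toBlocks₂₂) * g.1.toBlocks₁₁ᵀ := by rw [h2]
    _ = g.1.toBlocks₁₁ * g.1.toBlocks₁₂ᵀ * (g.1.toBlocks₂₂ * g.1.toBlocks₁₁ᵀ) := by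
        simp only [Matrix.mul_assoc]
    _ = g.1.toBlocks₁₁ * g.1.toBlocks₁₂ᵀ := by rw [h4, Matrix.mul_one]

end Cfsg.Agent.Lib.Helper6.SpBlk
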