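import Mathlib
import Cfsg.Agent.Lib.Helper91.SpU
import Cfsg.Agent.Lib.Helper6.SpBlk

set_option autoImplicit false

namespace Cfsg.Agent.Lib.Helper6.SpQ1

open Matrix Cfsg.Agent.Lib.Helper91.SpU Cfsg.Agent.Lib.Helper6.SpBlk

theorem QQ_normal (m : ℕ) (K : Type*) [Field K] (u : Matrix.symplecticGroup (Fin m) K)
    (hu : InU m K u) (B : Matrix (Fin m) (Fin m) K) (hB : Bᵀ = B) :
    ∃ (B' : Matrix (Fin m) (Fin m) K) (hB' : B'ᵀ = B'), u * sq m K B hB * u⁻¹ = sq m K B' hB' := by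
  obtain ⟨A, Bu, D, hu1, f1⟩ : ∃ A Bu D : Matrix (Fin m) (Fin m) K,
      u.1 = fromBlocks A Bu 0 D ∧ Aᵀ * D = 1 :=
    ⟨_, _, _, blk_eq0 m K u hu.1, (blk_facts m K u hu.1).1⟩
  have hB' : (A * B * Aᵀ)ᵀ = A * B * Aᵀ := by
    rw [Matrix.transpose_mul, Matrix.transpose_mul, Matrix.transpose_transpose, hB,
      Matrix.mul_assoc]
  refine ⟨A * B * Aᵀ, hB', ?_⟩
  rw [mul_inv_eq_iff_eq_mul]
  apply Subtype.ext
  change u.1 * fromBlocks 1 B 0 1 = fromBlocks 1 (A * B * Aᵀ) 0 1 * u.1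
  rw [hu1, Matrix.fromBlocks_multiply, Matrix.fromBlocks_multiply]
  simp only [Matrix.mul_zero, Matrix.zero_mul, add_zero, zero_add, Matrix.mul_one,
    Matrix.one_mul, Matrix.mul_assoc, f1]
  rw [add_comm]

end Cfsg.Agent.Lib.Helper6.SpQ1
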