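import Mathlib
import Cfsg.Agent.Lib.Helper91.SpU
import Cfsg.Agent.Lib.Helper6.SpBlk

set_option autoImplicit false

namespace Cfsg.Agent.Lib.Helper6.SpQ2

open Matrix Cfsg.Agent.Lib.Helper91.SpU Cfsg.Agent.Lib.Helper6.SpBlk

theorem QQ_selfcent (m : ℕ) (K : Type*) [Field K] (c : Matrix.symplecticGroup (Fin m) K)
    (hc : InU m K c)
    (hcomm : ∀ (B : Matrix (Fin m) (Fin m) K) (hB : Bᵀ = B), c * sq m K B hB = sq m K B hB * c) :
    ∃ (B : Matrix (Fin m) (Fin m) K) (hB : Bᵀ = B), c = sq m K B hB := by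
  obtain ⟨f1, f2, f3, f4, f5, f6⟩ := blk_facts m K c hc.1
  -- `A * E_jj = E_jj * D`
  have key : ∀ j : Fin m, c.1.toBlocks₁₁ * Matrix.single j j (1 : K)
      = Matrix.single j j (1 : K) * c.1.toBlocks₂₂ := by
    intro j
    have h := congrArg Subtype.val (hcomm (Matrix.single j j (1 : K)) (by simp))
    change c.1 * fromBlocks 1 (Matrix.single j j (1 : K)) 0 1
      = fromBlocks 1 (Matrix.single j j (1 : K)) 0 1 * c.1 at h
    rw [blk_eq0 m K c hc.1, Matrix.fromBlocks_multiply, Matrix.fromBlocks_multiply] at h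
    have h12 := (Matrix.fromBlocks_inj.1 h).2.1
    simp only [Matrix.mul_one, Matrix.one_mul] at h12
    exact add_right_cancel (by rw [h12, add_comm])
  have hA : c.1.toBlocks₁₁ = 1 := by
    ext r j
    by_cases hrj : r = j
    · subst hrj
      rw [hc.2.2 r, Matrix.one_apply_eq]
    · rw [Matrix.one_apply_ne hrj]
      have h := congrFun (congrFun (key j) r) j
      rw [Matrix.mul_apply, Matrix.mul_apply] at h
      simp only [Matrix.single_apply, mul_ite, mul_one, mul_zero, ite_mul, one_mul, zero_mul] at h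
      simpa [hrj, Ne.symm hrj] using h
  have hD : c.1.toBlocks₂₂ = 1 := by
    rw [hA, Matrix.transpose_one, Matrix.one_mul] at f1
    exact f1
  have hBs : c.1.toBlocks₁₂ᵀ = c.1.toBlocks₁₂ := by
    rw [hD, Matrix.mul_one, Matrix.transpose_one, Matrix.one_mul] at f5
    exact f5
  refine ⟨c.1.toBlocks₁₂, hBs, ?_⟩
  apply Subtype.ext
  rw [sq_coe]
  conv_lhs => rw [blk_eq0 m K c hc.1, hA, hD]

end Cfsg.Agent.Lib.Helper6.SpQ2
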