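import Mathlib
import Cfsg.Agent.Lib.Helper91.SuU

set_option autoImplicit false

namespace Cfsg.Agent.Lib.Helper6.SuEQ2

open Matrix Cfsg.Agent.Lib.Helper91.SpU Cfsg.Agent.Lib.Helper91.SuU

/-- block form of an element with vanishing lower left block -/
theorem ublk_eq0 (l : ℕ) (K : Type*) [Field K] (σ : K →+* K) (c : GU l K σ)
    (h0 : (mat l K σ c).toBlocks₂₁ = 0) :
    mat l K σ c = fromBlocks (mat l K σ c).toBlocks₁₁ (mat l K σ c).toBlocks₁₂ 0
      (mat l K σ c).toBlocks₂₂ := by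
  conv_lhs => rw [← Matrix.fromBlocks_toBlocks (mat l K σ c), h0]

/-- the relations between the blocks -/
theorem ublk_facts (l : ℕ) (K : Type*) [Field K] (σ : K →+* K) (c : GU l K σ)
    (h0 : (mat l K σ c).toBlocks₂₁ = 0) :
    (mat l K σ c).toBlocks₁₁ᵀ * (mat l K σ c).toBlocks₂₂.map σ = 1 ∧
    (mat l K σ c).toBlocks₂₂ᵀ * (mat l K σ c).toBlocks₁₂.map σ +
      (mat l K σ c).toBlocks₁₂ᵀ * (mat l K σ c).toBlocks₂₂.map σ = 0 := by
  have h := mat_mem l K σ c
  rw [ublk_eq0 l K σ c h0] at h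
  rw [Matrix.fromBlocks_transpose, Matrix.fromBlocks_map, JJ, Matrix.fromBlocks_multiply,
    Matrix.fromBlocks_multiply] at h
  have h12 := (Matrix.fromBlocks_inj.1 h).2.1
  have h22 := (Matrix.fromBlocks_inj.1 h).2.2.2
  simp only [Matrix.mul_zero, Matrix.zero_mul, Matrix.mul_one, zero_add, add_zero,
    Matrix.transpose_zero] at h12 h22
  exact ⟨h12, h22⟩

theorem QQ_selfcent (l : ℕ) (K : Type*) [Field K] (σ : K →+* K) (hσ : ∀ x, σ (σ x) = x)
    (ε : K) (hε0 : ε ≠ 0) (hε : σ ε = -ε) (c : GU l K σ) (hc : InU l K σ c)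
    (hcomm : ∀ (B : Matrix (Fin l) (Fin l) K) (hB : B.map σ = -Bᵀ),
      c * usq l K σ B hB = usq l K σ B hB * c) :
    ∃ (B : Matrix (Fin l) (Fin l) K) (hB : B.map σ = -Bᵀ), c = usq l K σ B hB := by
  obtain ⟨f1, f2⟩ := ublk_facts l K σ c hc.1
  -- `A * (ε E_jj) = (ε E_jj) * D`
  have key : ∀ j : Fin l, (mat l K σ c).toBlocks₁₁ * Matrix.single j j ε
      = Matrix.single j j ε * (mat l K σ c).toBlocks₂₂ := by
    intro j
    have h := congrArg (mat l K σ) (hcomm (Matrix.single j j ε) (skew_single l K σ j ε hε))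
    rw [mat_mul, mat_mul, usq_mat, ublk_eq0 l K σ c hc.1, Matrix.fromBlocks_multiply,
      Matrix.fromBlocks_multiply] at h
    have h12 := (Matrix.fromBlocks_inj.1 h).2.1
    simp only [Matrix.mul_one, Matrix.one_mul] at h12
    exact add_right_cancel (by rw [h12, add_comm])
  have hA : (mat l K σ c).toBlocks₁₁ = 1 := by
    ext r j
    by_cases hrj : r = j
    · subst hrj
      rw [hc.2.2 r, Matrix.one_apply_eq]
    · rw [Matrix.one_apply_ne hrj]
      have h := congrFun (congrFun (key j) r) j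
      rw [Matrix.mul_apply, Matrix.mul_apply] at h
      simp only [Matrix.single_apply, mul_ite, mul_zero, ite_mul, zero_mul] at h
      have h' : (mat l K σ c).toBlocks₁₁ r j * ε = 0 := by
        simpa [hrj, Ne.symm hrj] using h
      rcases mul_eq_zero.mp h' with h1 | h1
      · exact h1
      · exact absurd h1 hε0
  have hDσ : (mat l K σ c).toBlocks₂₂.map σ = 1 := by
    rw [hA, Matrix.transpose_one, Matrix.one_mul] at f1
    exact f1
  have hD : (mat l K σ c).toBlocks₂₂ = 1 := by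
    have h1 : ((mat l K σ c).toBlocks₂₂.map σ).map σ = (mat l K σ c).toBlocks₂₂ := by
      ext i j
      simp [hσ]
    rw [← h1, hDσ, Matrix.map_one _ (map_zero σ) (map_one σ)]
  have hBs : (mat l K σ c).toBlocks₁₂.map σ = -(mat l K σ c).toBlocks₁₂ᵀ := by
    rw [hDσ, hD, Matrix.mul_one, Matrix.transpose_one, Matrix.one_mul] at f2
    exact eq_neg_of_add_eq_zero_left f2
  refine ⟨(mat l K σ c).toBlocks₁₂, hBs, ?_⟩
  apply mat_ext
  rw [usq_mat]
  conv_lhs => rw [ublk_eq0 l K σ c hc.1, hA, hD]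

end Cfsg.Agent.Lib.Helper6.SuEQ2
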